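import Mathlib
import Cfsg.Agent.Classical.TransvAlg
import Cfsg.Agent.Eq.Def_GeometricClasses

/-!
Subgroups of GL described through the transvections they contain: the vectors all of whose
transvections lie in a subgroup form a subspace.
-/

set_option autoImplicit false

namespace CfsgLib.FullCentres

open Matrix CfsgLib.TransvGL

variable {ι : Type} [Fintype ι] [DecidableEq ι] {F : Type*} [Field F]

/-- The transvection `x ↦ x + φ x • a` lies in `M`. -/
def Has (M : Subgroup (GL ι F)) (a : ι → F) (φ : Module.Dual F (ι → F)) : Prop :=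
  ∃ h : φ a = 0, transv h ∈ M

variable {M : Subgroup (GL ι F)} {a a' : ι → F} {φ ψ : Module.Dual F (ι → F)}

theorem Has.apply_eq (h : Has M a φ) : φ a = 0 := h.1

theorem has_zero_left (φ : Module.Dual F (ι → F)) : Has M 0 φ := by
  refine ⟨map_zero _, ?_⟩
  convert one_mem M using 1
  exact ext_mulVec fun x => by simp [transv_mulVec]

theorem has_zero_right (a : ι → F) : Has M a 0 := by
  refine ⟨LinearMap.zero_apply _, ?_⟩
  convert one_mem M using 1
  exact ext_mulVec fun x => by simp [transv_mulVec]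

theorem Has.neg (h : Has M a φ) : Has M a (-φ) := by
  obtain ⟨h1, h2⟩ := h
  exact ⟨by simp [h1], by rw [← transv_inv h1]; exact M.inv_mem h2⟩

theorem Has.add (h : Has M a φ) (h' : Has M a ψ) : Has M a (φ + ψ) := by
  obtain ⟨h1, h2⟩ := h
  obtain ⟨h3, h4⟩ := h'
  exact ⟨by simp [h1, h3], by rw [← transv_mul_left h1 h3]; exact M.mul_mem h2 h4⟩

theorem Has.sub (h : Has M a φ) (h' : Has M a ψ) : Has M a (φ - ψ) := by
  rw [sub_eq_add_neg]; exact h.add h'.neg

theorem Has.add_left (h : Has M a φ) (h' : Has M a' φ) : Has M (a + a') φ := by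
  obtain ⟨h1, h2⟩ := h
  obtain ⟨h3, h4⟩ := h'
  refine ⟨by rw [map_add, h1, h3, add_zero], ?_⟩
  convert M.mul_mem h2 h4 using 1
  refine ext_mulVec fun x => ?_
  rw [Units.val_mul, ← mulVec_mulVec, transv_mulVec, transv_mulVec, transv_mulVec, map_add, map_smul,
    h3, smul_eq_mul, mul_zero, add_zero]
  module

theorem Has.neg_left (h : Has M a φ) : Has M (-a) φ := by
  obtain ⟨h1, h2⟩ := h.neg
  refine ⟨by rw [map_neg, h.1, neg_zero], ?_⟩
  convert h2 using 1
  exact transv_congr _ _ fun x => by simp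

theorem Has.sub_left (h : Has M a φ) (h' : Has M a' φ) : Has M (a - a') φ := by
  rw [sub_eq_add_neg]; exact h.add_left h'.neg_left

theorem has_smul_swap {s : F} (hs : s ≠ 0) : Has M (s • a) φ ↔ Has M a (s • φ) := by
  constructor <;> rintro ⟨h1, h2⟩
  · have h0 : φ a = 0 := by simpa [hs] using h1
    refine ⟨by simp [h0], ?_⟩
    convert h2 using 1
    exact transv_congr _ _ fun x => by simp [smul_smul, mul_comm]
  · have h0 : φ a = 0 := by simpa [hs] using h1
    refine ⟨by simp [h0], ?_⟩
    convert h2 using 1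
    exact transv_congr _ _ fun x => by simp [smul_smul, mul_comm]

/-- Conjugating by an element of `M`. -/
theorem Has.conj (h : Has M a φ) {g : GL ι F} (hg : g ∈ M)
    (hψ : ∀ x, ψ ((g : Matrix ι ι F) *ᵥ x) = φ x) : Has M ((g : Matrix ι ι F) *ᵥ a) ψ := by
  obtain ⟨h1, h2⟩ := h
  refine ⟨by rw [hψ]; exact h1, ?_⟩
  rw [← conj_transv g h1 _ rfl hψ]
  exact M.mul_mem (M.mul_mem hg h2) (M.inv_mem hg)

/-- Conjugating by an element of `M`, with the functional computed. -/
theorem Has.conj' (h : Has M a φ) {g : GL ι F} (hg : g ∈ M) :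
    Has M ((g : Matrix ι ι F) *ᵥ a) (φ ∘ₗ Matrix.toLin' ((g⁻¹ : GL ι F) : Matrix ι ι F)) :=
  h.conj hg fun x => by
    rw [LinearMap.comp_apply, Matrix.toLin'_apply, inv_mulVec_mulVec]

/-- All transvections with centre `a` lie in `M`. -/
def Full (M : Subgroup (GL ι F)) (a : ι → F) : Prop :=
  ∀ φ : Module.Dual F (ι → F), φ a = 0 → Has M a φ

theorem Full.smul (h : Full M a) (s : F) : Full M (s • a) := fun φ hφ => by
  by_cases hs : s = 0
  · rw [hs, zero_smul]; exact has_zero_left φ
  · rw [has_smul_swap hs]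
    refine h _ ?_
    rw [LinearMap.smul_apply]
    rw [map_smul] at hφ
    exact hφ

theorem Full.image (h : Full M a) {g : GL ι F} (hg : g ∈ M) :
    Full M ((g : Matrix ι ι F) *ᵥ a) := fun ψ hψ => by
  refine (h (ψ ∘ₗ Matrix.toLin' (g : Matrix ι ι F)) ?_).conj hg fun x => ?_
  · rwa [LinearMap.comp_apply, Matrix.toLin'_apply]
  · rw [LinearMap.comp_apply, Matrix.toLin'_apply]

theorem Full.add (h : Full M a) (h' : Full M a') : Full M (a + a') := by
  by_cases hd : a ∈ Submodule.span F {a'}
  · obtain ⟨s, rfl⟩ := Submodule.mem_span_singleton.1 hd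
    rw [show s • a' + a' = (s + 1) • a' by module]
    exact h'.smul _
  · obtain ⟨φ, hφa, hφ⟩ := Submodule.exists_dual_map_eq_bot_of_notMem hd inferInstance
    have h0 : ((φ a)⁻¹ • φ) a' = 0 := by
      have : φ a' ∈ Submodule.map φ (Submodule.span F {a'}) :=
        Submodule.mem_map_of_mem (Submodule.mem_span_singleton_self a')
      rw [hφ] at this
      simp [(Submodule.mem_bot F).1 this]
    obtain ⟨h1, h2⟩ := h' _ h0
    have := h.image h2
    rwa [transv_mulVec, LinearMap.smul_apply, smul_eq_mul, inv_mul_cancel₀ hφa, one_smul] at this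

/-- The vectors all of whose transvections lie in `M`. -/
def fullSubmodule (M : Subgroup (GL ι F)) : Submodule F (ι → F) where
  carrier := {a | Full M a}
  add_mem' ha hb := ha.add hb
  zero_mem' := fun φ _ => has_zero_left φ
  smul_mem' s _ h := h.smul s

theorem specialLinear_le_of_full {S : Set (ι → F)} (hS : Submodule.span F S = ⊤)
    (h : ∀ a ∈ S, Full M a) : Cfsg.Geo.specialLinear ι F ≤ M :=
  specialLinear_le_of_transv_mem M fun φ v hv => by
    have : v ∈ fullSubmodule M := by
      have hle : Submodule.span F S ≤ fullSubmodule M := Submodule.span_le.2 h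
      exact hle (hS ▸ Submodule.mem_top)
    exact (this φ hv).2

end CfsgLib.FullCentres
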