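import Mathlib
import Cfsg.Agent.Classical.TransvAlg
import Cfsg.Agent.Eq.Def_GeometricClasses

/-!
Pseudo-reflections `x ↦ x + (δ - 1) χ x • y` with `χ y = 1`.
-/

set_option autoImplicit false

namespace CfsgLib.PseudoRefl

open Matrix CfsgLib.TransvGL

variable {ι : Type} [Fintype ι] [DecidableEq ι] {F : Type*} [Field F]

theorem det_mat (χ : Module.Dual F (ι → F)) {y : ι → F} (hy : χ y = 1) (δ : F) :
    (LinearMap.toMatrix' (LinearMap.transvection ((δ - 1) • χ) y)).det = δ := by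
  rw [LinearMap.det_toMatrix', LinearMap.transvection.det, LinearMap.smul_apply, hy, smul_eq_mul,
    mul_one, add_sub_cancel]

/-- The pseudo-reflection with eigenvector `y` of eigenvalue `δ`, fixing the kernel of `χ`. -/
noncomputable def refl (χ : Module.Dual F (ι → F)) {y : ι → F} (hy : χ y = 1) (δ : Fˣ) : GL ι F :=
  Matrix.GeneralLinearGroup.mkOfDetNeZero
    (LinearMap.toMatrix' (LinearMap.transvection (((δ : F) - 1) • χ) y))
    (by rw [det_mat χ hy]; exact δ.ne_zero)

theorem refl_mulVec (χ : Module.Dual F (ι → F)) {y : ι → F} (hy : χ y = 1) (δ : Fˣ) (x : ι → F) :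
    (refl χ hy δ : Matrix ι ι F) *ᵥ x = x + (((δ : F) - 1) * χ x) • y := by
  show LinearMap.toMatrix' _ *ᵥ x = _
  rw [LinearMap.toMatrix'_mulVec, LinearMap.transvection.apply]
  rfl

theorem det_refl (χ : Module.Dual F (ι → F)) {y : ι → F} (hy : χ y = 1) (δ : Fˣ) :
    (refl χ hy δ : Matrix ι ι F).det = δ :=
  det_mat χ hy δ

theorem mem_specialLinear_iff {g : GL ι F} :
    g ∈ Cfsg.Geo.specialLinear ι F ↔ (g : Matrix ι ι F).det = 1 := by
  rw [Cfsg.Geo.specialLinear, MonoidHom.mem_ker, Units.ext_iff]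
  rfl

end CfsgLib.PseudoRefl
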