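import Mathlib
import Cfsg.Agent.Classical.FullCentres
import Cfsg.Agent.Classical.PseudoRefl
import Cfsg.Agent.Classical.DecompProj
import Cfsg.Agent.Eq.Def_GeometricClasses

/-!
Overgroups in SL of the stabiliser of a decomposition into members of dimension at least two.
-/

set_option autoImplicit false

namespace CfsgLib.BlockOvergroup

open Matrix CfsgLib.TransvGL CfsgLib.FullCentres CfsgLib.PseudoRefl CfsgLib.DecompProj

variable {ι : Type} [Fintype ι] [DecidableEq ι] {F : Type*} [Field F]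
variable {t m : ℕ} {D : Fin t → Submodule F (ι → F)} (hD : Cfsg.Geo.IsMDecomposition m D)
include hD

local notation "P" => proj hD

theorem proj_proj (i : Fin t) (x : ι → F) : P i (P i x) = P i x := by
  rw [proj_of_mem hD (proj_mem hD i x), if_pos rfl]

/-- A functional supported on `D i` kills every other member. -/
theorem apply_other {i j : Fin t} (hij : j ≠ i) {x : ι → F} (hx : x ∈ D j)
    (φ : Module.Dual F (ι → F)) : (φ ∘ₗ P i) x = 0 := by
  rw [LinearMap.comp_apply, proj_of_mem hD hx, if_neg (Ne.symm hij), map_zero]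

theorem transv_mem_stab {i : Fin t} {a : ι → F} (ha : a ∈ D i) {φ : Module.Dual F (ι → F)}
    (hφ : φ ∘ₗ P i = φ) (h : φ a = 0) : transv h ∈ Cfsg.Geo.decompositionStabilizer D := by
  refine mem_decompositionStabilizer_of_maps hD 1 fun j x hx => ?_
  show _ ∈ D j
  rw [transv_mulVec]
  by_cases hj : j = i
  · exact (D j).add_mem hx ((D j).smul_mem _ (hj ▸ ha))
  · rw [← hφ, apply_other hD hj hx, zero_smul, add_zero]; exact hx

theorem refl_mem_stab {i : Fin t} {y : ι → F} (hy : y ∈ D i) {χ : Module.Dual F (ι → F)}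
    (hχ : χ ∘ₗ P i = χ) (h : χ y = 1) (δ : Fˣ) :
    refl χ h δ ∈ Cfsg.Geo.decompositionStabilizer D := by
  refine mem_decompositionStabilizer_of_maps hD 1 fun j x hx => ?_
  show _ ∈ D j
  rw [refl_mulVec]
  by_cases hj : j = i
  · exact (D j).add_mem hx ((D j).smul_mem _ (hj ▸ hy))
  · rw [← hχ, apply_other hD hj hx, mul_zero, zero_smul, add_zero]; exact hx

/-- A functional on `D i` killing `a` with value one at `x`. -/
theorem exists_supp {i : Fin t} {x a : ι → F} (hx : x ∈ D i) (h : x ∉ Submodule.span F {a}) :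
    ∃ χ : Module.Dual F (ι → F), χ ∘ₗ P i = χ ∧ χ x = 1 ∧ (a ∈ D i → χ a = 0) := by
  obtain ⟨φ, hφx, hφ⟩ := Submodule.exists_dual_map_eq_bot_of_notMem h inferInstance
  have ha0 : φ a = 0 := by
    have h1 : φ a ∈ Submodule.map φ (Submodule.span F {a}) :=
      Submodule.mem_map_of_mem (Submodule.mem_span_singleton_self a)
    rw [hφ] at h1
    exact (Submodule.mem_bot F).1 h1
  refine ⟨((φ x)⁻¹ • φ) ∘ₗ P i, ?_, ?_, fun ha => ?_⟩
  · ext y; simp [proj_proj hD]
  · rw [LinearMap.comp_apply, proj_of_mem hD hx, if_pos rfl, LinearMap.smul_apply, smul_eq_mul,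
      inv_mul_cancel₀ hφx]
  · rw [LinearMap.comp_apply, proj_of_mem hD ha, if_pos rfl, LinearMap.smul_apply, ha0, smul_zero]

theorem exists_not_span (hm : 2 ≤ m) (i : Fin t) (a : ι → F) :
    ∃ x ∈ D i, x ∉ Submodule.span F {a} := by
  by_contra hc
  push Not at hc
  have h1 := Submodule.finrank_mono (show D i ≤ Submodule.span F {a} from hc)
  have h2 := (finrank_span_le_card (R := F) ({a} : Set (ι → F)))
  rw [hD.finrank_eq] at h1
  simp at h2
  omega

theorem swap_exists {a b : Fin t} (hab : a ≠ b) :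
    ∃ g : GL ι F, g ∈ Cfsg.Geo.specialLinear ι F ∧ g ∈ Cfsg.Geo.decompositionStabilizer D ∧
      ∀ i, ∀ x ∈ D i, (g : Matrix ι ι F) *ᵥ x ∈ D (Equiv.swap a b i) := by
  let θ : D a ≃ₗ[F] D b := LinearEquiv.ofFinrankEq _ _ (by rw [hD.finrank_eq, hD.finrank_eq])
  let pa : (ι → F) →ₗ[F] D a := (P a).codRestrict (D a) (proj_mem hD a)
  let pb : (ι → F) →ₗ[F] D b := (P b).codRestrict (D b) (proj_mem hD b)
  let L : (ι → F) →ₗ[F] (ι → F) := LinearMap.id - P a - P b +
    (D b).subtype ∘ₗ θ.toLinearMap ∘ₗ pa + (D a).subtype ∘ₗ θ.symm.toLinearMap ∘ₗ pb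
  have hL : ∀ x, L x = x - P a x - P b x + (θ (pa x) : ι → F) + (θ.symm (pb x) : ι → F) :=
    fun _ => rfl
  have hLL : ∀ x, L (L x) = x := fun x => by
    have ea : P a (L x) = (θ.symm (pb x) : ι → F) := by
      rw [hL, map_add, map_add, map_sub, map_sub, proj_proj hD, proj_of_mem hD (proj_mem hD b x),
        if_neg hab, proj_of_mem hD (θ (pa x)).2, if_neg hab, proj_of_mem hD (θ.symm (pb x)).2,
        if_pos rfl]
      abel
    have eb : P b (L x) = (θ (pa x) : ι → F) := by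
      rw [hL, map_add, map_add, map_sub, map_sub, proj_proj hD, proj_of_mem hD (proj_mem hD a x),
        if_neg (Ne.symm hab), proj_of_mem hD (θ (pa x)).2, if_pos rfl,
        proj_of_mem hD (θ.symm (pb x)).2, if_neg (Ne.symm hab)]
      abel
    have e1 : pa (L x) = θ.symm (pb x) := Subtype.ext ea
    have e2 : pb (L x) = θ (pa x) := Subtype.ext eb
    rw [hL (L x), ea, eb, e1, e2, θ.apply_symm_apply, θ.symm_apply_apply, hL]
    show _ = x
    simp only [pa, pb, LinearMap.codRestrict_apply]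
    abel
  set s := ofEquiv (LinearEquiv.ofInvolutive L hLL) with hs
  have hsD : ∀ i, ∀ x ∈ D i, (s : Matrix ι ι F) *ᵥ x ∈ D (Equiv.swap a b i) := fun i x hx => by
    rw [hs, ofEquiv_mulVec]
    show L x ∈ _
    have za : a ≠ i → pa x = 0 := fun h => Subtype.ext (by
      show P a x = 0
      rw [proj_of_mem hD hx, if_neg h])
    have zb : b ≠ i → pb x = 0 := fun h => Subtype.ext (by
      show P b x = 0
      rw [proj_of_mem hD hx, if_neg h])
    rw [hL, proj_of_mem hD hx, proj_of_mem hD hx]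
    rcases eq_or_ne i a with rfl | hia
    · rw [Equiv.swap_apply_left, if_pos rfl, if_neg (Ne.symm hab), zb (Ne.symm hab)]
      simp
    rcases eq_or_ne i b with rfl | hib
    · rw [Equiv.swap_apply_right, if_pos rfl, if_neg hab, za hab]
      simp
    · rw [Equiv.swap_apply_of_ne_of_ne hia hib, za (Ne.symm hia), zb (Ne.symm hib),
        if_neg (Ne.symm hia), if_neg (Ne.symm hib)]
      simpa using hx
  obtain ⟨y, hy, hy0⟩ := exists_ne_zero hD a
  obtain ⟨χ, hχ, hχy, -⟩ := exists_supp hD hy (a := 0) (by simpa using hy0)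
  have hdet : (s : Matrix ι ι F).det ≠ 0 :=
    (((Matrix.isUnit_iff_isUnit_det (s : Matrix ι ι F)).1 s.isUnit)).ne_zero
  set r := refl χ hχy (Units.mk0 _ (inv_ne_zero hdet)) with hr
  have hrs : ∀ i, ∀ x ∈ D i, ((s * r : GL ι F) : Matrix ι ι F) *ᵥ x ∈ D (Equiv.swap a b i) := by
    intro i x hx
    rw [Units.val_mul, ← mulVec_mulVec]
    refine hsD i _ ?_
    rw [hr, refl_mulVec]
    by_cases hia : i = a
    · exact (D i).add_mem hx ((D i).smul_mem _ (hia ▸ hy))
    · rw [← hχ, apply_other hD hia hx, mul_zero, zero_smul, add_zero]; exact hx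
  refine ⟨s * r, ?_, mem_decompositionStabilizer_of_maps hD _ hrs, hrs⟩
  rw [mem_specialLinear_iff, Units.val_mul, Matrix.det_mul, hr, det_refl, Units.val_mk0,
    mul_inv_cancel₀ hdet]

variable {M : Subgroup (GL ι F)}
  (hH : Cfsg.Geo.decompositionStabilizer D ⊓ Cfsg.Geo.specialLinear ι F ≤ M)
include hH

theorem root_mem {i : Fin t} {a : ι → F} (ha : a ∈ D i) {φ : Module.Dual F (ι → F)}
    (hφ : φ ∘ₗ P i = φ) (h : φ a = 0) : Has M a φ :=
  ⟨h, hH ⟨transv_mem_stab hD ha hφ h, transv_mem_specialLinear h⟩⟩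

/-- Moving the centre inside a member, fixing the functional. -/
theorem centre_step {i : Fin t} {a b : ι → F} {ψ : Module.Dual F (ι → F)} (h : Has M a ψ)
    (hb : b ∈ D i) (hψb : ψ b = 0) (hab : P i a ∉ Submodule.span F {b}) : Has M b ψ := by
  obtain ⟨χ, hχ, hχa, hχb⟩ := exists_supp hD (proj_mem hD i a) hab
  obtain ⟨h0, hτ⟩ := root_mem hD hH hb hχ (hχb hb)
  have h1 := h.conj hτ (ψ := ψ) (fun x => by
    rw [transv_mulVec, map_add, map_smul, hψb, smul_zero, add_zero])
  have ha : χ a = 1 := by rw [← hχ, LinearMap.comp_apply, hχa]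
  rw [transv_mulVec, ha, one_smul] at h1
  simpa using h1.sub_left h

/-- Moving the functional inside a member, fixing the centre. -/
theorem funct_step {r : Fin t} {b c : ι → F} {ψ χ : Module.Dual F (ι → F)} (h : Has M b ψ)
    (hc : c ∈ D r) (hψc : ψ c = 1) (hχ : χ ∘ₗ P r = χ) (hχc : χ c = 0) (hχb : χ b = 0) :
    Has M b χ := by
  obtain ⟨h0, hτ⟩ := root_mem hD hH hc hχ hχc
  have h1 := h.conj hτ (ψ := ψ - χ) (fun x => by
    rw [transv_mulVec, LinearMap.sub_apply, map_add, map_add, map_smul, map_smul, hψc, hχc]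
    simp)
  rw [transv_mulVec, hχb, zero_smul, add_zero] at h1
  simpa using h.sub h1

theorem pair_full (hm : 2 ≤ m) {i r : Fin t} (hir : i ≠ r) {b : ι → F} (hb : b ∈ D i) (hb0 : b ≠ 0)
    {χ : Module.Dual F (ι → F)} (hχ : χ ∘ₗ P r = χ) (hχ0 : χ ≠ 0) (h : Has M b χ) :
    ∀ c ∈ D i, ∀ ψ : Module.Dual F (ι → F), ψ ∘ₗ P r = ψ → Has M c ψ := by
  have hsupp : ∀ ψ : Module.Dual F (ι → F), ψ ∘ₗ P r = ψ → ∀ x ∈ D i, ψ x = 0 := fun ψ hψ x hx => by
    rw [← hψ]; exact apply_other hD hir hx ψ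
  have centres : ∀ c ∈ D i, Has M c χ := by
    have hout : ∀ c ∈ D i, b ∉ Submodule.span F {c} → Has M c χ := fun c hc hbc => by
      refine centre_step hD hH h hc (hsupp χ hχ c hc) ?_
      rwa [proj_of_mem hD hb, if_pos rfl]
    intro c hc
    by_cases hbc : b ∈ Submodule.span F {c}
    · obtain ⟨y, hy, hyb⟩ := exists_not_span hD hm i b
      by_cases hc0 : c = 0
      · rw [hc0]; exact has_zero_left χ
      have hcb : c ∈ Submodule.span F {b} := by
        obtain ⟨s, hs⟩ := Submodule.mem_span_singleton.1 hbc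
        have hs0 : s ≠ 0 := fun e => hb0 (by rw [← hs, e, zero_smul])
        exact Submodule.mem_span_singleton.2 ⟨s⁻¹, by rw [← hs, smul_smul, inv_mul_cancel₀ hs0, one_smul]⟩
      have h1 := hout (c + y) ((D i).add_mem hc hy) fun hm' => hyb (by
        obtain ⟨s, hs⟩ := Submodule.mem_span_singleton.1 hm'
        have hs0 : s ≠ 0 := fun e => hb0 (by rw [← hs, e, zero_smul])
        have hy' : y = s⁻¹ • b - c := by
          rw [← hs, smul_smul, inv_mul_cancel₀ hs0, one_smul, add_sub_cancel_left]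
        rw [hy']
        exact Submodule.sub_mem _ (Submodule.smul_mem _ _ (Submodule.mem_span_singleton_self b)) hcb)
      have h2 := hout y hy fun hm' => hyb (by
        obtain ⟨s, hs⟩ := Submodule.mem_span_singleton.1 hm'
        have hs0 : s ≠ 0 := fun e => hb0 (by rw [← hs, e, zero_smul])
        exact Submodule.mem_span_singleton.2 ⟨s⁻¹, by rw [← hs, smul_smul, inv_mul_cancel₀ hs0, one_smul]⟩)
      simpa using h1.sub_left h2
    · exact hout c hc hbc
  intro c hc ψ hψ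
  obtain ⟨z, hz⟩ : ∃ z, χ z ≠ 0 := by
    by_contra hno
    push Not at hno
    exact hχ0 (LinearMap.ext fun z => hno z)
  set e := (χ z)⁻¹ • P r z with he
  have her : e ∈ D r := (D r).smul_mem _ (proj_mem hD r z)
  have hχe : χ e = 1 := by
    rw [he, map_smul, ← LinearMap.comp_apply, hχ, smul_eq_mul, inv_mul_cancel₀ hz]
  have hker : (ψ - ψ e • χ) ∘ₗ P r = ψ - ψ e • χ := by
    rw [LinearMap.sub_comp, LinearMap.smul_comp, hψ, hχ]
  have h1 : Has M c (ψ - ψ e • χ) := funct_step hD hH (centres c hc) her hχe hker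
    (by simp [hχe]) (hsupp _ hker c hc)
  have h2 : Has M c (ψ e • χ) := by
    by_cases hs : ψ e = 0
    · rw [hs, zero_smul]; exact has_zero_right c
    · exact (has_smul_swap hs).1 (centres _ ((D i).smul_mem _ hc))
  simpa using h1.add h2

theorem exists_mixed (hm : 2 ≤ m) (ht : m = 2 → 3 ≤ t ∧ ∃ l : F, l ≠ 0 ∧ l ≠ 1) {a : ι → F}
    (ha : ∀ j, a ∉ D j) {ψ : Module.Dual F (ι → F)} (h : Has M a ψ) (hψ0 : ψ ≠ 0) :
    ∃ i r, i ≠ r ∧ ∃ b ∈ D i, b ≠ 0 ∧ ∃ χ : Module.Dual F (ι → F), χ ∘ₗ P r = χ ∧ χ ≠ 0 ∧ Has M b χ := by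
  classical
  obtain ⟨i₀, l₀, hil, hi₀, hl₀⟩ : ∃ i l, i ≠ l ∧ P i a ≠ 0 ∧ P l a ≠ 0 := by
    by_contra hc
    push Not at hc
    by_cases hex : ∃ i, P i a ≠ 0
    · obtain ⟨i, hi⟩ := hex
      refine ha i ?_
      rw [← sum_proj hD a, Finset.sum_eq_single i (fun j _ hj => hc i j (Ne.symm hj) hi) (by simp)]
      exact proj_mem hD i a
    · push Not at hex
      refine ha ⟨0, by have := hD.two_le; omega⟩ ?_
      rw [← sum_proj hD a, Finset.sum_eq_zero fun j _ => hex j]
      exact Submodule.zero_mem _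
  -- centre in a member and functional leaving it
  have finish : ∀ (ψ : Module.Dual F (ι → F)), Has M a ψ → ∀ i r, i ≠ r → ψ ∘ₗ P r ≠ 0 →
      (∃ b ∈ D i, ψ b = 0 ∧ P i a ∉ Submodule.span F {b} ∧ b ≠ 0) →
      ∃ i r, i ≠ r ∧ ∃ b ∈ D i, b ≠ 0 ∧ ∃ χ : Module.Dual F (ι → F), χ ∘ₗ P r = χ ∧ χ ≠ 0 ∧ Has M b χ := by
    intro ψ hψ i r hir hr hb
    obtain ⟨b, hbi, hψb, hab, hb0⟩ := hb
    have h1 := centre_step hD hH hψ hbi hψb hab
    obtain ⟨z, hz⟩ : ∃ z, ψ (P r z) ≠ 0 := by
      by_contra hno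
      push Not at hno
      exact hr (LinearMap.ext fun z => hno z)
    set c := (ψ (P r z))⁻¹ • P r z with hc
    have hcr : c ∈ D r := (D r).smul_mem _ (proj_mem hD r z)
    have hψc : ψ c = 1 := by rw [hc, map_smul, smul_eq_mul, inv_mul_cancel₀ hz]
    obtain ⟨y, hy, hyc⟩ := exists_not_span hD hm r c
    obtain ⟨χ, hχ, hχy, hχc⟩ := exists_supp hD hy hyc
    refine ⟨i, r, hir, b, hbi, hb0, χ, hχ, fun e => ?_, funct_step hD hH h1 hcr hψc hχ (hχc hcr) ?_⟩
    · rw [e] at hχy; exact zero_ne_one hχy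
    · rw [← hχ]; exact apply_other hD hir hbi χ
  -- a component with room in the kernel
  have room : ∀ (ψ : Module.Dual F (ι → F)) (i : Fin t), P i a ≠ 0 →
      (3 ≤ m ∨ ψ ∘ₗ P i = 0 ∨ ψ (P i a) ≠ 0) →
      ∃ b ∈ D i, ψ b = 0 ∧ P i a ∉ Submodule.span F {b} ∧ b ≠ 0 := by
    intro ψ i hi hcase
    have hK : ∃ b ∈ D i, ψ b = 0 ∧ b ∉ Submodule.span F {P i a} := by
      by_contra hno
      push Not at hno
      let L : D i →ₗ[F] F := ψ ∘ₗ (D i).subtype
      have hle : (LinearMap.ker L).map (D i).subtype ≤ Submodule.span F {P i a} := by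
        rintro _ ⟨x, hx, rfl⟩
        exact hno x x.2 (LinearMap.mem_ker.1 hx)
      have h1 := LinearMap.finrank_range_add_finrank_ker L
      rw [hD.finrank_eq] at h1
      have h2 : Module.finrank F (LinearMap.range L) ≤ 1 :=
        (Submodule.finrank_le _).trans (Module.finrank_self F).le
      have h3 := Submodule.finrank_mono hle
      rw [Submodule.finrank_map_subtype_eq, finrank_span_singleton hi] at h3
      rcases hcase with h | h | h
      · omega
      · have hL : LinearMap.range L = ⊥ := by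
          rw [LinearMap.range_eq_bot]
          refine LinearMap.ext fun x => ?_
          have := LinearMap.congr_fun h (x : ι → F)
          rw [LinearMap.comp_apply, proj_of_mem hD x.2, if_pos rfl] at this
          exact this
        rw [hL, finrank_bot] at h1
        omega
      · obtain ⟨y, hy, hya⟩ := exists_not_span hD hm i (P i a)
        set b := y - (ψ y / ψ (P i a)) • P i a with hb
        have hb0 : ψ b = 0 := by
          rw [hb, map_sub, map_smul, smul_eq_mul, div_mul_cancel₀ _ h, sub_self]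
        refine hya ?_
        have := hno b ((D i).sub_mem hy ((D i).smul_mem _ (proj_mem hD i a))) hb0
        rw [hb] at this
        simpa using Submodule.add_mem _ this
          (Submodule.smul_mem _ (ψ y / ψ (P i a)) (Submodule.mem_span_singleton_self (P i a)))
    obtain ⟨b, hb, hψb, hba⟩ := hK
    refine ⟨b, hb, hψb, fun h => ?_, fun e => hba (by rw [e]; exact Submodule.zero_mem _)⟩
    obtain ⟨s, hs⟩ := Submodule.mem_span_singleton.1 h
    have hs0 : s ≠ 0 := fun e => hi (by rw [← hs, e, zero_smul])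
    exact hba (Submodule.mem_span_singleton.2 ⟨s⁻¹, by rw [← hs, smul_smul, inv_mul_cancel₀ hs0, one_smul]⟩)
  obtain ⟨i, l, hil, hi, hl, r, hri, hr⟩ :
      ∃ i l, i ≠ l ∧ P i a ≠ 0 ∧ P l a ≠ 0 ∧ ∃ r, r ≠ i ∧ ψ ∘ₗ P r ≠ 0 := by
    obtain ⟨r, hr⟩ : ∃ r, ψ ∘ₗ P r ≠ 0 := by
      by_contra hno
      push Not at hno
      refine hψ0 (LinearMap.ext fun z => ?_)
      rw [← sum_proj hD z, map_sum, LinearMap.zero_apply]
      exact Finset.sum_eq_zero fun r _ => LinearMap.congr_fun (hno r) z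
    by_cases hri : r = i₀
    · exact ⟨l₀, i₀, hil.symm, hl₀, hi₀, r, fun e => hil (hri.symm.trans e), hr⟩
    · exact ⟨i₀, l₀, hil, hi₀, hl₀, r, hri, hr⟩
  by_cases hcase : 3 ≤ m ∨ ψ ∘ₗ P i = 0 ∨ ψ (P i a) ≠ 0
  · exact finish ψ h i r hri.symm hr (room ψ i hi hcase)
  push Not at hcase
  obtain ⟨hm3, hψi, hψa⟩ := hcase
  obtain ⟨ht3, δ, hδ0, hδ1⟩ := ht (by omega)
  obtain ⟨p, hpi, hpl⟩ : ∃ p : Fin t, p ≠ i ∧ p ≠ l := Fin.exists_ne_and_ne_of_two_lt i l (by omega)
  -- scale the functional on member `i`, compensating the determinant on member `p`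
  obtain ⟨z, hz⟩ : ∃ z, ψ (P i z) ≠ 0 := by
    by_contra hno
    push Not at hno
    exact hψi (LinearMap.ext fun z => hno z)
  set y := (ψ (P i z))⁻¹ • P i z with hy
  have hyi : y ∈ D i := (D i).smul_mem _ (proj_mem hD i z)
  have hψy : (ψ ∘ₗ P i) y = 1 := by
    rw [LinearMap.comp_apply, proj_of_mem hD hyi, if_pos rfl, hy, map_smul, smul_eq_mul,
      inv_mul_cancel₀ hz]
  obtain ⟨y', hy', hy'a⟩ := exists_not_span hD hm p (P p a)
  obtain ⟨χ, hχ, hχy, hχa⟩ := exists_supp hD hy' hy'a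
  have hχi : (ψ ∘ₗ P i) ∘ₗ P i = ψ ∘ₗ P i := by ext x; simp [proj_proj hD]
  set g := refl (ψ ∘ₗ P i) hψy (Units.mk0 δ hδ0) * refl χ hχy (Units.mk0 δ⁻¹ (inv_ne_zero hδ0)) with hg
  have hgM : g ∈ M := by
    refine hH (Subgroup.mem_inf.2 ⟨mul_mem (refl_mem_stab hD hyi hχi hψy _) (refl_mem_stab hD hy' hχ hχy _), ?_⟩)
    rw [mem_specialLinear_iff, hg, Units.val_mul, Matrix.det_mul, det_refl, det_refl, Units.val_mk0,
      Units.val_mk0, mul_inv_cancel₀ hδ0]
  have hga : (g : Matrix ι ι F) *ᵥ a = a := by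
    have e1 : χ a = 0 := by
      rw [← hχ, LinearMap.comp_apply]; exact hχa (proj_mem hD p a)
    rw [hg, Units.val_mul, ← mulVec_mulVec, refl_mulVec χ, e1, mul_zero, zero_smul, add_zero,
      refl_mulVec, LinearMap.comp_apply, hψa, mul_zero, zero_smul, add_zero]
  have hy'0 : (ψ ∘ₗ P i) y' = 0 := apply_other hD hpi hy' ψ
  have hχy0 : χ y = 0 := by rw [← hχ]; exact apply_other hD hpi.symm hyi χ
  have hψy' : ψ y = 1 := by rw [← hψy, LinearMap.comp_apply, proj_of_mem hD hyi, if_pos rfl]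
  set ψ' := ψ + (δ⁻¹ - 1) • (ψ ∘ₗ P i) + ((δ - 1) * ψ y') • χ with hψ'
  have h1 := h.conj hgM (ψ := ψ') (fun x => by
    rw [hg, Units.val_mul, ← mulVec_mulVec, refl_mulVec χ, refl_mulVec, hψ']
    simp only [LinearMap.add_apply, LinearMap.smul_apply, map_add, map_smul, smul_eq_mul, hχy,
      hψy, hy'0, hχy0, hψy', Units.val_mk0]
    field_simp
    ring)
  rw [hga] at h1
  have hd := h1.sub h
  have hdl : (ψ' - ψ) ∘ₗ P l = 0 := by
    refine LinearMap.ext fun x => ?_
    have e1 : P i (P l x) = 0 := by rw [proj_of_mem hD (proj_mem hD l x), if_neg hil]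
    have e2 : χ (P l x) = 0 := by rw [← hχ]; exact apply_other hD hpl.symm (proj_mem hD l x) χ
    simp [hψ', e1, e2]
  have hdi : (ψ' - ψ) ∘ₗ P i ≠ 0 := by
    intro e
    have e' := LinearMap.congr_fun e y
    simp only [LinearMap.comp_apply, LinearMap.zero_apply, proj_of_mem hD hyi, if_pos, hψ',
      LinearMap.sub_apply, LinearMap.add_apply, LinearMap.smul_apply, smul_eq_mul, hχy0, mul_zero,
      add_zero, add_sub_cancel_left] at e'
    rw [hψy', mul_one, sub_eq_zero, inv_eq_one] at e'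
    exact hδ1 e'
  exact finish _ hd l i hil.symm hdi (room _ l hl (Or.inr (Or.inl hdl)))

theorem specialLinear_le (hm : 2 ≤ m) (ht : m = 2 → 3 ≤ t ∧ ∃ l : F, l ≠ 0 ∧ l ≠ 1) {g : GL ι F}
    (hgM : g ∈ M) (hg : g ∉ Cfsg.Geo.decompositionStabilizer D) :
    Cfsg.Geo.specialLinear ι F ≤ M := by
  classical
  obtain ⟨i, x, hx, hgx⟩ := exists_not_mem_of_not_stabilizer hD hg
  obtain ⟨y, hy, hyx⟩ := exists_not_span hD hm i x
  obtain ⟨φ, hφ, hφy, hφx⟩ := exists_supp hD hy hyx
  have h1 := (root_mem hD hH hx hφ (hφx hx)).conj' hgM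
  obtain ⟨i, r, hir, b, hb, hb0, χ, hχ, hχ0, hbχ⟩ := exists_mixed hD hH hm ht hgx h1 (fun e => by
    have := LinearMap.congr_fun e ((g : Matrix ι ι F) *ᵥ y)
    simp only [LinearMap.comp_apply, Matrix.toLin'_apply, inv_mulVec_mulVec, LinearMap.zero_apply,
      hφy] at this
    exact one_ne_zero this)
  have hpair := pair_full hD hH hm hir hb hb0 hχ hχ0 hbχ
  have hall : ∀ p s, p ≠ s → ∀ c ∈ D p, ∀ ψ : Module.Dual F (ι → F), ψ ∘ₗ P s = ψ → Has M c ψ := by
    have move : ∀ p s p' s', p ≠ s → (∀ c ∈ D p, ∀ ψ : Module.Dual F (ι → F), ψ ∘ₗ P s = ψ → Has M c ψ) →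
        ∀ u v, u ≠ v → Equiv.swap u v p = p' → Equiv.swap u v s = s' →
        ∀ c ∈ D p', ∀ ψ : Module.Dual F (ι → F), ψ ∘ₗ P s' = ψ → Has M c ψ := by
      intro p s p' s' _ hps u v huv hp' hs' c hc ψ hψ
      obtain ⟨k, hk1, hk2, hkD⟩ := swap_exists hD huv
      have hkM : k ∈ M := hH ⟨hk2, hk1⟩
      have hmaps : ∀ j, (D j).map (Matrix.toLin' (k : Matrix ι ι F)) = D (Equiv.swap u v j) := fun j => by
        refine Submodule.eq_of_le_of_finrank_eq ?_ ?_
        · rintro _ ⟨z, hz, rfl⟩; rw [Matrix.toLin'_apply]; exact hkD j z hz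
        · have hinj : Function.Injective (Matrix.toLin' (k : Matrix ι ι F)) := fun z w hzw => by
            rw [Matrix.toLin'_apply, Matrix.toLin'_apply] at hzw
            rw [← inv_mulVec_mulVec k z, hzw, inv_mulVec_mulVec]
          rw [← (Submodule.equivMapOfInjective _ hinj (D j)).finrank_eq, hD.finrank_eq, hD.finrank_eq]
      obtain ⟨c₀, hc₀, rfl⟩ : c ∈ (D p).map (Matrix.toLin' (k : Matrix ι ι F)) := by
        rw [hmaps, hp']; exact hc
      have h2 := (hps c₀ hc₀ (ψ ∘ₗ Matrix.toLin' (k : Matrix ι ι F)) ?_).conj hkM (ψ := ψ)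
        (fun z => by rw [LinearMap.comp_apply, Matrix.toLin'_apply])
      · rwa [Matrix.toLin'_apply]
      · refine LinearMap.ext fun z => ?_
        have h3 := proj_mulVec hD hmaps s z
        rw [hs'] at h3
        simp only [LinearMap.comp_apply, Matrix.toLin'_apply, ← h3]
        exact LinearMap.congr_fun hψ _
    intro p s hps
    obtain ⟨r', hpr', hr'⟩ : ∃ r', p ≠ r' ∧ ∀ c ∈ D p, ∀ ψ : Module.Dual F (ι → F),
        ψ ∘ₗ P r' = ψ → Has M c ψ := by
      by_cases hip : i = p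
      · exact ⟨r, hip ▸ hir, hip ▸ hpair⟩
      · exact ⟨Equiv.swap i p r, fun e => hir ((Equiv.swap i p).injective (by
          rw [Equiv.swap_apply_left]; exact e)), move i r _ _ hir hpair i p hip
            (Equiv.swap_apply_left i p) rfl⟩
    by_cases hrs : r' = s
    · exact hrs ▸ hr'
    · exact move p r' p s hpr' hr' r' s hrs (Equiv.swap_apply_of_ne_of_ne hpr' hps)
        (Equiv.swap_apply_left r' s)
  refine specialLinear_le_of_full (S := {v | ∃ p, v ∈ D p}) ?_ ?_
  · refine eq_top_iff.2 (le_of_eq_of_le hD.iSup_eq_top.symm (iSup_le fun p v hv => ?_))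
    exact Submodule.subset_span ⟨p, hv⟩
  rintro c ⟨p, hc⟩ ψ hψ
  have key : ∀ S : Finset (Fin t), Has M c (∑ j ∈ S, ψ ∘ₗ P j) := by
    intro S
    induction S using Finset.induction_on with
    | empty => simpa using has_zero_right c
    | insert j S hj ih =>
      rw [Finset.sum_insert hj]
      refine Has.add ?_ ih
      have hjj : (ψ ∘ₗ P j) ∘ₗ P j = ψ ∘ₗ P j := by ext z; simp [proj_proj hD]
      by_cases hjp : j = p
      · refine root_mem hD hH hc ?_ ?_
        · subst hjp; exact hjj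
        · subst hjp
          rw [LinearMap.comp_apply, proj_of_mem hD hc, if_pos rfl]; exact hψ
      · exact hall p j (Ne.symm hjp) c hc _ hjj
  convert key Finset.univ using 1
  refine LinearMap.ext fun z => ?_
  rw [LinearMap.sum_apply]
  conv_lhs => rw [← sum_proj hD z, map_sum]
  rfl

end CfsgLib.BlockOvergroup
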