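import Mathlib
import Cfsg.Agent.Classical.Unitary.Field

/-!
Elements of norm one over the fixed field of an involutory automorphism: how many values their
weighted sums and traces take.
-/

set_option autoImplicit false

namespace CfsgLib.CircleSums

variable {F : Type*} [Field F]

/-- `z` has norm one. -/
def Cir (σ : F ≃+* F) (z : F) : Prop := z * σ z = 1

variable {σ : F ≃+* F} {z w : F}

theorem Cir.ne_zero (h : Cir σ z) : z ≠ 0 := left_ne_zero_of_mul_eq_one h

theorem Cir.conj_eq (h : Cir σ z) : σ z = z⁻¹ := eq_inv_of_mul_eq_one_right h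

theorem cir_one (σ : F ≃+* F) : Cir σ 1 := by simp [Cir]

theorem cir_neg_one (σ : F ≃+* F) : Cir σ (-1) := by simp [Cir]

theorem Cir.mul (h : Cir σ z) (h' : Cir σ w) : Cir σ (z * w) := by
  show z * w * σ (z * w) = 1
  rw [map_mul, mul_mul_mul_comm, h, h', one_mul]

theorem Cir.inv (h : Cir σ z) : Cir σ z⁻¹ := by
  show z⁻¹ * σ z⁻¹ = 1
  rw [map_inv₀, ← mul_inv, h, inv_one]

theorem Cir.zpow (h : Cir σ z) (k : ℤ) : Cir σ (z ^ k) := by
  show z ^ k * σ (z ^ k) = 1
  rw [map_zpow₀, ← mul_zpow, h, one_zpow]

theorem Cir.conj (h : Cir σ z) : Cir σ (σ z) := by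
  rw [h.conj_eq]; exact h.inv

variable [Fintype F] {q : ℕ} (hF : Fintype.card F = q ^ 2) (hσ : ∀ x, σ x = x ^ q)
include hF hσ

theorem invol (x : F) : σ (σ x) = x := by rw [hσ, hσ, CfsgLib.Unitary.pow_q_q hF]

open scoped Classical in
theorem card_cir : (Finset.univ.filter fun z : F => Cir σ z).card = q + 1 := by
  rw [← CfsgLib.Unitary.card_norm_one hF, Nat.card_eq_fintype_card, ← Fintype.card_subtype]
  exact Fintype.card_congr (Equiv.subtypeEquivRight fun z => by rw [Cir, hσ, ← pow_succ'])

open scoped Classical in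
theorem card_fixed : (Finset.univ.filter fun z : F => σ z = z).card = q := by
  conv_rhs => rw [← CfsgLib.Unitary.card_fixed hF, Nat.card_eq_fintype_card]
  rw [← Fintype.card_subtype]
  exact Fintype.card_congr (Equiv.subtypeEquivRight fun z => by rw [hσ])

theorem two_le : 2 ≤ q := CfsgLib.Unitary.two_le_q hF

theorem exists_cir_sq_ne_one : ∃ z : F, Cir σ z ∧ z ^ 2 ≠ 1 := by
  obtain ⟨t, ht, ht2⟩ := CfsgLib.Unitary.exists_norm_one_ne_inv hF
  exact ⟨t, by rw [Cir, hσ, ← pow_succ']; exact ht, ht2⟩

theorem norm_fixed (x : F) : σ (x * σ x) = x * σ x := by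
  rw [map_mul, invol hF hσ, mul_comm]

theorem trace_fixed (x : F) : σ (x + σ x) = x + σ x := by
  rw [map_add, invol hF hσ, add_comm]

theorem exists_norm {r : F} (hr : σ r = r) : ∃ x : F, x * σ x = r := by
  obtain ⟨x, hx⟩ := CfsgLib.Unitary.exists_norm_eq hF (a := r) (by rw [← hσ, hr])
  exact ⟨x, by rw [hσ, ← pow_succ', hx]⟩

/-- Sums of two weighted norm-one elements cover more than half of the field. -/
theorem two_sum_card [DecidableEq F] {a b : F} (ha : a ≠ 0) (hb : b ≠ 0) (S : Finset F)
    (hS : ∀ u v, Cir σ u → Cir σ v → u * a + v * b ∈ S) : Fintype.card F < 2 * S.card := by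
  classical
  set C := Finset.univ.filter fun z : F => Cir σ z with hC
  have hCc : C.card = q + 1 := card_cir hF hσ
  set Z := (C ×ˢ C).filter fun p => p.1 * a + p.2 * b = 0 with hZ
  have hZc : Z.card ≤ C.card := by
    refine Finset.card_le_card_of_injOn Prod.fst (fun p hp => ?_) ?_
    · simp only [hZ, Finset.coe_filter, Set.mem_setOf_eq, Finset.mem_product] at hp
      exact hp.1.1
    · intro p hp p' hp' e
      simp only [hZ, Finset.coe_filter, Set.mem_setOf_eq, Finset.mem_product] at hp hp'
      refine Prod.ext e (mul_right_cancel₀ hb ?_)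
      have h1 := hp.2
      rw [e] at h1
      linear_combination h1 - hp'.2
  set P := (C ×ˢ C) \ Z with hP
  have hPc : P.card + Z.card = C.card * C.card := by
    rw [hP, Finset.card_sdiff_add_card_eq_card (Finset.filter_subset _ _), Finset.card_product]
  have h0 : (0 : F) ∈ S → ((S.erase 0).card + 1 = S.card) := fun h => Finset.card_erase_add_one h
  have himg : P.card ≤ 2 * (S.erase 0).card := by
    refine Finset.card_le_mul_card_image_of_maps_to (f := fun p : F × F => p.1 * a + p.2 * b) ?_ 2 ?_
    · intro p hp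
      simp only [hP, hZ, hC, Finset.mem_sdiff, Finset.mem_filter, Finset.mem_product,
        Finset.mem_univ, true_and] at hp
      exact Finset.mem_erase.2 ⟨fun e => hp.2 ⟨hp.1, e⟩, hS _ _ hp.1.1 hp.1.2⟩
    · intro z hz
      have hz0 := (Finset.mem_erase.1 hz).1
      set K := (z * σ z + a * σ a - b * σ b) / (σ z * a) with hK
      rcases Finset.eq_empty_or_nonempty (P.filter fun p => p.1 * a + p.2 * b = z) with he | ⟨p0, hp0⟩
      · rw [he]; simp
      have hroot : ∀ p ∈ P.filter (fun p => p.1 * a + p.2 * b = z),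
          p.1 ^ 2 + z * σ a / (σ z * a) = K * p.1 := by
        intro p hp
        simp only [hP, hC, Finset.mem_filter, Finset.mem_sdiff, Finset.mem_product, Finset.mem_univ,
          true_and] at hp
        obtain ⟨⟨⟨h1, h2⟩, -⟩, h3⟩ := hp
        have e : p.2 * b = z - p.1 * a := by linear_combination h3
        have hp1 : p.1 * σ p.1 = 1 := h1
        have hp2 : p.2 * σ p.2 = 1 := h2
        have hn : (z - p.1 * a) * σ (z - p.1 * a) = b * σ b := by
          rw [← e, map_mul]
          linear_combination (b * σ b) * hp2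
        rw [map_sub, map_mul] at hn
        have hz1 : σ z ≠ 0 := by simpa using hz0
        rw [hK]
        field_simp
        linear_combination (-p.1) * hn - (z * σ a - p.1 * a * σ a) * hp1
      have hsub : P.filter (fun p => p.1 * a + p.2 * b = z) ⊆
          {(p0.1, p0.2), (K - p0.1, (z - (K - p0.1) * a) / b)} := by
        intro p hp
        have h1 := hroot p hp
        have h2 := hroot p0 hp0
        have e : (p.1 - p0.1) * (p.1 + p0.1 - K) = 0 := by linear_combination h1 - h2
        have h3 := (Finset.mem_filter.1 hp).2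
        have h4 := (Finset.mem_filter.1 hp0).2
        simp only [Finset.mem_insert, Finset.mem_singleton]
        rcases mul_eq_zero.1 e with e1 | e1
        · left
          have e1' := sub_eq_zero.1 e1
          refine Prod.ext e1' (mul_right_cancel₀ hb ?_)
          rw [e1'] at h3
          linear_combination h3 - h4
        · right
          have e2 : p.1 = K - p0.1 := by linear_combination e1
          refine Prod.ext e2 ?_
          show p.2 = _
          rw [eq_div_iff hb, ← e2]
          linear_combination h3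
      exact (Finset.card_le_card hsub).trans Finset.card_le_two
  have hle : (S.erase 0).card ≤ S.card := Finset.card_erase_le
  rw [hCc] at hZc hPc
  have hq := two_le hF hσ
  rw [hF]
  nlinarith

/-- Four weighted norm-one elements reach every target. -/
theorem four_sum {a b c d : F} (ha : a ≠ 0) (hb : b ≠ 0) (hc : c ≠ 0) (hd : d ≠ 0) (T : F) :
    ∃ u v x y, Cir σ u ∧ Cir σ v ∧ Cir σ x ∧ Cir σ y ∧ u * a + v * b + x * c + y * d = T := by
  classical
  set X := Finset.univ.filter fun s : F => ∃ u v, Cir σ u ∧ Cir σ v ∧ u * a + v * b = s with hX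
  set Y := Finset.univ.filter fun s : F => ∃ u v, Cir σ u ∧ Cir σ v ∧ T - (u * c + v * d) = s with hY
  have h1 := two_sum_card hF hσ ha hb X fun u v hu hv => by
    rw [hX, Finset.mem_filter]; exact ⟨Finset.mem_univ _, u, v, hu, hv, rfl⟩
  have h2 := two_sum_card hF hσ hc hd (Y.image fun s => T - s) fun u v hu hv => by
    rw [Finset.mem_image]
    exact ⟨T - (u * c + v * d), by
      rw [hY, Finset.mem_filter]; exact ⟨Finset.mem_univ _, u, v, hu, hv, rfl⟩, by ring⟩
  rw [Finset.card_image_of_injective _ sub_right_injective] at h2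
  obtain ⟨s, hs⟩ := Finset.inter_nonempty_of_card_lt_card_add_card (Finset.subset_univ X)
    (Finset.subset_univ Y) (by rw [Finset.card_univ]; omega)
  simp only [hX, hY, Finset.mem_inter, Finset.mem_filter, Finset.mem_univ, true_and] at hs
  obtain ⟨⟨u, v, hu, hv, h3⟩, x, y, hx, hy, h4⟩ := hs
  exact ⟨u, v, x, y, hu, hv, hx, hy, by linear_combination h3 - h4⟩

/-- Traces of a scaled copy of the norm-one elements take at least half of all possible values. -/
theorem trace_card [DecidableEq F] {κ : F} (hκ : κ ≠ 0) (S : Finset F)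
    (hS : ∀ u, Cir σ u → κ * u + σ (κ * u) ∈ S) : q + 1 ≤ 2 * S.card := by
  classical
  rw [← card_cir hF hσ]
  refine Finset.card_le_mul_card_image_of_maps_to (f := fun u => κ * u + σ (κ * u))
    (fun u hu => hS u (by simpa using hu)) 2 fun r _ => ?_
  rcases Finset.eq_empty_or_nonempty ((Finset.univ.filter fun z => Cir σ z).filter
    fun u => κ * u + σ (κ * u) = r) with he | ⟨u0, hu0⟩
  · rw [he]; simp
  refine (Finset.card_le_card (t := {u0, σ κ / κ * u0⁻¹}) fun u hu => ?_).trans Finset.card_le_two
  simp only [Finset.mem_filter, Finset.mem_univ, true_and] at hu hu0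
  simp only [Finset.mem_insert, Finset.mem_singleton]
  have h0 := hu.2.trans hu0.2.symm
  rw [map_mul, map_mul, hu.1.conj_eq, hu0.1.conj_eq] at h0
  have h1 := hu.1.ne_zero
  have h2 := hu0.1.ne_zero
  field_simp at h0 ⊢
  have e : (u - u0) * (κ * u * u0 - σ κ) = 0 := by linear_combination h0
  rcases mul_eq_zero.1 e with e1 | e1
  · exact Or.inl (sub_eq_zero.1 e1)
  · exact Or.inr (by linear_combination e1)

/-- Two weights: non-trivial norm-one perturbations with trace-zero, non-zero total. -/
theorem trace_pair {L M : F} (hL : σ L = L) (hL0 : L ≠ 0) (hM : σ M = M) (hM0 : M ≠ 0)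
    (hLM : L + M ≠ 0 ∨ (2 : F) = 0) :
    ∃ u v, Cir σ u ∧ Cir σ v ∧ u ≠ 1 ∧ v ≠ 1 ∧
      (L * (u - 1) + M * (v - 1)) + σ (L * (u - 1) + M * (v - 1)) = 0 ∧
      L * (u - 1) + M * (v - 1) ≠ 0 := by
  classical
  set C := Finset.univ.filter fun z : F => Cir σ z with hC
  set A := C.image fun u => u + σ u with hA
  have hone : ∀ u ∈ C, u + σ u = 2 → u = 1 := by
    intro u hu h
    simp only [hC, Finset.mem_filter, Finset.mem_univ, true_and] at hu
    have e : (u - 1) ^ 2 = 0 := by linear_combination u * h - (id hu : u * σ u = 1)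
    exact sub_eq_zero.1 (pow_eq_zero_iff (by norm_num) |>.1 e)
  -- half of the norm-one elements, and one more
  have hAc : q + 2 ≤ 2 * A.card := by
    have h1 : (C.erase 1).card ≤ 2 * (A.erase 2).card := by
      refine Finset.card_le_mul_card_image_of_maps_to (f := fun u => u + σ u) (fun u hu => ?_) 2
        fun r _ => ?_
      · rw [Finset.mem_erase] at hu
        exact Finset.mem_erase.2 ⟨fun e => hu.1 (hone u hu.2 e), Finset.mem_image_of_mem _ hu.2⟩
      rcases Finset.eq_empty_or_nonempty ((C.erase 1).filter fun u => u + σ u = r) with he | ⟨u0, hu0⟩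
      · rw [he]; simp
      refine (Finset.card_le_card (t := {u0, u0⁻¹}) fun u hu => ?_).trans Finset.card_le_two
      simp only [hC, Finset.mem_filter, Finset.mem_erase, Finset.mem_univ, true_and] at hu hu0
      simp only [Finset.mem_insert, Finset.mem_singleton]
      have h0 := hu.2.trans hu0.2.symm
      rw [hu.1.2.conj_eq, hu0.1.2.conj_eq] at h0
      have := hu.1.2.ne_zero
      have := hu0.1.2.ne_zero
      field_simp at h0 ⊢
      have e : (u - u0) * (u * u0 - 1) = 0 := by linear_combination h0
      rcases mul_eq_zero.1 e with e1 | e1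
      · exact Or.inl (sub_eq_zero.1 e1)
      · exact Or.inr (by linear_combination e1)
    have h2 : (1 : F) ∈ C := by simp [hC, cir_one]
    have h3 : (2 : F) ∈ A :=
      Finset.mem_image.2 ⟨1, h2, by rw [map_one]; norm_num⟩
    rw [Finset.card_erase_of_mem h2, Finset.card_erase_of_mem h3] at h1
    have hCc : C.card = q + 1 := card_cir hF hσ
    have := Finset.card_pos.2 ⟨_, h3⟩
    omega
  set S1 := A.image fun r => L * (r - 2) with hS1
  set S2 := A.image fun r => -(M * (r - 2)) with hS2
  have hc1 : S1.card = A.card := Finset.card_image_of_injective _ fun r r' e =>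
    sub_left_injective (mul_left_cancel₀ hL0 e)
  have hc2 : S2.card = A.card := Finset.card_image_of_injective _ fun r r' e =>
    sub_left_injective (mul_left_cancel₀ hM0 (neg_injective e))
  have hfix : S1 ∪ S2 ⊆ Finset.univ.filter fun z : F => σ z = z := by
    intro s hs
    simp only [hS1, hS2, hA, Finset.mem_union, Finset.mem_image] at hs
    simp only [Finset.mem_filter, Finset.mem_univ, true_and]
    rcases hs with ⟨_, ⟨u, -, rfl⟩, rfl⟩ | ⟨_, ⟨u, -, rfl⟩, rfl⟩
    all_goals simp [map_sub, map_ofNat, hL, hM, invol hF hσ, add_comm]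
  have hI : 1 < (S1 ∩ S2).card := by
    have h1 := Finset.card_union_add_card_inter S1 S2
    have h2 := (Finset.card_le_card hfix).trans (card_fixed hF hσ).le
    omega
  obtain ⟨s, hs, hs0⟩ := Finset.exists_mem_ne hI 0
  simp only [hS1, hS2, hA, hC, Finset.mem_inter, Finset.mem_image, Finset.mem_filter,
    Finset.mem_univ, true_and] at hs
  obtain ⟨⟨_, ⟨u, hu, rfl⟩, hsu⟩, _, ⟨v, hv, rfl⟩, hsv⟩ := hs
  have hu1 : u ≠ 1 := fun e => hs0 (by rw [← hsu, e, map_one]; norm_num)
  have hv1 : v ≠ 1 := fun e => hs0 (by rw [← hsv, e, map_one]; norm_num)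
  have key : ∀ v', v' = v ∨ v' = σ v →
      (L * (u - 1) + M * (v' - 1)) + σ (L * (u - 1) + M * (v' - 1)) = 0 := by
    rintro v' (rfl | rfl)
    all_goals simp only [map_add, map_mul, map_sub, map_one, hL, hM, invol hF hσ]
    all_goals linear_combination hsu - hsv
  by_cases hne : L * (u - 1) + M * (v - 1) = 0
  · refine ⟨u, σ v, hu, hv.conj, hu1, fun e => hv1 (by simpa [invol hF hσ] using congrArg σ e),
      key _ (Or.inr rfl), fun e => ?_⟩
    -- then `v` and `u` are both minus one
    have hvv : σ v = v := sub_left_injective (mul_left_cancel₀ hM0 (by linear_combination e - hne))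
    have hv2 : v = -1 := by
      have h1 : (v - 1) * (v + 1) = 0 := by
        linear_combination (id hv : v * σ v = 1) - v * hvv
      exact eq_neg_of_add_eq_zero_left ((mul_eq_zero.1 h1).resolve_left (sub_ne_zero.2 hv1))
    have huu : σ u = u := by
      have h2 := congrArg σ hne
      rw [map_zero, map_add, map_mul, map_mul, map_sub, map_sub, map_one, hL, hM, hvv] at h2
      exact sub_left_injective (mul_left_cancel₀ hL0 (by linear_combination h2 - hne))
    have hu2 : u = -1 := by
      have h1 : (u - 1) * (u + 1) = 0 := by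
        linear_combination (id hu : u * σ u = 1) - u * huu
      exact eq_neg_of_add_eq_zero_left ((mul_eq_zero.1 h1).resolve_left (sub_ne_zero.2 hu1))
    subst hu2 hv2
    rcases hLM with h | h
    · refine h ?_
      have h2 : (2 : F) * (L + M) = 0 := by linear_combination -hne
      refine (mul_eq_zero.1 h2).resolve_left fun h2' => hu1 ?_
      linear_combination -h2'
    · exact hu1 (by linear_combination -h)
  · exact ⟨u, v, hu, hv, hu1, hv1, key _ (Or.inl rfl), hne⟩

end CfsgLib.CircleSums
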