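import Cfsg.Prelude.Def_ClassicalGeometry
import Cfsg.Agent.Eq.Def_ClassicalGeometry

set_option autoImplicit false

/-! The stabiliser in `GL n F` of the span of the first `k` coordinate vectors. -/

namespace CfsgLib.Classical.FlagStab

open Matrix
open scoped MatrixGroups

variable {F : Type*} [Field F] {n : ℕ}

/-- the span of the first `k` coordinate vectors -/
def firstCoords (F : Type*) [Field F] (n k : ℕ) : Submodule F (Fin n → F) where
  carrier := {v | ∀ i : Fin n, k ≤ (i : ℕ) → v i = 0}
  add_mem' {u v} hu hv := fun i hi => by simp [hu i hi, hv i hi]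
  zero_mem' := fun i _ => rfl
  smul_mem' c v hv := fun i hi => by simp [hv i hi]

theorem mem_firstCoords {k : ℕ} {v : Fin n → F} :
    v ∈ firstCoords F n k ↔ ∀ i : Fin n, k ≤ (i : ℕ) → v i = 0 := Iff.rfl

/-- membership in the stabiliser is the vanishing of a block -/
theorem mem_stab_iff {k : ℕ} {g : GL (Fin n) F} :
    g ∈ Cfsg.stabilizing (Cfsg.glToMat (Fin n) F) {v : Fin n → F | ∀ i : Fin n, k ≤ (i : ℕ) → v i = 0} ↔
      ∀ i j : Fin n, k ≤ (i : ℕ) → (j : ℕ) < k → (g : Matrix (Fin n) (Fin n) F) i j = 0 := by
  constructor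
  · intro h i j hi hj
    have := (h (Pi.single j 1)).1 (fun l hl => Pi.single_eq_of_ne (by intro e; subst e; omega) _) i hi
    simpa [Matrix.mulVec_single] using this
  · intro h
    set M : Matrix (Fin n) (Fin n) F := (g : Matrix (Fin n) (Fin n) F) with hM
    have hfwd : ∀ v ∈ firstCoords F n k, M *ᵥ v ∈ firstCoords F n k := by
      intro v hv i hi
      show ∑ j, M i j * v j = 0
      refine Finset.sum_eq_zero fun j _ => ?_
      show M i j * v j = 0
      by_cases hj : (j : ℕ) < k
      · rw [h i j hi hj, zero_mul]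
      · rw [hv j (by omega), mul_zero]
    have hinj : Function.Injective (M *ᵥ ·) := by
      intro u v e
      have := congrArg ((((g⁻¹ : GL (Fin n) F)) : Matrix (Fin n) (Fin n) F) *ᵥ ·) e
      simpa [Matrix.mulVec_mulVec, hM, ← Units.val_mul] using this
    let L : firstCoords F n k →ₗ[F] firstCoords F n k :=
      ((Matrix.toLin' M).comp (firstCoords F n k).subtype).codRestrict (firstCoords F n k)
        fun v => hfwd v v.2
    have hL : Function.Surjective L :=
      LinearMap.surjective_of_injective fun u v e => Subtype.ext (hinj (congrArg Subtype.val e))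
    intro v
    refine ⟨fun hv => hfwd v hv, fun hv => ?_⟩
    obtain ⟨u, hu⟩ := hL ⟨M *ᵥ v, hv⟩
    have : (u : Fin n → F) = v := hinj (congrArg Subtype.val hu)
    exact this ▸ u.2

end CfsgLib.Classical.FlagStab
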