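import Mathlib
import Cfsg.Agent.Classical.FullCentres
import Cfsg.Agent.Classical.PseudoRefl
import Cfsg.Agent.Eq.Def_GeometricClasses

/-!
Monomial matrices with respect to the standard basis.
-/

set_option autoImplicit false

namespace CfsgLib.MonoBasics

open Matrix CfsgLib.TransvGL

variable {ι : Type} [Fintype ι] [DecidableEq ι] {F : Type*} [Field F]

local notation "ax" i:max => (Pi.single i (1 : F) : ι → F)

/-- Every coordinate axis is mapped to an axis. -/
def IsMono (g : GL ι F) : Prop := ∀ j, ∃ i, (g : Matrix ι ι F) *ᵥ ax j ∈ Submodule.span F {ax i}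

theorem mem_axis_iff {x : ι → F} {i : ι} :
    x ∈ Submodule.span F {ax i} ↔ ∀ j, j ≠ i → x j = 0 := by
  constructor
  · intro h j hj
    obtain ⟨s, rfl⟩ := Submodule.mem_span_singleton.1 h
    simp [hj]
  · intro h
    refine Submodule.mem_span_singleton.2 ⟨x i, funext fun j => ?_⟩
    by_cases hj : j = i
    · subst hj; simp
    · simp [hj, h j hj]

theorem IsMono.mul {g h : GL ι F} (hg : IsMono g) (hh : IsMono h) : IsMono (g * h) := fun j => by
  obtain ⟨i, hi⟩ := hh j
  obtain ⟨s, hs⟩ := Submodule.mem_span_singleton.1 hi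
  obtain ⟨k, hk⟩ := hg i
  refine ⟨k, ?_⟩
  rw [Units.val_mul, ← mulVec_mulVec, ← hs, mulVec_smul]
  exact Submodule.smul_mem _ _ hk

theorem mulVec_ne_zero (g : GL ι F) {x : ι → F} (hx : x ≠ 0) : (g : Matrix ι ι F) *ᵥ x ≠ 0 :=
  fun e => hx (by rw [← inv_mulVec_mulVec g x, e, mulVec_zero])

theorem ax_ne_zero (i : ι) : ax i ≠ 0 := fun e => by simpa using congrFun e i

theorem mono_index_injective {g : GL ι F} {π : ι → ι}
    (hπ : ∀ j, (g : Matrix ι ι F) *ᵥ ax j ∈ Submodule.span F {ax (π j)}) : Function.Injective π := by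
  intro a b hab
  by_contra hne
  obtain ⟨s, hs⟩ := Submodule.mem_span_singleton.1 (hπ a)
  obtain ⟨r, hr⟩ := Submodule.mem_span_singleton.1 (hπ b)
  have hs0 : s ≠ 0 := fun e => mulVec_ne_zero g (ax_ne_zero a) (by rw [← hs, e, zero_smul])
  have hx : (g : Matrix ι ι F) *ᵥ (r • ax a - s • ax b) = 0 := by
    rw [mulVec_sub, mulVec_smul, mulVec_smul, ← hs, ← hr, hab, smul_smul, smul_smul, mul_comm,
      sub_self]
  have hz : r • ax a - s • ax b = 0 := by
    rw [← inv_mulVec_mulVec g (r • ax a - s • ax b), hx, mulVec_zero]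
  have := congrFun hz b
  simp [Ne.symm hne] at this
  exact hs0 this

theorem IsMono.inv {g : GL ι F} (hg : IsMono g) : IsMono g⁻¹ := by
  choose π hπ using hg
  have hbij := Finite.injective_iff_bijective.1 (mono_index_injective hπ)
  intro j
  obtain ⟨i, rfl⟩ := hbij.2 j
  obtain ⟨s, hs⟩ := Submodule.mem_span_singleton.1 (hπ i)
  have hs0 : s ≠ 0 := fun e => mulVec_ne_zero g (ax_ne_zero i) (by rw [← hs, e, zero_smul])
  refine ⟨i, Submodule.mem_span_singleton.2 ⟨s⁻¹, ?_⟩⟩
  have h1 : ((g⁻¹ : GL ι F) : Matrix ι ι F) *ᵥ (s • ax (π i)) = ax i := by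
    rw [hs, inv_mulVec_mulVec]
  rw [mulVec_smul] at h1
  rw [← h1, smul_smul, inv_mul_cancel₀ hs0, one_smul]

/-- Diagonal matrices. -/
def dg (d : ι → Fˣ) : GL ι F :=
  ⟨Matrix.diagonal fun i => (d i : F), Matrix.diagonal fun i => ((d i)⁻¹ : Fˣ),
    by rw [Matrix.diagonal_mul_diagonal]; simp,
    by rw [Matrix.diagonal_mul_diagonal]; simp⟩

theorem dg_mulVec (d : ι → Fˣ) (x : ι → F) (i : ι) :
    ((dg d : Matrix ι ι F) *ᵥ x) i = (d i : F) * x i :=
  Matrix.mulVec_diagonal _ _ _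

theorem dg_mulVec_ax (d : ι → Fˣ) (j : ι) :
    (dg d : Matrix ι ι F) *ᵥ ax j = (d j : F) • ax j := by
  funext i
  rw [dg_mulVec]
  by_cases h : i = j
  · subst h; simp
  · simp [h]

theorem dg_inv (d : ι → Fˣ) : (dg d)⁻¹ = dg fun i => (d i)⁻¹ := by
  apply Units.ext
  rfl

theorem isMono_dg (d : ι → Fˣ) : IsMono (dg d) := fun j =>
  ⟨j, Submodule.mem_span_singleton.2 ⟨(d j : F), (dg_mulVec_ax d j).symm⟩⟩

theorem dg_mem_specialLinear {d : ι → Fˣ} (h : ∏ i, d i = 1) :
    dg d ∈ Cfsg.Geo.specialLinear ι F := by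
  rw [PseudoRefl.mem_specialLinear_iff]
  show (Matrix.diagonal fun i => (d i : F)).det = 1
  rw [Matrix.det_diagonal, ← Units.coe_prod, h, Units.val_one]

/-- The torus element with `ε` at `k` and its inverse at `l`. -/
def torPair (k l : ι) (ε : Fˣ) : ι → Fˣ := fun i => if i = k then ε else if i = l then ε⁻¹ else 1

theorem prod_torPair {k l : ι} (h : k ≠ l) (ε : Fˣ) : ∏ i, torPair k l ε i = 1 := by
  rw [← Finset.prod_subset (Finset.subset_univ {k, l}) fun i _ hi => by
    simp at hi; simp [torPair, hi.1, hi.2]]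
  rw [Finset.prod_pair h]
  simp [torPair, h.symm]

/-- The matrix `ax j ↦ c j • ax (π j)`. -/
noncomputable def monoGL (π : Equiv.Perm ι) (c : ι → Fˣ) : GL ι F :=
  ofEquiv ((LinearEquiv.piCongrRight fun i => LinearEquiv.smulOfUnit (c i)).trans
    (LinearEquiv.funCongrLeft F F π.symm))

theorem monoGL_mulVec (π : Equiv.Perm ι) (c : ι → Fˣ) (x : ι → F) (i : ι) :
    ((monoGL π c : GL ι F) : Matrix ι ι F).mulVec x i = (c (π.symm i) : F) * x (π.symm i) := by
  rw [monoGL, ofEquiv_mulVec]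
  rfl

theorem monoGL_mulVec_ax (π : Equiv.Perm ι) (c : ι → Fˣ) (j : ι) :
    (monoGL π c : Matrix ι ι F) *ᵥ ax j = (c j : F) • ax (π j) := by
  funext i
  rw [monoGL_mulVec]
  by_cases h : i = π j
  · subst h; simp
  · have : π.symm i ≠ j := fun e => h (by rw [← e, Equiv.apply_symm_apply])
    simp [h, this]

theorem isMono_monoGL (π : Equiv.Perm ι) (c : ι → Fˣ) : IsMono (monoGL π c) := fun j =>
  ⟨π j, Submodule.mem_span_singleton.2 ⟨(c j : F), (monoGL_mulVec_ax π c j).symm⟩⟩

/-- A special monomial matrix inducing a permutation, scaling only one chosen coordinate. -/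
theorem exists_special_perm (π : Equiv.Perm ι) (r : ι) :
    ∃ g : GL ι F, g ∈ Cfsg.Geo.specialLinear ι F ∧ IsMono g ∧
      (∀ j, j ≠ r → (g : Matrix ι ι F) *ᵥ ax j = ax (π j)) ∧
      ∀ (x : ι → F) i, i ≠ π r → ((g : Matrix ι ι F) *ᵥ x) i = x (π.symm i) := by
  set g0 := monoGL π (fun _ => (1 : Fˣ)) with hg0
  set d := Matrix.GeneralLinearGroup.det g0
  set c : ι → Fˣ := fun i => if i = r then d⁻¹ else 1 with hc
  refine ⟨g0 * dg c, ?_, (isMono_monoGL π _).mul (isMono_dg c), fun j hj => ?_, fun x i hi => ?_⟩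
  · show Matrix.GeneralLinearGroup.det (g0 * dg c) = 1
    rw [map_mul]
    have : Matrix.GeneralLinearGroup.det (dg c) = d⁻¹ := by
      apply Units.ext
      show (Matrix.diagonal fun i => (c i : F)).det = _
      rw [Matrix.det_diagonal, ← Units.coe_prod, hc, Finset.prod_ite_eq' Finset.univ r]
      simp
    rw [this, mul_inv_cancel]
  · rw [Units.val_mul, ← mulVec_mulVec, dg_mulVec_ax, show c j = 1 from if_neg hj, Units.val_one, one_smul, hg0,
      monoGL_mulVec_ax, Units.val_one, one_smul]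
  · have hne : π.symm i ≠ r := fun e => hi (by rw [← e, Equiv.apply_symm_apply])
    rw [Units.val_mul, ← mulVec_mulVec, hg0, monoGL_mulVec, dg_mulVec, show c (π.symm i) = 1 from
      if_neg hne, Units.val_one, one_mul, one_mul]

end CfsgLib.MonoBasics
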