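import Mathlib

/-!
Linear equations in variables that must be non-zero.
-/

set_option autoImplicit false

namespace CfsgLib.NonzeroSolve

variable {F : Type*} [Field F] [Fintype F]

theorem exists_avoid (S : Finset F) (h : S.card < Fintype.card F) : ∃ x : F, x ∉ S := by
  by_contra hno
  push Not at hno
  have : S = Finset.univ := Finset.eq_univ_of_forall hno
  rw [this, Finset.card_univ] at h
  exact lt_irrefl _ h

variable {ι : Type} [DecidableEq ι]

/-- Two equations, three pairwise independent columns: solvable in non-zero unknowns. -/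
theorem solve_three (hq : 5 ≤ Fintype.card F) (α β : ι → F) {i j p : ι}
    (hij : α i * β j - α j * β i ≠ 0) (hip : α p * β i - α i * β p ≠ 0)
    (hjp : α p * β j - α j * β p ≠ 0) (A B : F) :
    ∃ x y z : F, x ≠ 0 ∧ y ≠ 0 ∧ z ≠ 0 ∧ A + x * α i + y * α j + z * α p = 0 ∧
      B + x * β i + y * β j + z * β p = 0 := by
  classical
  set dij := α i * β j - α j * β i
  set P := A * β j - α j * B
  set Q := α i * B - A * β i
  obtain ⟨z, hz⟩ := exists_avoid ({0, -P / (α p * β j - α j * β p),
      Q / (α p * β i - α i * β p)} : Finset F) (lt_of_le_of_lt Finset.card_le_three (by omega))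
  simp only [Finset.mem_insert, Finset.mem_singleton, not_or] at hz
  obtain ⟨hz0, hz1, hz2⟩ := hz
  refine ⟨-(P + z * (α p * β j - α j * β p)) / dij, -(Q - z * (α p * β i - α i * β p)) / dij, z,
    ?_, ?_, hz0, ?_, ?_⟩
  · refine div_ne_zero (neg_ne_zero.2 fun e => hz1 ?_) hij
    rw [eq_div_iff hjp]; linear_combination e
  · refine div_ne_zero (neg_ne_zero.2 fun e => hz2 ?_) hij
    rw [eq_div_iff hip]; linear_combination -e
  · apply mul_right_cancel₀ hij
    have ex := div_mul_cancel₀ (-(P + z * (α p * β j - α j * β p))) hij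
    have ey := div_mul_cancel₀ (-(Q - z * (α p * β i - α i * β p))) hij
    simp only [P, Q, dij] at ex ey ⊢
    linear_combination α i * ex + α j * ey
  · apply mul_right_cancel₀ hij
    have ex := div_mul_cancel₀ (-(P + z * (α p * β j - α j * β p))) hij
    have ey := div_mul_cancel₀ (-(Q - z * (α p * β i - α i * β p))) hij
    simp only [P, Q, dij] at ex ey ⊢
    linear_combination β i * ex + β j * ey

/-- Two unknowns, one equation. -/
theorem solve_pair (hq : 3 ≤ Fintype.card F) {l : F} (hl : l ≠ 0) (a : F) :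
    ∃ x y : F, x ≠ 0 ∧ y ≠ 0 ∧ a + x + y * l = 0 := by
  classical
  obtain ⟨y, hy⟩ := exists_avoid ({0, -a / l} : Finset F) (lt_of_le_of_lt Finset.card_le_two (by omega))
  simp only [Finset.mem_insert, Finset.mem_singleton, not_or] at hy
  refine ⟨-(a + y * l), y, neg_ne_zero.2 fun e => hy.2 ?_, hy.1, by ring⟩
  rw [eq_div_iff hl]
  linear_combination e

/-- Either there are few reserved unknowns which can always complete a solution, or the two
equations are dependent away from one unknown. -/
theorem solve_two (hq : 5 ≤ Fintype.card F) (α β : ι → F) (J : Finset ι) (hJ : J.Nonempty) :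
    (∃ R ⊆ J, R.card ≤ 4 ∧ ∀ f : ι → F, ∃ t : ι → F, (∀ i ∈ R, t i ≠ 0) ∧ (∀ i ∉ R, t i = f i) ∧
        (∑ i ∈ J, t i * α i) = 0 ∧ (∑ i ∈ J, t i * β i) = 0) ∨
    ∃ j ∈ J, ∃ l m : F, (l ≠ 0 ∨ m ≠ 0) ∧ ∀ i ∈ J, i ≠ j → l * α i + m * β i = 0 := by
  classical
  by_cases hdep : ∀ i ∈ J, ∀ j ∈ J, α i * β j - α j * β i = 0
  · obtain ⟨j0, hj0⟩ := hJ
    right
    by_cases hz : ∀ i ∈ J, α i = 0 ∧ β i = 0
    · exact ⟨j0, hj0, 1, 0, Or.inl one_ne_zero, fun i hi _ => by simp [(hz i hi).1]⟩
    · push Not at hz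
      obtain ⟨p, hp, hpz⟩ := hz
      refine ⟨j0, hj0, β p, -α p, ?_, fun i hi _ => by linear_combination hdep i hi p hp⟩
      by_cases hα : α p = 0
      · exact Or.inl (hpz hα)
      · exact Or.inr (neg_ne_zero.2 hα)
  push Not at hdep
  obtain ⟨i, hi, j, hj, hij⟩ := hdep
  have hne : i ≠ j := fun e => hij (by rw [e]; ring)
  by_cases htri : ∃ p ∈ J, α p * β i - α i * β p ≠ 0 ∧ α p * β j - α j * β p ≠ 0
  · obtain ⟨p, hp, hpi, hpj⟩ := htri
    left
    have hpi' : p ≠ i := fun e => hpi (by rw [e]; ring)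
    have hpj' : p ≠ j := fun e => hpj (by rw [e]; ring)
    refine ⟨{i, j, p}, ?_, Finset.card_le_three.trans (by norm_num), fun f => ?_⟩
    · intro u hu; simp at hu; rcases hu with rfl | rfl | rfl <;> assumption
    obtain ⟨x, y, z, hx, hy, hz, eA, eB⟩ := solve_three hq α β hij hpi hpj
      (∑ u ∈ J \ {i, j, p}, f u * α u) (∑ u ∈ J \ {i, j, p}, f u * β u)
    set t : ι → F := fun u => if u = i then x else if u = j then y else if u = p then z else f u with ht
    have hout : ∀ u, u ∉ ({i, j, p} : Finset ι) → t u = f u := fun u hu => by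
      simp at hu; simp [ht, hu.1, hu.2.1, hu.2.2]
    have hsub : ({i, j, p} : Finset ι) ⊆ J := by
      intro u hu; simp at hu; rcases hu with rfl | rfl | rfl <;> assumption
    refine ⟨t, fun u hu => ?_, hout, ?_, ?_⟩
    · simp at hu
      rcases hu with rfl | rfl | rfl <;> simp [ht, hne.symm, hpi', hpj', hx, hy, hz]
    all_goals
      rw [← Finset.sum_sdiff hsub, Finset.sum_congr rfl fun u hu => by
          rw [hout u (Finset.mem_sdiff.1 hu).2],
        Finset.sum_insert (by simp [hne, hpi'.symm]), Finset.sum_insert (by simp [hpj'.symm]),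
        Finset.sum_singleton]
      simp only [ht, if_pos, hne.symm, hpi', hpj', if_false]
    · linear_combination eA
    · linear_combination eB
  push Not at htri
  by_cases hi1 : ∀ p ∈ J, p ≠ i → α p * β j - α j * β p = 0
  · right
    refine ⟨i, hi, β j, -α j, ?_, fun p hp hpi => by linear_combination hi1 p hp hpi⟩
    by_contra h; push Not at h
    exact hij (by rw [h.1, neg_eq_zero.1 h.2]; ring)
  by_cases hj1 : ∀ p ∈ J, p ≠ j → α p * β i - α i * β p = 0
  · right
    refine ⟨j, hj, β i, -α i, ?_, fun p hp hpj => by linear_combination hj1 p hp hpj⟩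
    by_contra h; push Not at h
    exact hij (by rw [h.1, neg_eq_zero.1 h.2]; ring)
  push Not at hi1 hj1
  obtain ⟨i', hi', hi'i, hi'j⟩ := hi1
  obtain ⟨j', hj', hj'j, hj'i⟩ := hj1
  have hi'z : α i' * β i - α i * β i' = 0 := by
    by_contra h; exact hi'j (htri i' hi' h)
  have hj'z : α j' * β j - α j * β j' = 0 := htri j' hj' hj'i
  have hi'nej : i' ≠ j := fun e => hi'j (by rw [e]; ring)
  have hj'nei : j' ≠ i := fun e => hj'i (by rw [e]; ring)
  have hi'nej' : i' ≠ j' := fun e => hj'i (e ▸ hi'z)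
  set l := (α i' * β j - α j * β i') / (α i * β j - α j * β i) with hl
  have hl0 : l ≠ 0 := div_ne_zero hi'j hij
  have hl1 : α i' = l * α i ∧ β i' = l * β i := by
    rw [hl, div_mul_eq_mul_div, div_mul_eq_mul_div, eq_div_iff hij, eq_div_iff hij]
    exact ⟨by linear_combination -(α j) * hi'z, by linear_combination -(β j) * hi'z⟩
  set r := (α i * β j' - α j' * β i) / (α i * β j - α j * β i) with hr
  have hr0 : r ≠ 0 := div_ne_zero (fun e => hj'i (by linear_combination -e)) hij
  have hr1 : α j' = r * α j ∧ β j' = r * β j := by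
    rw [hr, div_mul_eq_mul_div, div_mul_eq_mul_div, eq_div_iff hij, eq_div_iff hij]
    exact ⟨by linear_combination (α i) * hj'z, by linear_combination (β i) * hj'z⟩
  left
  refine ⟨{i, i', j, j'}, ?_, Finset.card_le_four, fun f => ?_⟩
  · intro u hu; simp at hu; rcases hu with rfl | rfl | rfl | rfl <;> assumption
  set A := ∑ u ∈ J \ {i, i', j, j'}, f u * α u with hA
  set B := ∑ u ∈ J \ {i, i', j, j'}, f u * β u with hB
  obtain ⟨x, x', hx, hx', ex⟩ := solve_pair (by omega) hl0
    ((A * β j - α j * B) / (α i * β j - α j * β i))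
  obtain ⟨y, y', hy, hy', ey⟩ := solve_pair (by omega) hr0
    ((α i * B - A * β i) / (α i * β j - α j * β i))
  set t : ι → F := fun u => if u = i then x else if u = i' then x' else if u = j then y
    else if u = j' then y' else f u with ht
  have hout : ∀ u, u ∉ ({i, i', j, j'} : Finset ι) → t u = f u := fun u hu => by
    simp at hu; simp [ht, hu.1, hu.2.1, hu.2.2.1, hu.2.2.2]
  have hsub : ({i, i', j, j'} : Finset ι) ⊆ J := by
    intro u hu; simp at hu; rcases hu with rfl | rfl | rfl | rfl <;> assumption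
  rw [div_add' _ _ _ hij, div_add' _ _ _ hij, div_eq_zero_iff] at ex ey
  have ex' := ex.resolve_right hij
  have ey' := ey.resolve_right hij
  refine ⟨t, fun u hu => ?_, hout, ?_, ?_⟩
  · simp at hu
    rcases hu with rfl | rfl | rfl | rfl <;>
      simp [ht, hne.symm, hi'i, hi'nej.symm, hj'nei, hi'nej'.symm, hj'j, hx, hx', hy, hy']
  all_goals
    rw [← Finset.sum_sdiff hsub, Finset.sum_congr rfl fun u hu => by
        rw [hout u (Finset.mem_sdiff.1 hu).2],
      Finset.sum_insert (by simp [hne, hi'i.symm, hj'nei.symm]),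
      Finset.sum_insert (by simp [hi'nej, hi'nej']), Finset.sum_insert (by simp [hj'j.symm]),
      Finset.sum_singleton]
    simp only [ht, if_pos, hne.symm, hi'i, hi'nej.symm, hj'nei, hi'nej'.symm, hj'j, if_false, hl1,
      hr1]
    apply mul_right_cancel₀ hij
  · linear_combination α i * ex' + α j * ey'
  · linear_combination β i * ex' + β j * ey'

omit [DecidableEq ι] in
/-- Seven reserved unknowns with prescribed sum and product. -/
theorem solve_sum_prod (hq : 4 ≤ Fintype.card F) (A P : F) (hP : P ≠ 0) :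
    ∃ y : Fin 7 → F, (∀ i, y i ≠ 0) ∧ A + ∑ i, y i = 0 ∧ ∏ i, y i = P := by
  classical
  obtain ⟨b, hb⟩ := exists_avoid ({0, -1} : Finset F) (lt_of_le_of_lt Finset.card_le_two (by omega))
  simp only [Finset.mem_insert, Finset.mem_singleton, not_or] at hb
  have hb1 : -1 - b ≠ 0 := fun e => hb.2 (by linear_combination -e)
  obtain ⟨u, v, hu, hv, huv⟩ := solve_pair (by omega) (one_ne_zero (α := F)) A
  set P0 : F := u * v * (b * (-1 - b)) * (-1) with hP0
  have hP00 : P0 ≠ 0 := by
    rw [hP0]
    exact mul_ne_zero (mul_ne_zero (mul_ne_zero hu hv) (mul_ne_zero hb.1 hb1)) (neg_ne_zero.2 one_ne_zero)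
  set s : F := P / P0 with hs
  have hs0 : s ≠ 0 := div_ne_zero hP hP00
  refine ⟨![u, v, s, s * b, s * (-1 - b), s⁻¹, -s⁻¹], fun i => ?_, ?_, ?_⟩
  · fin_cases i <;> simp [hu, hv, hs0, hb.1, hb1, mul_ne_zero]
  · simp [Fin.sum_univ_succ]
    linear_combination huv
  · have key : u * (v * (s * (s * b * (s * (-1 - b) * (s⁻¹ * -s⁻¹))))) = s * P0 := by
      rw [hP0]; field_simp
    rw [show P = s * P0 by rw [hs, div_mul_cancel₀ _ hP00], ← key]
    simp [Fin.prod_univ_succ]

end CfsgLib.NonzeroSolve
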