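import Mathlib
import Cfsg.Agent.Classical.MonoBasics
import Cfsg.Agent.Classical.NonzeroSolve
import Cfsg.Agent.Eq.Def_GeometricClasses

/-!
A group containing the determinant-one diagonal matrices and a non-monomial matrix contains a
non-monomial matrix fixing a coordinate axis up to moving it to another axis.
-/

set_option autoImplicit false

namespace CfsgLib.MonoFixAxis

open Matrix CfsgLib.TransvGL CfsgLib.MonoBasics

variable {ι : Type} [Fintype ι] [DecidableEq ι] {F : Type*} [Field F]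

local notation "ax" i:max => (Pi.single i (1 : F) : ι → F)

theorem exists_generator [Fintype F] (hq : 5 ≤ Fintype.card F) :
    ∃ ε : Fˣ, (ε : F) ^ 2 ≠ 1 ∧ (ε : F) ^ 3 ≠ 1 := by
  classical
  obtain ⟨ε, hε⟩ := IsCyclic.exists_ofOrder_eq_natCard (α := Fˣ)
  have hc : Nat.card Fˣ = Fintype.card F - 1 := by
    rw [Nat.card_eq_fintype_card, Fintype.card_units]
  refine ⟨ε, fun e => ?_, fun e => ?_⟩
  all_goals
    have h1 : ε ^ _ = 1 := Units.ext (by rw [Units.val_pow_eq_pow_val, Units.val_one]; exact e)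
    have h2 := Nat.le_of_dvd (by norm_num) (orderOf_dvd_of_pow_eq_one h1)
    omega

variable {M : Subgroup (GL ι F)}
  (hT : ∀ d : ι → Fˣ, ∏ i, d i = 1 → dg d ∈ M)
  (hU : ∀ h : GL ι F, h ∈ M →
    (∃ a b : ι, (h : Matrix ι ι F) *ᵥ (Pi.single a (1 : F) : ι → F) ∈
      Submodule.span F {(Pi.single b (1 : F) : ι → F)}) → IsMono h)
  {ε : Fˣ} (hε2 : (ε : F) ^ 2 ≠ 1) (hε3 : (ε : F) ^ 3 ≠ 1)

include hT hU hε2 hε3

/-- Two common zeros of a column force two axes into the span of two columns. -/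
theorem axes_in_pair {g : GL ι F} (hgM : g ∈ M) (hg : ¬ IsMono g) (a : ι) {k l : ι} (hkl : k ≠ l)
    (hk : ((g : Matrix ι ι F) *ᵥ ax a) k = 0) (hl : ((g : Matrix ι ι F) *ᵥ ax a) l = 0) :
    ∃ i j, i ≠ j ∧ ax k ∈ Submodule.span F {(g : Matrix ι ι F) *ᵥ ax i, (g : Matrix ι ι F) *ᵥ ax j} ∧
      ax l ∈ Submodule.span F {(g : Matrix ι ι F) *ᵥ ax i, (g : Matrix ι ι F) *ᵥ ax j} := by
  classical
  set d := dg (torPair k l ε) with hd
  set A := g⁻¹ * d * g with hA
  have hAv : ∀ x, (A : Matrix ι ι F) *ᵥ x =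
      ((g⁻¹ : GL ι F) : Matrix ι ι F) *ᵥ ((d : Matrix ι ι F) *ᵥ ((g : Matrix ι ι F) *ᵥ x)) := fun x => by
    rw [hA, Units.val_mul, Units.val_mul, ← mulVec_mulVec, ← mulVec_mulVec]
  have hgA : ∀ x, (g : Matrix ι ι F) *ᵥ ((A : Matrix ι ι F) *ᵥ x) =
      (d : Matrix ι ι F) *ᵥ ((g : Matrix ι ι F) *ᵥ x) := fun x => by rw [hAv, mulVec_inv_mulVec]
  have hAM : A ∈ M := M.mul_mem (M.mul_mem (M.inv_mem hgM) (hT _ (prod_torPair hkl ε))) hgM
  have hdco : ∀ (x : ι → F) p, ((d : Matrix ι ι F) *ᵥ x) p =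
      (if p = k then (ε : F) else if p = l then (ε : F)⁻¹ else 1) * x p := fun x p => by
    rw [hd, dg_mulVec]; unfold torPair; split_ifs <;> simp
  have hAa : (A : Matrix ι ι F) *ᵥ ax a = ax a := by
    rw [hAv]
    have : (d : Matrix ι ι F) *ᵥ ((g : Matrix ι ι F) *ᵥ ax a) = (g : Matrix ι ι F) *ᵥ ax a := by
      funext p
      rw [hdco]
      split_ifs with h1 h2
      · rw [h1, hk, mul_zero]
      · rw [h2, hl, mul_zero]
      · rw [one_mul]
    rw [this, inv_mulVec_mulVec]
  have hAmono : IsMono A := hU A hAM ⟨a, a, by rw [hAa]; exact Submodule.mem_span_singleton_self _⟩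
  choose π hπ using hAmono
  have hinj := mono_index_injective hπ
  have hc' : ∀ j, ∃ c : F, c • ax (π j) = (A : Matrix ι ι F) *ᵥ ax j := fun j =>
    Submodule.mem_span_singleton.1 (hπ j)
  choose c hc using hc'
  have hc0 : ∀ j, c j ≠ 0 := fun j e =>
    mulVec_ne_zero A (ax_ne_zero j) (by rw [← hc, e, zero_smul])
  have hcol : ∀ i b, (g : Matrix ι ι F) *ᵥ ax i ∉ Submodule.span F {ax b} := fun i b h =>
    hg (hU g hgM ⟨i, b, h⟩)
  have hε0 : (ε : F) ≠ 0 := ε.ne_zero
  have hne1 : (ε : F) ≠ 1 := fun e => hε2 (by rw [e, one_pow])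
  have hinv1 : (ε : F)⁻¹ ≠ 1 := fun e => hne1 (inv_eq_one.1 e)
  have hεinv : (ε : F) ≠ (ε : F)⁻¹ := fun e => hε2 (by
    rw [sq]; nth_rewrite 2 [e]; exact mul_inv_cancel₀ hε0)
  -- some index moves
  obtain ⟨i, hi⟩ : ∃ i, π i ≠ i := by
    by_contra hfix
    push Not at hfix
    have hcoord : ∀ i p, ((if p = k then (ε : F) else if p = l then (ε : F)⁻¹ else 1) - c i) *
        ((g : Matrix ι ι F) *ᵥ ax i) p = 0 := fun i p => by
      have h1 := hgA (ax i)
      rw [← hc i, hfix i, mulVec_smul] at h1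
      have h2 := congrFun h1 p
      rw [hdco] at h2
      simp only [Pi.smul_apply, smul_eq_mul] at h2
      linear_combination -h2
    obtain ⟨i, hik⟩ : ∃ i, ((g : Matrix ι ι F) *ᵥ ax i) k ≠ 0 := by
      by_contra hall
      push Not at hall
      have hz : ∀ x, ((g : Matrix ι ι F) *ᵥ x) k = 0 := fun x => by
        conv_lhs => rw [← Finset.univ_sum_single x]
        rw [Matrix.mulVec_sum, Finset.sum_apply]
        refine Finset.sum_eq_zero fun i _ => ?_
        rw [show Pi.single i (x i) = x i • ax i by simp [← Pi.single_smul'], mulVec_smul,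
          Pi.smul_apply, hall i, smul_zero]
      have := hz (((g⁻¹ : GL ι F) : Matrix ι ι F) *ᵥ ax k)
      rw [mulVec_inv_mulVec] at this
      simp at this
    have hck : c i = ε := by
      have := hcoord i k
      rw [if_pos rfl] at this
      exact (sub_eq_zero.1 ((mul_eq_zero.1 this).resolve_right hik)).symm
    refine hcol i k (mem_axis_iff.2 fun p hp => ?_)
    have := hcoord i p
    rw [if_neg hp, hck, mul_eq_zero] at this
    refine this.resolve_left ?_
    split_ifs
    · exact sub_ne_zero.2 hεinv.symm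
    · exact sub_ne_zero.2 hne1.symm
  set σ : F := 1 + ε + (ε : F)⁻¹ with hσ
  have hcube : ∀ x, (A : Matrix ι ι F) *ᵥ ((A : Matrix ι ι F) *ᵥ ((A : Matrix ι ι F) *ᵥ x)) -
      σ • (A : Matrix ι ι F) *ᵥ ((A : Matrix ι ι F) *ᵥ x) + σ • (A : Matrix ι ι F) *ᵥ x - x = 0 := by
    intro x
    have h1 : (g : Matrix ι ι F) *ᵥ ((A : Matrix ι ι F) *ᵥ ((A : Matrix ι ι F) *ᵥ ((A : Matrix ι ι F) *ᵥ x)) -
        σ • (A : Matrix ι ι F) *ᵥ ((A : Matrix ι ι F) *ᵥ x) + σ • (A : Matrix ι ι F) *ᵥ x - x) = 0 := by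
      simp only [mulVec_sub, mulVec_add, mulVec_smul, hgA]
      funext p
      simp only [Pi.sub_apply, Pi.add_apply, Pi.smul_apply, smul_eq_mul, hdco, Pi.zero_apply, hσ]
      split_ifs <;> field_simp <;> ring
    have h2 := congrArg (((g⁻¹ : GL ι F) : Matrix ι ι F) *ᵥ ·) h1
    simpa only [inv_mulVec_mulVec, mulVec_zero] using h2
  have h3 := hcube (ax i)
  simp only [← hc, mulVec_smul, smul_smul] at h3
  set j := π i with hj
  have hjj : π j ≠ j := fun e => hi (hinj e)
  have key : π j = i := by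
    by_contra hji
    have e1 := congrFun h3 j
    have n3 : π (π j) ≠ j := fun e => hji (hinj e)
    simp [Ne.symm hjj, Ne.symm n3, hi] at e1
    rcases e1 with e | e
    · refine hε3 ?_
      have e' : 1 + (ε : F) + (ε : F)⁻¹ = 0 := e
      field_simp at e'
      linear_combination ((ε : F) - 1) * e'
    · exact hc0 i e
  rw [key, ← hj] at h3
  have ei := congrFun h3 i
  have ej := congrFun h3 j
  simp [Ne.symm hi, hi] at ei ej
  have hσ2 : σ ^ 2 = 1 := by
    have hji : c i * c j = -σ → σ ^ 2 = 1 := fun e => by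
      linear_combination ei + σ * e
    apply hji
    have e' : c i * (c j * c i + σ) = 0 := by linear_combination ej
    linear_combination (mul_eq_zero.1 e').resolve_left (hc0 i)
  have hσ1 : σ = 1 := by
    rcases sq_eq_one_iff.1 hσ2 with h | h
    · exact h
    · exfalso
      refine hε2 ?_
      rw [hσ] at h
      field_simp at h
      have e : ((ε : F) + 1) ^ 2 = 0 := by linear_combination h
      have := (pow_eq_zero_iff two_ne_zero).1 e
      linear_combination ((ε : F) - 1) * this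
  have hεsq : (ε : F) ^ 2 = -1 := by
    rw [hσ] at hσ1
    field_simp at hσ1
    linear_combination hσ1
  have hprod : c i * c j = -1 := by
    rw [hσ1] at ei
    linear_combination -ei
  -- eigenvectors inside the two columns
  have heig : ∀ (e : F) (p : ι), e ^ 2 = -1 → (∀ u, u ≠ p →
      (if u = k then (ε : F) else if u = l then (ε : F)⁻¹ else 1) ≠ e) →
      ax p ∈ Submodule.span F {(g : Matrix ι ι F) *ᵥ ax i, (g : Matrix ι ι F) *ᵥ ax j} := by
    intro e p he hp
    set x := e • ax i + c i • ax j with hx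
    have hAx : (A : Matrix ι ι F) *ᵥ x = e • x := by
      rw [hx, mulVec_add, mulVec_smul, mulVec_smul, ← hc i, ← hc j, key, ← hj, smul_smul, smul_smul,
        smul_add, smul_smul, smul_smul, hprod, ← sq, he, add_comm, mul_comm e]
    set y := (g : Matrix ι ι F) *ᵥ x with hy
    have hyp : y ∈ Submodule.span F {ax p} := mem_axis_iff.2 fun u hu => by
      have h1 := congrFun (hgA x) u
      rw [hAx, mulVec_smul, hdco, Pi.smul_apply, smul_eq_mul, ← hy] at h1
      by_contra hne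
      exact hp u hu (mul_right_cancel₀ hne h1).symm
    have hy0 : y ≠ 0 := by
      refine mulVec_ne_zero g fun h => ?_
      have := congrFun h j
      simp [hx, hi] at this
      exact hc0 i this
    obtain ⟨s, hs⟩ := Submodule.mem_span_singleton.1 hyp
    have hs0 : s ≠ 0 := fun e => hy0 (by rw [← hs, e, zero_smul])
    refine Submodule.mem_span_pair.2 ⟨s⁻¹ * e, s⁻¹ * c i, ?_⟩
    rw [← smul_smul, ← smul_smul, ← smul_add, ← mulVec_smul, ← mulVec_smul, ← mulVec_add, ← hx,
      ← hy, ← hs, smul_smul, inv_mul_cancel₀ hs0, one_smul]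
  refine ⟨i, j, fun e => hi e.symm, heig (ε : F) k hεsq fun u hu => ?_,
    heig (ε : F)⁻¹ l (by rw [inv_pow, hεsq, inv_neg, inv_one]) fun u hu => ?_⟩
  · rw [if_neg hu]
    split_ifs
    · exact hεinv.symm
    · exact hne1.symm
  · rw [if_neg hu]
    split_ifs
    · exact hεinv
    · exact hinv1.symm

/-- Columns have at most one zero. -/
theorem card_zeros_le_one (hn : 5 ≤ Fintype.card ι) {g : GL ι F} (hgM : g ∈ M) (hg : ¬ IsMono g)
    (a : ι) {k l : ι} (hk : ((g : Matrix ι ι F) *ᵥ ax a) k = 0)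
    (hl : ((g : Matrix ι ι F) *ᵥ ax a) l = 0) : k = l := by
  classical
  by_contra hkl
  obtain ⟨i, j, hij, hki, hli⟩ := axes_in_pair hT hU hε2 hε3 hgM hg a hkl hk hl
  have hind2 : ∀ {u v : ι}, u ≠ v → ∀ s r : F, s • ax u + r • ax v = 0 → s = 0 ∧ r = 0 := by
    intro u v huv s r h
    have h1 := congrFun h u
    have h2 := congrFun h v
    simp [huv, Ne.symm huv] at h1 h2
    exact ⟨h1, h2⟩
  have heq : ∀ {u v x y : ι}, u ≠ v → x ≠ y →
      ax u ∈ Submodule.span F {(g : Matrix ι ι F) *ᵥ ax x, (g : Matrix ι ι F) *ᵥ ax y} →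
      ax v ∈ Submodule.span F {(g : Matrix ι ι F) *ᵥ ax x, (g : Matrix ι ι F) *ᵥ ax y} →
      Submodule.span F {(g : Matrix ι ι F) *ᵥ ax x, (g : Matrix ι ι F) *ᵥ ax y} =
        Submodule.span F {ax u, ax v} := by
    intro u v x y huv _ hu hv
    refine (Submodule.eq_of_le_of_finrank_le ?_ ?_).symm
    · rw [Submodule.span_le]; rintro z (rfl | rfl) <;> assumption
    · have hli' : LinearIndependent F ![ax u, ax v] :=
        LinearIndependent.pair_iff.2 fun s r h => hind2 huv s r h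
      have h1 := finrank_span_eq_card hli'
      rw [Matrix.range_cons, Matrix.range_cons, Matrix.range_empty, Set.union_empty,
        Set.singleton_union, Fintype.card_fin] at h1
      rw [h1]
      refine (finrank_span_le_card _).trans ?_
      rw [Set.toFinset_insert, Set.toFinset_singleton]
      exact Finset.card_le_two
  have hui : ∀ p, p ≠ k → p ≠ l → ((g : Matrix ι ι F) *ᵥ ax i) p = 0 := by
    intro p hpk hpl
    have hm : (g : Matrix ι ι F) *ᵥ ax i ∈ Submodule.span F {ax k, ax l} := by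
      rw [← heq hkl hij hki hli]; exact Submodule.subset_span (Or.inl rfl)
    obtain ⟨s, r, hsr⟩ := Submodule.mem_span_pair.1 hm
    rw [← hsr]; simp [hpk, hpl]
  obtain ⟨S, hS, hScard⟩ := Finset.exists_subset_card_eq (s := Finset.univ \ {k, l}) (n := 3) (by
    rw [Finset.card_sdiff, Finset.inter_univ, Finset.card_pair hkl, Finset.card_univ]; omega)
  obtain ⟨p, r, s, hpr, hps, hrs, rfl⟩ := Finset.card_eq_three.1 hScard
  have hout : ∀ u ∈ ({p, r, s} : Finset ι), ((g : Matrix ι ι F) *ᵥ ax i) u = 0 := fun u hu => by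
    have := hS hu
    simp at this
    exact hui u this.1 this.2
  have hp0 := hout p (by simp)
  obtain ⟨i1, j1, hij1, hp1, hr1⟩ :=
    axes_in_pair hT hU hε2 hε3 hgM hg i hpr hp0 (hout r (by simp))
  obtain ⟨i2, j2, hij2, hp2, hs2⟩ :=
    axes_in_pair hT hU hε2 hε3 hgM hg i hps hp0 (hout s (by simp))
  set v := ((g⁻¹ : GL ι F) : Matrix ι ι F) *ᵥ ax p with hv
  have hsupp : ∀ {x y : ι}, x ≠ y →
      ax p ∈ Submodule.span F {(g : Matrix ι ι F) *ᵥ ax x, (g : Matrix ι ι F) *ᵥ ax y} →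
      ∀ u, v u ≠ 0 ↔ u = x ∨ u = y := by
    intro x y hxy hm u
    obtain ⟨s', r', hsr⟩ := Submodule.mem_span_pair.1 hm
    have hve : v = s' • ax x + r' • ax y := by
      rw [hv, ← hsr, mulVec_add, mulVec_smul, mulVec_smul, inv_mulVec_mulVec, inv_mulVec_mulVec]
    have hnotaxis : ∀ (z : F) (w : ι), v ≠ z • ax w := fun z w e => by
      refine hg (hU g hgM ⟨w, p, Submodule.mem_span_singleton.2 ⟨z⁻¹, ?_⟩⟩)
      have hz : z ≠ 0 := fun h => mulVec_ne_zero (g⁻¹) (ax_ne_zero p) (by rw [← hv, e, h, zero_smul])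
      have h1 : ax p = z • (g : Matrix ι ι F) *ᵥ ax w := by
        rw [← mulVec_smul, ← e, hv, mulVec_inv_mulVec]
      rw [h1, smul_smul, inv_mul_cancel₀ hz, one_smul]
    have hs' : s' ≠ 0 := fun e => hnotaxis r' y (by rw [hve, e, zero_smul, zero_add])
    have hr' : r' ≠ 0 := fun e => hnotaxis s' x (by rw [hve, e, zero_smul, add_zero])
    rw [hve]
    rcases eq_or_ne u x with rfl | hux
    · simp [hxy, hs']
    rcases eq_or_ne u y with rfl | huy
    · simp [Ne.symm hxy, hr']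
    · simp [hux, huy]
  have e1 := hsupp hij1 hp1
  have e2 := hsupp hij2 hp2
  have hspan : Submodule.span F {(g : Matrix ι ι F) *ᵥ ax i1, (g : Matrix ι ι F) *ᵥ ax j1} =
      Submodule.span F {(g : Matrix ι ι F) *ᵥ ax i2, (g : Matrix ι ι F) *ᵥ ax j2} := by
    have hi1 := (e2 i1).1 ((e1 i1).2 (Or.inl rfl))
    have hj1 := (e2 j1).1 ((e1 j1).2 (Or.inr rfl))
    rcases hi1 with rfl | rfl <;> rcases hj1 with rfl | rfl
    · exact absurd rfl hij1
    · rfl
    · rw [Set.pair_comm]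
    · exact absurd rfl hij1
  rw [← hspan, heq hpr hij1 hp1 hr1] at hs2
  obtain ⟨a', b', hab⟩ := Submodule.mem_span_pair.1 hs2
  have := congrFun hab s
  simp [Ne.symm hps, Ne.symm hrs] at this

end CfsgLib.MonoFixAxis

namespace CfsgLib.MonoFixAxis

open Matrix CfsgLib.TransvGL CfsgLib.MonoBasics

variable {ι : Type} [Fintype ι] [DecidableEq ι] {F : Type*} [Field F] [Fintype F]

local notation "ax" i:max => (Pi.single i (1 : F) : ι → F)

theorem pow_bound {Q n r : ℕ} (hQ : 4 ≤ Q) (hn : 13 ≤ n) (hr : r ≤ 8) : n * Q < Q ^ (n - r) := by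
  have h1 : n < 4 ^ (n - r - 1) := by
    have h2 : ∀ k, 4 ≤ k → k + 10 < 4 ^ k := by
      intro k hk
      induction k, hk using Nat.le_induction with
      | base => norm_num
      | succ k _ ih => rw [pow_succ]; omega
    have := h2 (n - r - 1) (by omega)
    omega
  calc n * Q < 4 ^ (n - r - 1) * Q := Nat.mul_lt_mul_of_pos_right h1 (by omega)
    _ ≤ Q ^ (n - r - 1) * Q := Nat.mul_le_mul_right _ (Nat.pow_le_pow_left hQ _)
    _ = Q ^ (n - r) := by rw [← pow_succ]; congr 1; omega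

/-- With many free parameters some solution avoids every axis. -/
theorem exists_off_axes (hn : 13 ≤ Fintype.card ι) (hq : 5 ≤ Fintype.card F) (g : GL ι F)
    (w : ι → F) (R : Finset ι) (hR : R.card ≤ 8) (hw : ∀ i ∉ R, w i ≠ 0)
    (P : (ι → Fˣ) → Prop) (hsol : ∀ f : ι → Fˣ, ∃ t, P t ∧ ∀ i ∉ R, t i = f i) :
    ∃ t, P t ∧ ∀ b, (g : Matrix ι ι F) *ᵥ ((dg t : Matrix ι ι F) *ᵥ w) ∉
      Submodule.span F {ax b} := by
  classical
  by_contra hno
  push Not at hno
  choose T hTP hTf using fun f : (Rᶜ : Finset ι) → Fˣ =>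
    hsol fun i => if h : i ∈ Rᶜ then f ⟨i, h⟩ else 1
  choose b hb using fun f => hno (T f) (hTP f)
  choose x hx using fun f => Submodule.mem_span_singleton.1 (hb f)
  obtain ⟨i0, hi0⟩ : ∃ i, i ∉ R := by
    by_contra h
    push Not at h
    have : R = Finset.univ := Finset.eq_univ_of_forall h
    rw [this, Finset.card_univ] at hR
    omega
  have hx0 : ∀ f, x f ≠ 0 := fun f e => by
    refine mulVec_ne_zero g (mulVec_ne_zero (dg (T f)) ?_) (by rw [← hx f, e, zero_smul])
    exact fun h => hw i0 hi0 (by rw [h]; rfl)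
  have hinj : Function.Injective fun f => (b f, Units.mk0 (x f) (hx0 f)) := by
    intro f f' hff
    simp only [Prod.mk.injEq, Units.mk0_inj] at hff
    funext u
    have h1 : (dg (T f) : Matrix ι ι F) *ᵥ w = (dg (T f') : Matrix ι ι F) *ᵥ w := by
      rw [← inv_mulVec_mulVec g ((dg (T f) : Matrix ι ι F) *ᵥ w), ← hx f, hff.1, hff.2, hx f',
        inv_mulVec_mulVec]
    have hu : (u : ι) ∉ R := Finset.mem_compl.1 u.2
    have h2 := congrFun h1 (u : ι)
    rw [dg_mulVec, dg_mulVec, hTf f _ hu, hTf f' _ hu, dif_pos u.2, dif_pos u.2] at h2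
    exact Units.ext (mul_right_cancel₀ (hw _ hu) h2)
  have h := Fintype.card_le_of_injective _ hinj
  rw [Fintype.card_fun, Fintype.card_prod, Fintype.card_units, Fintype.card_coe,
    Finset.card_compl] at h
  have := pow_bound (Q := Fintype.card F - 1) (n := Fintype.card ι) (r := R.card) (by omega) hn hR
  omega

theorem mulVec_dg_apply (g : GL ι F) (t : ι → Fˣ) (w : ι → F) (k : ι) :
    ((g : Matrix ι ι F) *ᵥ ((dg t : Matrix ι ι F) *ᵥ w)) k =
      ∑ j, (t j : F) * ((g : Matrix ι ι F) k j * w j) := by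
  simp only [mulVec, dotProduct]
  refine Finset.sum_congr rfl fun j _ => ?_
  have := dg_mulVec t w j
  simp only [mulVec, dotProduct] at this
  rw [this]; ring

theorem col_eq (g : GL ι F) (a i : ι) : ((g : Matrix ι ι F) *ᵥ ax a) i = (g : Matrix ι ι F) i a := by
  rw [Matrix.mulVec_single_one]; rfl

theorem exists_fix (hn : 13 ≤ Fintype.card ι) (hq : 5 ≤ Fintype.card F) {M : Subgroup (GL ι F)}
    (hT : ∀ d : ι → Fˣ, ∏ i, d i = 1 → dg d ∈ M) {g₀ : GL ι F} (hgM : g₀ ∈ M) (hg : ¬ IsMono g₀) :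
    ∃ h ∈ M, ¬ IsMono h ∧ ∃ a b, (h : Matrix ι ι F) *ᵥ ax a ∈ Submodule.span F {ax b} := by
  classical
  by_contra hno
  push Not at hno
  have hU : ∀ h ∈ M, (∃ a b, (h : Matrix ι ι F) *ᵥ ax a ∈ Submodule.span F {ax b}) → IsMono h :=
    fun h hh ⟨a, b, hab⟩ => by_contra fun hm => hno h hh hm a b hab
  obtain ⟨ε, hε2, hε3⟩ := exists_generator hq
  have one_zero : ∀ g ∈ M, ¬ IsMono g → ∀ a k l, ((g : Matrix ι ι F) *ᵥ ax a) k = 0 →
      ((g : Matrix ι ι F) *ᵥ ax a) l = 0 → k = l :=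
    fun g hg hgm a k l => card_zeros_le_one hT hU hε2 hε3 (by omega) hg hgm a
  have hgood : ∀ t : ι → Fˣ, ∏ i, t i = 1 → ∀ g ∈ M, ∀ a,
      (∀ b, (g : Matrix ι ι F) *ᵥ ((dg t : Matrix ι ι F) *ᵥ ((g : Matrix ι ι F) *ᵥ ax a)) ∉
        Submodule.span F {ax b}) →
      g * dg t * g ∈ M ∧ ¬ IsMono (g * dg t * g) ∧
      (((g * dg t * g : GL ι F) : Matrix ι ι F) *ᵥ ax a) =
        (g : Matrix ι ι F) *ᵥ ((dg t : Matrix ι ι F) *ᵥ ((g : Matrix ι ι F) *ᵥ ax a)) := by
    intro t ht g hg a hb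
    have e : ((g * dg t * g : GL ι F) : Matrix ι ι F) *ᵥ ax a =
        (g : Matrix ι ι F) *ᵥ ((dg t : Matrix ι ι F) *ᵥ ((g : Matrix ι ι F) *ᵥ ax a)) := by
      rw [Units.val_mul, Units.val_mul, ← mulVec_mulVec, ← mulVec_mulVec]
    refine ⟨M.mul_mem (M.mul_mem hg (hT t ht)) hg, fun hm => ?_, e⟩
    obtain ⟨b, hb'⟩ := hm a
    exact hb b (e ▸ hb')
  -- a non-monomial element with a zero entry
  obtain ⟨g, hgM, hg, a, z, hz⟩ : ∃ g ∈ M, ¬ IsMono g ∧ ∃ a z, ((g : Matrix ι ι F) *ᵥ ax a) z = 0 := by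
    by_contra hfull
    push Not at hfull
    obtain ⟨a⟩ : Nonempty ι := Fintype.card_pos_iff.1 (by omega)
    set w := (g₀ : Matrix ι ι F) *ᵥ ax a with hw
    have hw0 : ∀ i, w i ≠ 0 := fun i => hfull g₀ hgM hg a i
    have hrow : ∀ i, (g₀ : Matrix ι ι F) a i ≠ 0 := fun i => by rw [← col_eq]; exact hfull g₀ hgM hg i a
    obtain ⟨e⟩ : Nonempty (Fin 7 ↪ ι) :=
      Function.Embedding.nonempty_of_card_le (by rw [Fintype.card_fin]; omega)
    set R := Finset.univ.map e with hR
    set cf : ι → F := fun j => (g₀ : Matrix ι ι F) a j * w j with hcf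
    have hcf0 : ∀ j, cf j ≠ 0 := fun j => mul_ne_zero (hrow j) (hw0 j)
    obtain ⟨t, ⟨htp, htk⟩, htb⟩ := exists_off_axes hn hq g₀ w R (by simp [hR])
      (fun i _ => hw0 i) (fun t => ∏ i, t i = 1 ∧
        ((g₀ : Matrix ι ι F) *ᵥ ((dg t : Matrix ι ι F) *ᵥ w)) a = 0) (fun f => by
      have hP : (∏ r, cf (e r)) * (∏ i ∈ Rᶜ, (f i : F))⁻¹ ≠ 0 :=
        mul_ne_zero (Finset.prod_ne_zero_iff.2 fun r _ => hcf0 _)
          (inv_ne_zero (Finset.prod_ne_zero_iff.2 fun i _ => (f i).ne_zero))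
      obtain ⟨y, hy0, hys, hyp⟩ := NonzeroSolve.solve_sum_prod (by omega)
        (∑ i ∈ Rᶜ, (f i : F) * cf i) _ hP
      let t : ι → Fˣ := fun i => if h : ∃ r, e r = i then
        Units.mk0 (y h.choose / cf i) (div_ne_zero (hy0 _) (hcf0 i)) else f i
      have hte : ∀ r, (t (e r) : F) = y r / cf (e r) := fun r => by
        have h : ∃ r', e r' = e r := ⟨r, rfl⟩
        simp only [t, dif_pos h, Units.val_mk0, e.injective h.choose_spec]
      have htf : ∀ i ∉ R, t i = f i := fun i hi => dif_neg fun ⟨r, hr⟩ =>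
        hi (hr ▸ Finset.mem_map_of_mem e (Finset.mem_univ r))
      refine ⟨t, ⟨Units.ext ?_, ?_⟩, htf⟩
      · rw [Units.coe_prod, Units.val_one, ← Finset.prod_mul_prod_compl R, hR, Finset.prod_map,
          Finset.prod_congr rfl fun r _ => hte r, Finset.prod_div_distrib, hyp, ← hR,
          (Finset.prod_congr rfl fun i hi => by rw [htf i (Finset.mem_compl.1 hi)] :
            ∏ i ∈ Rᶜ, (t i : F) = ∏ i ∈ Rᶜ, (f i : F))]
        field_simp [Finset.prod_ne_zero_iff.2 fun r (_ : r ∈ Finset.univ) => hcf0 (e r),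
          Finset.prod_ne_zero_iff.2 fun i (_ : i ∈ Rᶜ) => (f i).ne_zero]
      · rw [mulVec_dg_apply, ← Finset.sum_add_sum_compl R, hR, Finset.sum_map]
        rw [Finset.sum_congr rfl fun r _ =>
          (show (t (e r) : F) * ((g₀ : Matrix ι ι F) a (e r) * w (e r)) = y r by
            rw [hte]; exact div_mul_cancel₀ _ (hcf0 _)), ← hR,
          (Finset.sum_congr rfl fun i hi => by rw [htf i (Finset.mem_compl.1 hi)] :
            ∑ i ∈ Rᶜ, (t i : F) * ((g₀ : Matrix ι ι F) a i * w i) = ∑ i ∈ Rᶜ, (f i : F) * cf i)]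
        linear_combination hys)
    obtain ⟨hm, hnm, he⟩ := hgood t htp g₀ hgM a htb
    exact hfull _ hm hnm a a (by rw [he]; exact htk)
  -- rows with few zeros
  set w := (g : Matrix ι ι F) *ᵥ ax a with hw
  have hwne : ∀ i, i ≠ z → w i ≠ 0 := fun i hi e => hi (one_zero g hgM hg a i z e hz)
  set Z : ι → Finset ι := fun k => Finset.univ.filter fun j => (g : Matrix ι ι F) k j = 0 with hZ
  have hcolZ : ∀ j k l, j ∈ Z k → j ∈ Z l → k = l := fun j k l h1 h2 => by
    simp [hZ] at h1 h2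
    exact one_zero g hgM hg j k l (by rw [col_eq]; exact h1) (by rw [col_eq]; exact h2)
  set G := Finset.univ.filter fun k => (Z k).card ≤ 1 with hG
  have hG4 : 4 ≤ G.card := by
    have h1 : (Finset.univ.biUnion Z).card ≤ Fintype.card ι := Finset.card_le_univ _
    rw [Finset.card_biUnion fun k _ l _ hkl => Finset.disjoint_left.2 fun j hj hj' =>
      hkl (hcolZ j k l hj hj')] at h1
    have h2 : ∑ k ∈ Gᶜ, 2 ≤ ∑ k, (Z k).card :=
      le_trans (Finset.sum_le_sum fun k hk => by simp [hG] at hk; omega)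
        (Finset.sum_le_sum_of_subset (Finset.subset_univ _))
    rw [Finset.sum_const, Finset.card_compl, smul_eq_mul] at h2
    omega
  obtain ⟨S, hS, hScard⟩ := Finset.exists_subset_card_eq hG4
  -- dependence of two good rows off the zero of the column and one more place
  have dep : ∀ k ∈ G, ∀ l ∈ G, k ≠ l → ∃ j, ∃ α : F,
      ∀ i, i ≠ z → i ≠ j → (g : Matrix ι ι F) k i = α * (g : Matrix ι ι F) l i := by
    intro k hk l hl hkl
    obtain ⟨p, hp⟩ : ∃ p, p ≠ z := Fintype.exists_ne_of_one_lt_card (by omega) z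
    rcases NonzeroSolve.solve_two hq (fun i => (g : Matrix ι ι F) k i * w i)
        (fun i => (g : Matrix ι ι F) l i * w i) (Finset.univ.erase z)
        ⟨p, Finset.mem_erase.2 ⟨hp, Finset.mem_univ _⟩⟩ with h | h
    · exfalso
      obtain ⟨R, hRJ, hR4, hR⟩ := h
      obtain ⟨t, ⟨htp, htk, htl⟩, htb⟩ := exists_off_axes hn hq g w (insert z R)
        ((Finset.card_insert_le _ _).trans (by omega))
        (fun i hi => hwne i fun e => hi (e ▸ Finset.mem_insert_self z R))
        (fun t => ∏ i, t i = 1 ∧ ((g : Matrix ι ι F) *ᵥ ((dg t : Matrix ι ι F) *ᵥ w)) k = 0 ∧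
          ((g : Matrix ι ι F) *ᵥ ((dg t : Matrix ι ι F) *ᵥ w)) l = 0) (fun f => by
        obtain ⟨t, ht0, htf, e1, e2⟩ := hR fun i => (f i : F)
        have htn : ∀ i, t i ≠ 0 := fun i => by
          by_cases hi : i ∈ R
          · exact ht0 i hi
          · rw [htf i hi]; exact (f i).ne_zero
        let u : ι → Fˣ := fun i => if i = z then (∏ j ∈ Finset.univ.erase z, Units.mk0 _ (htn j))⁻¹
          else Units.mk0 _ (htn i)
        have hu : ∀ i, i ≠ z → (u i : F) = t i := fun i hi => by simp [u, hi]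
        refine ⟨u, ⟨?_, ?_, ?_⟩, fun i hi => ?_⟩
        · rw [← Finset.mul_prod_erase _ _ (Finset.mem_univ z),
            Finset.prod_congr rfl fun i hi => (show u i = Units.mk0 _ (htn i) from
              if_neg (Finset.ne_of_mem_erase hi))]
          simp [u]
        · rw [mulVec_dg_apply, ← Finset.add_sum_erase _ _ (Finset.mem_univ z), hz, mul_zero, mul_zero,
            zero_add, Finset.sum_congr rfl fun i hi => by rw [hu i (Finset.ne_of_mem_erase hi)]]
          exact e1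
        · rw [mulVec_dg_apply, ← Finset.add_sum_erase _ _ (Finset.mem_univ z), hz, mul_zero, mul_zero,
            zero_add, Finset.sum_congr rfl fun i hi => by rw [hu i (Finset.ne_of_mem_erase hi)]]
          exact e2
        · rw [Finset.mem_insert, not_or] at hi
          exact Units.ext (by rw [hu i hi.1, htf i hi.2]))
      obtain ⟨hm, hnm, he⟩ := hgood t htp g hgM a htb
      exact hkl (one_zero _ hm hnm a k l (by rw [he]; exact htk) (by rw [he]; exact htl))
    · obtain ⟨j, -, c, d, hcd, hrel⟩ := h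
      have hrel' : ∀ i, i ≠ z → i ≠ j →
          c * (g : Matrix ι ι F) k i + d * (g : Matrix ι ι F) l i = 0 := fun i hiz hij => by
        have := hrel i (Finset.mem_erase.2 ⟨hiz, Finset.mem_univ _⟩) hij
        exact mul_right_cancel₀ (hwne i hiz) (by linear_combination this)
      refine ⟨j, -d / c, fun i hiz hij => ?_⟩
      have hc : c ≠ 0 := by
        intro hc
        have hd : d ≠ 0 := hcd.resolve_left (fun h => h hc)
        obtain ⟨u, hu, hu'⟩ : ∃ u ∈ (Finset.univ \ {z, j}), u ∉ Z l := by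
          by_contra hall
          push Not at hall
          have h1 := Finset.card_le_card (show Finset.univ \ {z, j} ⊆ Z l from hall)
          have h2 : (Z l).card ≤ 1 := (Finset.mem_filter.1 hl).2
          have h3 := Finset.le_card_sdiff {z, j} (Finset.univ : Finset ι)
          have h4 := Finset.card_le_two (a := z) (b := j)
          rw [Finset.card_univ] at h3
          omega
        simp at hu
        have h5 := hrel' u hu.1 hu.2
        simp [hZ] at hu'
        rw [hc, zero_mul, zero_add, mul_eq_zero] at h5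
        exact h5.elim hd hu'
      rw [div_mul_eq_mul_div, eq_div_iff hc]
      linear_combination hrel' i hiz hij
  obtain ⟨l, hlS⟩ := Finset.card_pos.1 (by omega : 0 < S.card)
  have hT3 : (S.erase l).card = 3 := by rw [Finset.card_erase_of_mem hlS, hScard]
  obtain ⟨k1, k2, k3, h12, h13, h23, hS3⟩ := Finset.card_eq_three.1 hT3
  have hmem : ∀ k ∈ ({k1, k2, k3} : Finset ι), k ∈ G ∧ k ≠ l := fun k hk => by
    rw [← hS3] at hk
    exact ⟨hS (Finset.mem_of_mem_erase hk), Finset.ne_of_mem_erase hk⟩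
  have hlG := hS hlS
  choose J α hJα using fun (k : ι) (hk : k ∈ G ∧ k ≠ l) => dep k hk.1 l hlG hk.2
  set Dv : ∀ k, (k ∈ G ∧ k ≠ l) → ι → F := fun k hk i =>
    (g : Matrix ι ι F) k i - α k hk * (g : Matrix ι ι F) l i with hDv
  have hD0 : ∀ k hk i, i ≠ z → i ≠ J k hk → Dv k hk i = 0 := fun k hk i h1 h2 =>
    sub_eq_zero.2 (hJα k hk i h1 h2)
  have hpair : ∀ k hk p hp, k ≠ p → J k hk ≠ J p hp → J k hk ≠ z → J p hp ≠ z →
      Dv k hk (J k hk) ≠ 0 → Dv p hp (J p hp) = 0 := by
    intro k hk p hp hkp hJ hJz hJz' hk0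
    by_contra hp0
    obtain ⟨j, γ, hγ⟩ := dep k hk.1 p hp.1 hkp
    have hβ : α k hk = γ * α p hp := by
      obtain ⟨u, hu, hu'⟩ : ∃ u ∈ (Finset.univ \ {z, j, J k hk, J p hp}), u ∉ Z l := by
        by_contra hall
        push Not at hall
        have h1 := Finset.card_le_card (show Finset.univ \ {z, j, J k hk, J p hp} ⊆ Z l from hall)
        have h2 : (Z l).card ≤ 1 := (Finset.mem_filter.1 hlG).2
        have h3 := Finset.le_card_sdiff {z, j, J k hk, J p hp} (Finset.univ : Finset ι)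
        have h4 := Finset.card_le_four (a := z) (b := j) (c := J k hk) (d := J p hp)
        rw [Finset.card_univ] at h3
        omega
      simp at hu hu'
      have e1 := hJα k hk u hu.1 hu.2.2.1
      have e2 := hJα p hp u hu.1 hu.2.2.2
      have e3 := hγ u hu.1 hu.2.1
      rw [e1, e2] at e3
      simp [hZ] at hu'
      exact mul_right_cancel₀ hu' (by linear_combination e3)
    have hlin : ∀ i, i ≠ z → i ≠ j → Dv k hk i = γ * Dv p hp i := fun i h1 h2 => by
      simp only [hDv]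
      rw [hγ i h1 h2, hβ]; ring
    by_cases hjk : J k hk = j
    · have h5 := hlin (J p hp) hJz' (fun e => hJ (hjk.trans e.symm))
      rw [hD0 k hk _ hJz' (Ne.symm hJ), eq_comm, mul_eq_zero] at h5
      rcases h5 with h6 | h6
      · have h7 : ∀ i, i ≠ z → i ≠ j → (g : Matrix ι ι F) k i = 0 := fun i h1 h2 => by
          rw [hγ i h1 h2, h6, zero_mul]
        have hk1 : (Z k).card ≤ 1 := (Finset.mem_filter.1 hk.1).2
        have hsub : Finset.univ \ {z, j} ⊆ Z k := fun i hi => by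
          simp at hi; simp [hZ, h7 i hi.1 hi.2]
        have h8 := Finset.card_le_card hsub
        have h9 := Finset.le_card_sdiff {z, j} (Finset.univ : Finset ι)
        have h10 := Finset.card_le_two (a := z) (b := j)
        rw [Finset.card_univ] at h9
        omega
      · exact hp0 h6
    · have h5 := hlin (J k hk) hJz hjk
      rw [hD0 p hp _ hJz hJ, mul_zero] at h5
      exact hk0 h5
  have m1 := hmem k1 (by simp)
  have m2 := hmem k2 (by simp)
  have m3 := hmem k3 (by simp)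
  obtain ⟨j0, hj0⟩ : ∃ j0, ∀ i, i ≠ z → i ≠ j0 →
      Dv k1 m1 i = 0 ∧ Dv k2 m2 i = 0 ∧ Dv k3 m3 i = 0 := by
    have triv : ∀ k hk, (J k hk = z ∨ Dv k hk (J k hk) = 0) → ∀ i, i ≠ z → Dv k hk i = 0 := by
      intro k hk h i hi
      by_cases e : i = J k hk
      · rcases h with h | h
        · exact absurd (e.trans h) hi
        · rw [e]; exact h
      · exact hD0 k hk i hi e
    have follow : ∀ k hk p hp, k ≠ p → ¬ (J k hk = z ∨ Dv k hk (J k hk) = 0) →
        ∀ i, i ≠ z → i ≠ J k hk → Dv p hp i = 0 := by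
      intro k hk p hp hkp h i hi hiJ
      push Not at h
      by_cases hJ : J p hp = J k hk
      · exact hD0 p hp i hi (hJ ▸ hiJ)
      · refine triv p hp ?_ i hi
        by_contra hc; push Not at hc
        exact hc.2 (hpair k hk p hp hkp (Ne.symm hJ) h.1 hc.1 h.2)
    by_cases h1 : J k1 m1 = z ∨ Dv k1 m1 (J k1 m1) = 0
    · by_cases h2 : J k2 m2 = z ∨ Dv k2 m2 (J k2 m2) = 0
      · exact ⟨J k3 m3, fun i hi hi' => ⟨triv _ m1 h1 i hi, triv _ m2 h2 i hi, hD0 _ m3 i hi hi'⟩⟩
      · exact ⟨J k2 m2, fun i hi hi' =>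
          ⟨triv _ m1 h1 i hi, hD0 _ m2 i hi hi', follow _ m2 _ m3 h23 h2 i hi hi'⟩⟩
    · exact ⟨J k1 m1, fun i hi hi' =>
        ⟨hD0 _ m1 i hi hi', follow _ m1 _ m2 h12 h1 i hi hi', follow _ m1 _ m3 h13 h1 i hi hi'⟩⟩
  -- three vectors in a plane are dependent
  let L : (Fin 3 → F) →ₗ[F] (Fin 2 → F) :=
    { toFun := fun ν => ![ν 0 * Dv k1 m1 z + ν 1 * Dv k2 m2 z + ν 2 * Dv k3 m3 z,
        ν 0 * Dv k1 m1 j0 + ν 1 * Dv k2 m2 j0 + ν 2 * Dv k3 m3 j0]
      map_add' := fun ν ν' => by funext i; fin_cases i <;> simp <;> ring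
      map_smul' := fun s ν => by funext i; fin_cases i <;> simp <;> ring }
  have hninj : ¬ Function.Injective L := fun h => by
    have := LinearMap.finrank_le_finrank_of_injective h
    simp at this
  obtain ⟨ν, hν, hν0⟩ : ∃ ν, L ν = 0 ∧ ν ≠ 0 := by
    by_contra hc
    push Not at hc
    exact hninj ((injective_iff_map_eq_zero L).2 hc)
  have hsum : ∀ i, ν 0 * Dv k1 m1 i + ν 1 * Dv k2 m2 i + ν 2 * Dv k3 m3 i = 0 := by
    intro i
    by_cases hiz : i = z
    · rw [hiz]; simpa [L] using congrFun hν 0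
    by_cases hij : i = j0
    · rw [hij]; simpa [L] using congrFun hν 1
    obtain ⟨e1, e2, e3⟩ := hj0 i hiz hij
    rw [e1, e2, e3]; ring
  set c : F := -(ν 0 * α k1 m1 + ν 1 * α k2 m2 + ν 2 * α k3 m3)
  let v : ι → F := ν 0 • ax k1 + ν 1 • ax k2 + ν 2 • ax k3 + c • ax l
  have hv : v ᵥ* (g : Matrix ι ι F) = 0 := by
    funext i
    simp only [v, add_vecMul, smul_vecMul, single_one_vecMul, Pi.add_apply, Pi.smul_apply,
      smul_eq_mul, Pi.zero_apply, Matrix.row_apply]
    have := hsum i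
    simp only [hDv] at this
    linear_combination this
  have hv0 : v = 0 := by
    rw [← Matrix.vecMul_one v, ← Units.val_one, ← mul_inv_cancel g, Units.val_mul, ← vecMul_vecMul,
      hv, Matrix.zero_vecMul]
  refine hν0 (funext fun i => ?_)
  have l1 := m1.2; have l2 := m2.2; have l3 := m3.2
  fin_cases i
  · simpa [v, h12, h13, l1] using congrFun hv0 k1
  · simpa [v, Ne.symm h12, h23, l2] using congrFun hv0 k2
  · simpa [v, Ne.symm h13, Ne.symm h23, l3] using congrFun hv0 k3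

end CfsgLib.MonoFixAxis
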