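import Mathlib
import Cfsg.Agent.Classical.MonoFixAxis
import Cfsg.Agent.Eq.Def_GeometricClasses

/-!
A group containing all monomial matrices and one non-monomial matrix contains an elementary
transvection.
-/

set_option autoImplicit false

namespace CfsgLib.MonoGLOvergroup

open Matrix CfsgLib.TransvGL CfsgLib.MonoBasics CfsgLib.FullCentres CfsgLib.PseudoRefl

variable {ι : Type} [Fintype ι] [DecidableEq ι] {F : Type*} [Field F]

local notation "ax" i:max => (Pi.single i (1 : F) : ι → F)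
local notation "pr" i:max => (LinearMap.proj i : Module.Dual F (ι → F))

theorem apply_eq_sum (v : Module.Dual F (ι → F)) (x : ι → F) : v x = ∑ i, x i * v (ax i) := by
  conv_lhs => rw [← Finset.univ_sum_single x, map_sum]
  refine Finset.sum_congr rfl fun i _ => ?_
  rw [show Pi.single i (x i) = x i • ax i by simp [← Pi.single_smul'], map_smul, smul_eq_mul]

theorem dual_ext {v w : Module.Dual F (ι → F)} (h : ∀ i, v (ax i) = w (ax i)) : v = w :=
  LinearMap.ext fun x => by
    rw [apply_eq_sum v, apply_eq_sum w]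
    exact Finset.sum_congr rfl fun i _ => by rw [h i]

/-- The pseudo-reflections with eigenvector `u` and functional `v` lie in `N`. -/
def Fam (N : Subgroup (GL ι F)) (v : Module.Dual F (ι → F)) (u : ι → F) : Prop :=
  ∃ h : v u = 1, ∀ δ, refl v h δ ∈ N

variable {N : Subgroup (GL ι F)} {v v' : Module.Dual F (ι → F)} {u u' : ι → F}

theorem refl_mul_inv (h : v u = 1) (δ : Fˣ) : (refl v h δ)⁻¹ = refl v h δ⁻¹ := by
  rw [inv_eq_iff_mul_eq_one]
  refine ext_mulVec fun x => ?_
  rw [Units.val_mul, ← mulVec_mulVec, refl_mulVec, refl_mulVec, map_add, map_smul, h, smul_eq_mul,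
    mul_one, Units.val_one, Matrix.one_mulVec, Units.val_inv_eq_inv_val, add_assoc, ← add_smul]
  have : ((δ : F)⁻¹ - 1) * v x + ((δ : F) - 1) * (v x + ((δ : F)⁻¹ - 1) * v x) = 0 := by
    field_simp
    ring
  rw [this, zero_smul, add_zero]

theorem Fam.conj (h : Fam N v u) {g : GL ι F} (hg : g ∈ N)
    (hv : ∀ x, v' ((g : Matrix ι ι F) *ᵥ x) = v x) : Fam N v' ((g : Matrix ι ι F) *ᵥ u) := by
  obtain ⟨h1, h2⟩ := h
  refine ⟨by rw [hv, h1], fun δ => ?_⟩
  have : g * refl v h1 δ * g⁻¹ = refl v' (show v' _ = 1 by rw [hv, h1]) δ := by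
    rw [mul_inv_eq_iff_eq_mul]
    refine ext_mulVec fun x => ?_
    simp only [Units.val_mul, ← mulVec_mulVec, refl_mulVec, mulVec_add, mulVec_smul, hv]
  rw [← this]
  exact N.mul_mem (N.mul_mem hg (h2 δ)) (N.inv_mem hg)

theorem has_sub_centre (h : Fam N v u) (h' : Fam N v u') {ε : Fˣ} :
    Has N (u' - u) ((1 - (ε : F)⁻¹) • v) := by
  obtain ⟨h1, h2⟩ := h
  obtain ⟨h3, h4⟩ := h'
  have h0 : ((1 - (ε : F)⁻¹) • v) (u' - u) = 0 := by
    rw [LinearMap.smul_apply, map_sub, h1, h3, sub_self, smul_zero]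
  refine ⟨h0, ?_⟩
  have : refl v h3 ε * refl v h1 ε⁻¹ = transv h0 := ext_mulVec fun x => by
    rw [Units.val_mul, ← mulVec_mulVec, refl_mulVec, refl_mulVec, transv_mulVec, map_add, map_smul, h1,
      LinearMap.smul_apply, smul_eq_mul, mul_one, smul_eq_mul, Units.val_inv_eq_inv_val, smul_sub]
    have : ((ε : F) - 1) * (v x + ((ε : F)⁻¹ - 1) * v x) = (1 - (ε : F)⁻¹) * v x := by
      field_simp
      ring
    rw [this]
    module
  rw [← this]
  exact N.mul_mem (h4 ε) (h2 ε⁻¹)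

theorem has_sub_funct (h : Fam N v u) (h' : Fam N v' u) {ε : Fˣ} :
    Has N u ((1 - (ε : F)⁻¹) • (v - v')) := by
  obtain ⟨h1, h2⟩ := h
  obtain ⟨h3, h4⟩ := h'
  have h0 : ((1 - (ε : F)⁻¹) • (v - v')) u = 0 := by
    rw [LinearMap.smul_apply, LinearMap.sub_apply, h1, h3, sub_self, smul_zero]
  refine ⟨h0, ?_⟩
  have : refl v' h3 ε⁻¹ * refl v h1 ε = transv h0 := ext_mulVec fun x => by
    rw [Units.val_mul, ← mulVec_mulVec, refl_mulVec, refl_mulVec, transv_mulVec, map_add, map_smul, h3,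
      LinearMap.smul_apply, LinearMap.sub_apply, smul_eq_mul, mul_one, smul_eq_mul,
      Units.val_inv_eq_inv_val, add_assoc, ← add_smul]
    congr 2
    field_simp
    ring
  rw [← this]
  exact N.mul_mem (h4 ε⁻¹) (h2 ε)

/-- An elementary transvection lies in `N`. -/
def Elem (N : Subgroup (GL ι F)) : Prop :=
  ∃ k l : ι, k ≠ l ∧ ∃ c : F, c ≠ 0 ∧ Has N (ax k) (c • pr l)

/-- Scaling one coordinate. -/
def scale (k : ι) (δ : Fˣ) : ι → Fˣ := fun i => if i = k then δ else 1

theorem scale_mulVec (k : ι) (δ : Fˣ) (x : ι → F) :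
    (dg (scale k δ) : Matrix ι ι F) *ᵥ x = x + (((δ : F) - 1) * x k) • ax k := by
  funext i
  rw [dg_mulVec]
  by_cases h : i = k
  · subst h; simp [scale]; ring
  · simp [scale, h]

theorem fam_scale (hN : ∀ g : GL ι F, IsMono g → g ∈ N) (k : ι) : Fam N (pr k) (ax k) := by
  refine ⟨by simp, fun δ => ?_⟩
  have : refl (pr k) (show (pr k) (ax k) = 1 by simp) δ = dg (scale k δ) := ext_mulVec fun x => by
    rw [refl_mulVec, scale_mulVec]; rfl
  rw [this]
  exact hN _ (isMono_dg _)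

variable [Fintype F] (hq : 5 ≤ Fintype.card F) (hN : ∀ g : GL ι F, IsMono g → g ∈ N)
include hq hN

theorem exists_scalar : ∃ δ : Fˣ, (δ : F) ≠ 1 ∧ (δ : F)⁻¹ ≠ 1 := by
  obtain ⟨δ, h, -⟩ := MonoFixAxis.exists_generator hq
  have : (δ : F) ≠ 1 := fun e => h (by rw [e, one_pow])
  exact ⟨δ, this, fun e => this (inv_eq_one.1 e)⟩

theorem elem_of_axis_centre {k : ι} {φ : Module.Dual F (ι → F)} (h : Has N (ax k) φ) (hφ : φ ≠ 0) :
    Elem N := by
  obtain ⟨δ, hδ, hδ'⟩ := exists_scalar hq hN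
  obtain ⟨l, hl⟩ : ∃ l, φ (ax l) ≠ 0 := by
    by_contra hc; push Not at hc
    exact hφ (dual_ext fun i => by rw [hc i]; rfl)
  have hkl : k ≠ l := fun e => hl (e ▸ h.apply_eq)
  set g := dg (scale l δ)
  set ψ := φ + (((δ : F)⁻¹ - 1) * φ (ax l)) • pr l with hψ
  have h1 := h.conj (g := g) (hN _ (isMono_dg _)) (ψ := ψ) fun x => by
    rw [scale_mulVec, hψ, LinearMap.add_apply, LinearMap.smul_apply, map_add, map_smul]
    simp only [smul_eq_mul, LinearMap.proj_apply, Pi.add_apply, Pi.smul_apply, Pi.single_eq_same]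
    field_simp
    ring
  rw [scale_mulVec, Pi.single_eq_of_ne (Ne.symm hkl), mul_zero, zero_smul, add_zero] at h1
  refine ⟨k, l, hkl, ((δ : F)⁻¹ - 1) * φ (ax l), mul_ne_zero (sub_ne_zero.2 hδ') hl, ?_⟩
  simpa [hψ] using h1.sub h

theorem elem_of_axis_funct {k : ι} {a : ι → F} {c : F} (hc : c ≠ 0) (ha : a ≠ 0)
    (h : Has N a (c • pr k)) : Elem N := by
  obtain ⟨δ, hδ, -⟩ := exists_scalar hq hN
  obtain ⟨l, hl⟩ := Function.ne_iff.1 ha
  have hak : a k = 0 := by simpa [hc] using h.apply_eq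
  have hlk : l ≠ k := fun e => hl (by rw [e]; exact hak)
  have h1 := h.conj (g := dg (scale l δ)) (hN _ (isMono_dg _)) (ψ := c • pr k) fun x => by
    rw [scale_mulVec]; simp [Ne.symm hlk]
  rw [scale_mulVec] at h1
  have h2 := h1.sub_left h
  rw [add_sub_cancel_left, has_smul_swap (mul_ne_zero (sub_ne_zero.2 hδ) hl), smul_smul] at h2
  exact ⟨l, k, hlk, _, mul_ne_zero (mul_ne_zero (sub_ne_zero.2 hδ) hl) hc, h2⟩

theorem elem_of_unequal (h : Fam N v u) {k : ι} (hk : ¬ (u k = 0 ↔ v (ax k) = 0)) : Elem N := by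
  obtain ⟨δ, hδ, hδ'⟩ := exists_scalar hq hN
  have hs : (1 - (δ : F)⁻¹) ≠ 0 := sub_ne_zero.2 (Ne.symm hδ')
  have hd := hN (dg (scale k δ)) (isMono_dg _)
  by_cases hu : u k = 0
  · have hv : v (ax k) ≠ 0 := fun e => hk ⟨fun _ => e, fun _ => hu⟩
    set v' := v + (((δ : F)⁻¹ - 1) * v (ax k)) • pr k with hv'
    have h1 := h.conj hd (v' := v') fun x => by
      rw [scale_mulVec, hv', LinearMap.add_apply, LinearMap.smul_apply, map_add, map_smul]
      simp only [smul_eq_mul, LinearMap.proj_apply, Pi.add_apply, Pi.smul_apply, Pi.single_eq_same]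
      field_simp
      ring
    rw [scale_mulVec, hu, mul_zero, zero_smul, add_zero] at h1
    have h2 := has_sub_funct h1 h (ε := δ)
    rw [hv', add_sub_cancel_left, smul_smul] at h2
    refine elem_of_axis_funct hq hN (mul_ne_zero hs (mul_ne_zero (sub_ne_zero.2 hδ') hv)) ?_ h2
    intro e; have := h.1; rw [e, map_zero] at this; exact zero_ne_one this
  · have hv : v (ax k) = 0 := by
      by_contra e; exact hk ⟨fun h' => absurd h' hu, fun h' => absurd h' e⟩
    have h1 := h.conj hd (v' := v) fun x => by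
      rw [scale_mulVec, map_add, map_smul, hv, smul_zero, add_zero]
    rw [scale_mulVec] at h1
    have h2 := has_sub_centre h h1 (ε := δ)
    rw [add_sub_cancel_left, has_smul_swap (mul_ne_zero (sub_ne_zero.2 hδ) hu), smul_smul] at h2
    refine elem_of_axis_centre hq hN h2 fun e => ?_
    have := LinearMap.congr_fun e u
    rw [LinearMap.smul_apply, h.1, LinearMap.zero_apply, smul_eq_mul, mul_one] at this
    exact mul_ne_zero (mul_ne_zero (sub_ne_zero.2 hδ) hu) hs this

theorem elem_of_distinct (h : Fam N v u) {k l p : ι} (hkl : k ≠ l) (hkp : k ≠ p) (hlp : l ≠ p)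
    (hk : v (ax k) ≠ 0) (hl : v (ax l) ≠ 0) (hp : v (ax p) ≠ 0)
    (hne : u k * v (ax k) ≠ u l * v (ax l)) : Elem N := by
  obtain ⟨δ, hδ, hδ'⟩ := exists_scalar hq hN
  have hs : (1 - (δ : F)⁻¹) ≠ 0 := sub_ne_zero.2 (Ne.symm hδ')
  let ck : Fˣ := Units.mk0 (v (ax k) / v (ax l)) (div_ne_zero hk hl)
  let c : ι → Fˣ := fun i => if i = k then ck else if i = l then ck⁻¹ else 1
  set m := monoGL (Equiv.swap k l) c with hm
  have hvm : v.comp (Matrix.toLin' (m : Matrix ι ι F)) = v := dual_ext fun i => by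
    rw [LinearMap.comp_apply, Matrix.toLin'_apply, hm, monoGL_mulVec_ax, map_smul, smul_eq_mul]
    rcases eq_or_ne i k with rfl | hik
    · simp [c, ck, div_mul_cancel₀ _ hl]
    rcases eq_or_ne i l with rfl | hil
    · simp [c, ck, hkl.symm, div_mul_cancel₀ _ hk]
    · simp [c, hik, hil, Equiv.swap_apply_of_ne_of_ne hik hil]
  have h1 := h.conj (g := m) (hN _ (isMono_monoGL _ _)) (v' := v) fun x => by
    conv_rhs => rw [← hvm]
    rw [LinearMap.comp_apply, Matrix.toLin'_apply]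
  set a := (m : Matrix ι ι F) *ᵥ u - u with ha
  have h2 : Has N a ((1 - (δ : F)⁻¹) • v) := has_sub_centre h h1 (ε := δ)
  have hap : a p = 0 := by
    simp [ha, hm, monoGL_mulVec, Equiv.swap_apply_of_ne_of_ne hkp.symm hlp.symm, c, hkp.symm, hlp.symm]
  have hal : a l ≠ 0 := by
    have e : a l = v (ax k) / v (ax l) * u k - u l := by
      simp [ha, hm, monoGL_mulVec, c, ck]
    rw [e, sub_ne_zero]
    intro e
    exact hne (by rw [← e]; field_simp)
  obtain ⟨φ, hφ⟩ : ∃ φ : Module.Dual F (ι → F), φ = (1 - (δ : F)⁻¹) • v := ⟨_, rfl⟩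
  rw [← hφ] at h2
  set ψ := φ + (((δ : F)⁻¹ - 1) * φ (ax p)) • pr p with hψ
  have h3 := h2.conj (g := dg (scale p δ)) (hN _ (isMono_dg _)) (ψ := ψ) fun x => by
    rw [scale_mulVec, hψ, LinearMap.add_apply, LinearMap.smul_apply, map_add, map_smul]
    simp only [smul_eq_mul, LinearMap.proj_apply, Pi.add_apply, Pi.smul_apply, Pi.single_eq_same]
    field_simp
    ring
  rw [scale_mulVec, hap, mul_zero, zero_smul, add_zero] at h3
  have h4 := h3.sub h2
  rw [hψ, add_sub_cancel_left] at h4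
  refine elem_of_axis_funct hq hN (mul_ne_zero (sub_ne_zero.2 hδ') ?_) (fun e => hal (by rw [e]; rfl)) h4
  rw [hφ, LinearMap.smul_apply, smul_eq_mul]; exact mul_ne_zero hs hp

variable [DecidableEq F]

omit hq hN in
theorem sum_supp (h : v u = 1) {P : F} (hP : ∀ i, u i ≠ 0 → u i * v (ax i) = P) :
    ((Finset.univ.filter fun i => u i ≠ 0).card : F) * P = 1 := by
  classical
  rw [← h, apply_eq_sum v, ← Finset.sum_filter_of_ne (p := fun i => u i ≠ 0)
    (fun i _ hi => left_ne_zero_of_mul hi), Finset.sum_congr rfl fun i hi => hP i (Finset.mem_filter.1 hi).2,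
    Finset.sum_const, nsmul_eq_mul]

/-- One step for a pair with constant products. -/
theorem elem_step (h : Fam N v u) (hsupp : ∀ i, u i = 0 ↔ v (ax i) = 0)
    (hS : 3 ≤ (Finset.univ.filter fun i => u i ≠ 0).card) {P : F}
    (hP : ∀ i, u i ≠ 0 → u i * v (ax i) = P) :
    Elem N ∨ (2 * P = 1 ∧ ∃ v' u', Fam N v' u' ∧ (∀ i, u' i = 0 ↔ v' (ax i) = 0) ∧
      3 ≤ (Finset.univ.filter fun i => u' i ≠ 0).card ∧ ∀ i, u' i ≠ 0 → u' i * v' (ax i) = 1) := by
  classical
  set S := Finset.univ.filter fun i => u i ≠ 0 with hSdef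
  obtain ⟨k, hk⟩ := Finset.card_pos.1 (by omega : 0 < S.card)
  have hku : u k ≠ 0 := (Finset.mem_filter.1 hk).2
  have hkv : v (ax k) ≠ 0 := fun e => hku ((hsupp k).2 e)
  have hP0 : P ≠ 0 := fun e => by
    rw [← hP k hku] at e; exact mul_ne_zero hku hkv e
  have hsumP := sum_supp h.1 hP
  obtain ⟨h1, h2⟩ := h
  -- the conjugated reflection
  have mk : ∀ δ : Fˣ, ∃ v' u', Fam N v' u' ∧ u' k = 1 + ((δ : F) - 1) * P ∧
      v' (ax k) = 1 + ((δ : F)⁻¹ - 1) * P ∧
      (∀ i, i ≠ k → u' i = ((δ : F) - 1) * v (ax k) * u i) ∧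
      (∀ i, i ≠ k → v' (ax i) = ((δ : F)⁻¹ - 1) * u k * v (ax i)) := by
    intro δ
    refine ⟨pr k ∘ₗ Matrix.toLin' ((refl v h1 δ⁻¹ : GL ι F) : Matrix ι ι F), _,
      (fam_scale hN k).conj (h2 δ) fun x => ?_, ?_, ?_, fun i hi => ?_, fun i hi => ?_⟩
    · rw [LinearMap.comp_apply, Matrix.toLin'_apply, ← refl_mul_inv h1, inv_mulVec_mulVec]
    · rw [refl_mulVec, Pi.add_apply, Pi.smul_apply, smul_eq_mul, Pi.single_eq_same, mul_assoc,
        mul_comm (v (ax k)), hP k hku]
    · rw [LinearMap.comp_apply, Matrix.toLin'_apply, refl_mulVec, LinearMap.proj_apply, Pi.add_apply,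
        Pi.smul_apply, smul_eq_mul, Pi.single_eq_same, Units.val_inv_eq_inv_val, mul_assoc,
        mul_comm (v (ax k)), hP k hku]
    · rw [refl_mulVec, Pi.add_apply, Pi.smul_apply, smul_eq_mul, Pi.single_eq_of_ne hi, zero_add]
    · rw [LinearMap.comp_apply, Matrix.toLin'_apply, refl_mulVec, LinearMap.proj_apply, Pi.add_apply,
        Pi.smul_apply, smul_eq_mul, Pi.single_eq_of_ne (Ne.symm hi), zero_add,
        Units.val_inv_eq_inv_val]
      ring
  obtain ⟨l, hl, p, hp, hlp⟩ : ∃ l ∈ S.erase k, ∃ p ∈ S.erase k, l ≠ p := by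
    refine Finset.one_lt_card.1 ?_
    rw [Finset.card_erase_of_mem hk]; omega
  simp only [Finset.mem_erase, hSdef, Finset.mem_filter, Finset.mem_univ, true_and] at hl hp
  by_cases hgood : ∃ δ : Fˣ, (δ : F) ^ 2 ≠ 1 ∧ 1 + ((δ : F) + (δ : F)⁻¹ - 2) * P ≠ 0
  · left
    obtain ⟨δ, hδ2, hδP⟩ := hgood
    have hδ : (δ : F) - 1 ≠ 0 := fun e => hδ2 (by rw [sub_eq_zero.1 e, one_pow])
    have hδ' : (δ : F)⁻¹ - 1 ≠ 0 := fun e => hδ (by rw [inv_eq_one.1 (sub_eq_zero.1 e), sub_self])
    obtain ⟨v', u', hfam, huk, hvk, hui, hvi⟩ := mk δ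
    by_cases hu0 : u' k = 0
    · refine elem_of_unequal hq hN hfam (k := k) fun hiff => ?_
      have hv0 := hiff.1 hu0
      rw [huk] at hu0; rw [hvk] at hv0
      have e : ((δ : F) - (δ : F)⁻¹) * P = 0 := by linear_combination hu0 - hv0
      refine hδ2 ?_
      have := sub_eq_zero.1 ((mul_eq_zero.1 e).resolve_right hP0)
      rw [sq]; nth_rewrite 2 [this]; exact mul_inv_cancel₀ δ.ne_zero
    by_cases hv0 : v' (ax k) = 0
    · exact elem_of_unequal hq hN hfam (k := k) fun hiff => hu0 (hiff.2 hv0)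
    have hnz : ∀ i, i ≠ k → u i ≠ 0 → v' (ax i) ≠ 0 := fun i hi hiu => by
      rw [hvi i hi]; exact mul_ne_zero (mul_ne_zero hδ' hku) fun e => hiu ((hsupp i).2 e)
    refine elem_of_distinct hq hN hfam hl.1.symm hp.1.symm hlp hv0 (hnz l hl.1 hl.2) (hnz p hp.1 hp.2) ?_
    rw [huk, hvk, hui l hl.1, hvi l hl.1]
    intro e
    refine hδP ?_
    have e' : (1 + ((δ : F) - 1) * P) * (1 + ((δ : F)⁻¹ - 1) * P) =
        ((δ : F) - 1) * ((δ : F)⁻¹ - 1) * P * P := by
      linear_combination e + ((δ : F) - 1) * ((δ : F)⁻¹ - 1) * (u l * v (ax l)) * (hP k hku) +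
        ((δ : F) - 1) * ((δ : F)⁻¹ - 1) * P * (hP l hl.2)
    linear_combination e'
  · right
    push Not at hgood
    obtain ⟨ε, hε2, hε3⟩ := MonoFixAxis.exists_generator hq
    have e1 := hgood ε hε2
    have hε4 : (ε : F) ^ 4 = 1 := by
      by_contra h4
      have e2 := hgood (ε ^ 2) (by rw [Units.val_pow_eq_pow_val, ← pow_mul]; exact h4)
      rw [Units.val_pow_eq_pow_val] at e2
      field_simp at e1 e2
      have e3 : ((ε : F) - 1) ^ 2 * ((ε : F) ^ 2 + ε + 1) * P = 0 := by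
        linear_combination e2 - (ε : F) * e1
      rcases mul_eq_zero.1 ((mul_eq_zero.1 e3).resolve_right hP0) with e | e
      · exact hε2 (by rw [sub_eq_zero.1 ((pow_eq_zero_iff two_ne_zero).1 e), one_pow])
      · exact hε3 (by linear_combination ((ε : F) - 1) * e)
    have hεsq : (ε : F) ^ 2 = -1 := by
      have : ((ε : F) ^ 2 - 1) * ((ε : F) ^ 2 + 1) = 0 := by linear_combination hε4
      exact eq_neg_of_add_eq_zero_left ((mul_eq_zero.1 this).resolve_left (sub_ne_zero.2 hε2))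
    have h2P : 2 * P = 1 := by
      field_simp at e1
      have e3 : (ε : F) * (1 - 2 * P) = 0 := by linear_combination e1 - P * hεsq
      exact (sub_eq_zero.1 ((mul_eq_zero.1 e3).resolve_left ε.ne_zero)).symm
    refine ⟨h2P, ?_⟩
    have h20 : (2 : F) ≠ 0 := fun e => by rw [e, zero_mul] at h2P; exact zero_ne_one h2P
    obtain ⟨v', u', hfam, huk, hvk, hui, hvi⟩ := mk (-1)
    simp only [Units.val_neg, Units.val_one, inv_neg, inv_one] at huk hvk hui hvi
    have huk0 : u' k = 0 := by rw [huk]; linear_combination -h2P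
    have hvk0 : v' (ax k) = 0 := by rw [hvk]; linear_combination -h2P
    have hm2 : (-1 - 1 : F) ≠ 0 := fun e => h20 (by linear_combination -e)
    have hiff : ∀ i, i ≠ k → (u' i = 0 ↔ u i = 0) ∧ (v' (ax i) = 0 ↔ v (ax i) = 0) := fun i hi => by
      rw [hui i hi, hvi i hi]
      simp [hm2, hkv, hku]
    refine ⟨v', u', hfam, fun i => ?_, ?_, fun i hi => ?_⟩
    · by_cases hi : i = k
      · subst hi; exact ⟨fun _ => hvk0, fun _ => huk0⟩
      · rw [(hiff i hi).1, (hiff i hi).2, hsupp i]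
    · have hset : (Finset.univ.filter fun i => u' i ≠ 0) = S.erase k := by
        ext i
        simp only [Finset.mem_filter, Finset.mem_univ, true_and, Finset.mem_erase, hSdef]
        by_cases hi : i = k
        · subst hi; simp [huk0]
        · simp [hi, (hiff i hi).1]
      rw [hset, Finset.card_erase_of_mem hk]
      have h3 : S.card ≠ 3 := fun e => by
        rw [← hSdef] at hsumP
        rw [e] at hsumP
        push_cast at hsumP
        exact hP0 (by linear_combination hsumP - h2P)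
      omega
    · have hik : i ≠ k := fun e => hi (e ▸ huk0)
      have hiu : u i ≠ 0 := fun e => hi ((hiff i hik).1.2 e)
      rw [hui i hik, hvi i hik]
      linear_combination 4 * u i * v (ax i) * (hP k hku) + 4 * P * (hP i hiu) +
        (2 * P + 1) * h2P

theorem elem_of_const (h : Fam N v u) (hsupp : ∀ i, u i = 0 ↔ v (ax i) = 0)
    (hS : 3 ≤ (Finset.univ.filter fun i => u i ≠ 0).card) {P : F}
    (hP : ∀ i, u i ≠ 0 → u i * v (ax i) = P) : Elem N := by
  rcases elem_step hq hN h hsupp hS hP with h' | ⟨-, v', u', hf, hs, hc, hP'⟩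
  · exact h'
  rcases elem_step hq hN hf hs hc hP' with h' | ⟨e, -⟩
  · exact h'
  · exact absurd e (by intro e; exact one_ne_zero (by linear_combination e : (1 : F) = 0))

theorem elem_of_three (h : Fam N v u) (hS : 3 ≤ (Finset.univ.filter fun i => u i ≠ 0).card) :
    Elem N := by
  classical
  by_cases hsupp : ∀ i, u i = 0 ↔ v (ax i) = 0
  · set S := Finset.univ.filter fun i => u i ≠ 0 with hSdef
    obtain ⟨k, hk⟩ := Finset.card_pos.1 (by omega : 0 < S.card)
    by_cases hconst : ∀ i, u i ≠ 0 → u i * v (ax i) = u k * v (ax k)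
    · exact elem_of_const hq hN h hsupp hS hconst
    push Not at hconst
    obtain ⟨l, hl, hne⟩ := hconst
    have hkl : k ≠ l := fun e => hne (by rw [e])
    obtain ⟨p, hp⟩ := (Finset.card_pos (s := (S.erase k).erase l)).1 (by
      have h1 := Finset.pred_card_le_card_erase (a := l) (s := S.erase k)
      have h2 := Finset.pred_card_le_card_erase (a := k) (s := S)
      omega)
    simp only [Finset.mem_erase, hSdef, Finset.mem_filter, Finset.mem_univ, true_and] at hp hk
    exact elem_of_distinct hq hN h hkl hp.2.1.symm hp.1.symm (fun e => hk ((hsupp k).2 e))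
      (fun e => hl ((hsupp l).2 e)) (fun e => hp.2.2 ((hsupp p).2 e)) (Ne.symm hne)
  · push Not at hsupp
    obtain ⟨i, hi⟩ := hsupp
    exact elem_of_unequal hq hN h (k := i) fun e => by tauto

theorem exists_elem (hn : 3 ≤ Fintype.card ι) {g : GL ι F} (hgN : g ∈ N) (hg : ¬ IsMono g) :
    Elem N := by
  classical
  obtain ⟨r, hr⟩ : ∃ r, ∀ i, (g : Matrix ι ι F) *ᵥ ax r ∉ Submodule.span F {ax i} := by
    by_contra hc
    push Not at hc
    exact hg hc
  set u := (g : Matrix ι ι F) *ᵥ ax r with hu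
  have h : Fam N (pr r ∘ₗ Matrix.toLin' ((g⁻¹ : GL ι F) : Matrix ι ι F)) u :=
    (fam_scale hN r).conj hgN fun x => by rw [LinearMap.comp_apply, Matrix.toLin'_apply, inv_mulVec_mulVec]
  set v := pr r ∘ₗ Matrix.toLin' ((g⁻¹ : GL ι F) : Matrix ι ι F)
  by_cases hsupp : ∀ i, u i = 0 ↔ v (ax i) = 0
  swap
  · push Not at hsupp
    obtain ⟨i, hi⟩ := hsupp
    exact elem_of_unequal hq hN h (k := i) fun e => by tauto
  set S := Finset.univ.filter fun i => u i ≠ 0 with hSdef
  by_cases hS : 3 ≤ S.card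
  · exact elem_of_three hq hN h hS
  -- the support is a pair
  obtain ⟨k, hk⟩ : ∃ k, u k ≠ 0 := by
    by_contra hc; push Not at hc
    refine hr r ?_
    rw [show u = 0 from funext hc]; exact Submodule.zero_mem _
  obtain ⟨l, hlk, hl⟩ : ∃ l, l ≠ k ∧ u l ≠ 0 := by
    by_contra hc; push Not at hc
    exact hr k (mem_axis_iff.2 hc)
  have hpair : ∀ i, u i ≠ 0 → i = k ∨ i = l := by
    intro i hi
    by_contra hc; push Not at hc
    apply hS
    calc 3 = ({i, k, l} : Finset ι).card :=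
          (Finset.card_eq_three.2 ⟨i, k, l, hc.1, hc.2, hlk.symm, rfl⟩).symm
      _ ≤ S.card := Finset.card_le_card fun x hx => by
          simp at hx; rcases hx with rfl | rfl | rfl <;> simp [hSdef, hi, hk, hl]
  obtain ⟨p, hp⟩ : ∃ p, p ∉ ({k, l} : Finset ι) := by
    by_contra hc; push Not at hc
    have : (Finset.univ : Finset ι) ⊆ {k, l} := fun i _ => hc i
    have := (Finset.card_le_card this).trans Finset.card_le_two
    rw [Finset.card_univ] at this; omega
  simp only [Finset.mem_insert, Finset.mem_singleton, not_or] at hp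
  obtain ⟨hpk, hpl⟩ := hp
  have hup : u p = 0 := by
    by_contra e; rcases hpair p e with e' | e'
    · exact hpk e'
    · exact hpl e'
  have hvp : v (ax p) = 0 := (hsupp p).1 hup
  set s := monoGL (Equiv.swap l p) (fun _ => (1 : Fˣ)) with hs
  have hssinv : ∀ x, (s : Matrix ι ι F) *ᵥ ((s : Matrix ι ι F) *ᵥ x) = x := fun x => funext fun i => by
    simp [hs, monoGL_mulVec]
  set v' := v ∘ₗ Matrix.toLin' (s : Matrix ι ι F) with hv'
  have h' : Fam N v' ((s : Matrix ι ι F) *ᵥ u) := h.conj (hN _ (isMono_monoGL _ _)) fun x => by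
    rw [hv', LinearMap.comp_apply, Matrix.toLin'_apply, hssinv]
  set u' := (s : Matrix ι ι F) *ᵥ u with hu'
  set P := u k * v (ax k) with hP
  have hP0 : P ≠ 0 := mul_ne_zero hk fun e => hk ((hsupp k).2 e)
  have hsk : ∀ x : ι → F, ((s : Matrix ι ι F) *ᵥ x) k = x k := fun x => by
    simp [hs, monoGL_mulVec, Equiv.swap_apply_of_ne_of_ne hlk.symm (Ne.symm hpk)]
  have hv'u : v' u = P := by
    rw [hv', LinearMap.comp_apply, Matrix.toLin'_apply, apply_eq_sum v, Finset.sum_eq_single k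
      (fun i _ hi => ?_) (by simp)]
    · rw [hsk]
    · by_cases hui : u i = 0
      · rw [(hsupp i).1 hui, mul_zero]
      · have hil : i = l := (hpair i hui).resolve_left hi
        simp [hil, hs, monoGL_mulVec, hup]
  have hvu' : v u' = P := by
    rw [← hv'u]; rfl
  obtain ⟨e, he⟩ := NonzeroSolve.exists_avoid ({0, 1, 1 - P⁻¹, (1 - P⁻¹)⁻¹} : Finset F)
    (lt_of_le_of_lt Finset.card_le_four (by omega))
  simp only [Finset.mem_insert, Finset.mem_singleton, not_or] at he
  obtain ⟨he0, he1, he2, he3⟩ := he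
  obtain ⟨h3, h4⟩ := h'
  set δ := Units.mk0 e he0
  have hA : 1 + (e - 1) * P ≠ 0 := fun h0 => he2 (by field_simp; linear_combination h0)
  have hB : 1 + (e⁻¹ - 1) * P ≠ 0 := fun h0 => he3 (by
    rw [eq_comm, inv_eq_iff_eq_inv, eq_comm]
    field_simp
    field_simp at h0
    linear_combination h0)
  have hn' := h.conj (h4 δ) (v' := v ∘ₗ Matrix.toLin' ((refl v' h3 δ⁻¹ : GL ι F) : Matrix ι ι F)) fun x => by
    rw [LinearMap.comp_apply, Matrix.toLin'_apply, ← refl_mul_inv h3, inv_mulVec_mulVec]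
  refine elem_of_three hq hN hn' ?_
  calc 3 = ({k, l, p} : Finset ι).card :=
        (Finset.card_eq_three.2 ⟨k, l, p, hlk.symm, (Ne.symm hpk), (Ne.symm hpl), rfl⟩).symm
    _ ≤ _ := Finset.card_le_card fun x hx => by
      simp only [Finset.mem_insert, Finset.mem_singleton] at hx
      simp only [Finset.mem_filter, Finset.mem_univ, true_and, refl_mulVec, hv'u, Pi.add_apply,
        Pi.smul_apply, smul_eq_mul]
      show u x + ((δ : F) - 1) * P * u' x ≠ 0
      rcases hx with rfl | rfl | rfl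
      · rw [hu', hsk, show (δ : F) = e from rfl]
        intro h0
        exact mul_ne_zero hA hk (by linear_combination h0)
      · simp [hu', hs, monoGL_mulVec, hup, hl]
      · simp [hu', hs, monoGL_mulVec, hup, hP0, hl, show (δ : F) = e from rfl, sub_ne_zero.2 he1]

end CfsgLib.MonoGLOvergroup
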