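import Mathlib
import Cfsg.Agent.Classical.MonoGLOvergroup
import Cfsg.Agent.Eq.Def_GeometricClasses

/-!
The monomial matrices of determinant one form a maximal subgroup of SL for at least five field
elements and dimension at least thirteen.
-/

set_option autoImplicit false

namespace CfsgLib.MonoOvergroup

open Matrix CfsgLib.TransvGL CfsgLib.MonoBasics CfsgLib.FullCentres CfsgLib.PseudoRefl

variable {ι : Type} [Fintype ι] [DecidableEq ι] {F : Type*} [Field F]

local notation "ax" i:max => (Pi.single i (1 : F) : ι → F)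
local notation "pr" i:max => (LinearMap.proj i : Module.Dual F (ι → F))

/-- The stabiliser of the axis `a` inside `M`. -/
def axisStab (M : Subgroup (GL ι F)) (a : ι) : Subgroup (GL ι F) :=
  Cfsg.Geo.subspaceStabilizer (Submodule.span F {(Pi.single a (1 : F) : ι → F)}) ⊓ M

theorem entry_zero {M : Subgroup (GL ι F)} {a : ι} {g : GL ι F} (hg : g ∈ axisStab M a) {i : ι}
    (hi : i ≠ a) : (g : Matrix ι ι F) i a = 0 := by
  have h := (mem_subspaceStabilizer.1 hg.1 (ax a)).1 (Submodule.mem_span_singleton_self _)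
  rw [show (g : Matrix ι ι F) i a = ((g : Matrix ι ι F) *ᵥ ax a) i by rw [Matrix.mulVec_single_one]; rfl]
  exact mem_axis_iff.1 h i hi

theorem block_mul {M : Subgroup (GL ι F)} {a : ι} {g h : GL ι F} (hg : g ∈ axisStab M a) :
    ((g * h : GL ι F) : Matrix ι ι F).submatrix (Subtype.val : {i // i ≠ a} → ι)
        (Subtype.val : {i // i ≠ a} → ι) =
      (g : Matrix ι ι F).submatrix (Subtype.val : {i // i ≠ a} → ι) (Subtype.val : {i // i ≠ a} → ι) *
        (h : Matrix ι ι F).submatrix (Subtype.val : {i // i ≠ a} → ι) (Subtype.val : {i // i ≠ a} → ι) := by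
  ext i j
  simp only [Units.val_mul, Matrix.submatrix_apply, Matrix.mul_apply]
  rw [← Fintype.sum_subtype_add_sum_subtype (fun k => k ≠ a)]
  have : ∑ k : {k // ¬ k ≠ a}, (g : Matrix ι ι F) i k * (h : Matrix ι ι F) k j = 0 := by
    refine Finset.sum_eq_zero fun k _ => ?_
    have hk : (k : ι) = a := not_not.1 k.2
    rw [hk, entry_zero hg i.2, zero_mul]
  rw [this, add_zero]

/-- The action on the quotient by the axis. -/
def blockHom (M : Subgroup (GL ι F)) (a : ι) : axisStab M a →* GL {i // i ≠ a} F where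
  toFun g :=
    ⟨((g : GL ι F) : Matrix ι ι F).submatrix Subtype.val Subtype.val,
      (((g : GL ι F)⁻¹ : GL ι F) : Matrix ι ι F).submatrix Subtype.val Subtype.val,
      by rw [← block_mul g.2, mul_inv_cancel]; exact Matrix.submatrix_one _ Subtype.val_injective,
      by rw [← block_mul (inv_mem g.2), inv_mul_cancel]
         exact Matrix.submatrix_one _ Subtype.val_injective⟩
  map_one' := Units.ext (Matrix.submatrix_one _ Subtype.val_injective)
  map_mul' g h := Units.ext (block_mul (h := (h : GL ι F)) g.2)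

theorem blockHom_apply {M : Subgroup (GL ι F)} {a : ι} (g : axisStab M a) (x : ι → F)
    (i : {i // i ≠ a}) :
    ((blockHom M a g : Matrix {i // i ≠ a} {i // i ≠ a} F) *ᵥ fun j => x j) i =
      (((g : GL ι F) : Matrix ι ι F) *ᵥ x) i := by
  show ((((g : GL ι F) : Matrix ι ι F).submatrix Subtype.val Subtype.val) *ᵥ _) i = _
  simp only [mulVec, dotProduct, Matrix.submatrix_apply]
  rw [← Fintype.sum_subtype_add_sum_subtype (fun k => k ≠ a)
    (fun k => ((g : GL ι F) : Matrix ι ι F) i k * x k)]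
  have : ∑ k : {k // ¬ k ≠ a}, ((g : GL ι F) : Matrix ι ι F) i k * x k = 0 := by
    refine Finset.sum_eq_zero fun k _ => ?_
    have hk : (k : ι) = a := not_not.1 k.2
    rw [hk, entry_zero g.2 i.2, zero_mul]
  rw [this, add_zero]

variable [Fintype F] {M : Subgroup (GL ι F)}
  (hq : 5 ≤ Fintype.card F) (hn : 13 ≤ Fintype.card ι)
  (hM : ∀ g ∈ Cfsg.Geo.specialLinear ι F, IsMono g → g ∈ M)
include hq hn hM

theorem torus_mem (d : ι → Fˣ) (hd : ∏ i, d i = 1) : dg d ∈ M :=
  hM _ (dg_mem_specialLinear hd) (isMono_dg d)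

theorem elem_of_row {a : ι} {φ : Module.Dual F (ι → F)} (h : Has M (ax a) φ) (hφ : φ ≠ 0) :
    MonoGLOvergroup.Elem M := by
  obtain ⟨δ, hδ2, -⟩ := MonoFixAxis.exists_generator hq
  have hδ1 : (δ : F) ≠ 1 := fun e => hδ2 (by rw [e, one_pow])
  have step : ∀ (φ : Module.Dual F (ι → F)), Has M (ax a) φ → ∀ l p, l ≠ a → p ≠ a → l ≠ p →
      Has M (ax a) ((((δ : F)⁻¹ - 1) * φ (ax l)) • pr l + (((δ : F) - 1) * φ (ax p)) • pr p) := by
    intro φ h l p hla hpa hlp
    set θ : Module.Dual F (ι → F) :=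
      (((δ : F)⁻¹ - 1) * φ (ax l)) • pr l + (((δ : F) - 1) * φ (ax p)) • pr p with hθ
    have hg : ∀ x, (dg (torPair l p δ) : Matrix ι ι F) *ᵥ x =
        x + (((δ : F) - 1) * x l) • ax l + (((δ : F)⁻¹ - 1) * x p) • ax p := fun x => funext fun i => by
      rw [dg_mulVec]
      rcases eq_or_ne i l with rfl | hil
      · simp [torPair, hlp]; ring
      rcases eq_or_ne i p with rfl | hip
      · simp [torPair, Ne.symm hlp]; ring
      · simp [torPair, hil, hip]
    have h1 := h.conj (torus_mem hq hn hM _ (prod_torPair hlp δ)) (ψ := φ + θ) fun x => by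
      rw [hg, hθ]
      simp only [LinearMap.add_apply, LinearMap.smul_apply, map_add, map_smul, smul_eq_mul,
        LinearMap.proj_apply, Pi.single_eq_same, Pi.single_eq_of_ne hlp, Pi.single_eq_of_ne hlp.symm]
      field_simp
      ring
    rw [hg, Pi.single_eq_of_ne hla, Pi.single_eq_of_ne hpa, mul_zero, mul_zero, zero_smul, zero_smul,
      add_zero, add_zero] at h1
    simpa using h1.sub h
  obtain ⟨l, hl⟩ : ∃ l, φ (ax l) ≠ 0 := by
    by_contra hc; push Not at hc
    exact hφ (MonoGLOvergroup.dual_ext fun i => by rw [hc i]; rfl)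
  have hla : l ≠ a := fun e => hl (e ▸ h.apply_eq)
  obtain ⟨p, hp⟩ := Finset.exists_mem_notMem_of_card_lt_card (s := ({a, l} : Finset ι)) (t := Finset.univ)
    (by have := Finset.card_le_two (a := a) (b := l); rw [Finset.card_univ]; omega)
  obtain ⟨p', hp'⟩ := Finset.exists_mem_notMem_of_card_lt_card (s := ({a, l, p} : Finset ι))
    (t := Finset.univ)
    (by have := Finset.card_le_three (a := a) (b := l) (c := p); rw [Finset.card_univ]; omega)
  simp only [Finset.mem_univ, Finset.mem_insert, Finset.mem_singleton, not_or, true_and] at hp hp'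
  have h1 := step φ h l p hla hp.1 (Ne.symm hp.2)
  have h2 := step _ h1 l p' hla hp'.1 (Ne.symm hp'.2.1)
  refine ⟨a, l, hla.symm, ((δ : F)⁻¹ - 1) * (((δ : F)⁻¹ - 1) * φ (ax l)),
    mul_ne_zero ?_ (mul_ne_zero ?_ hl), ?_⟩
  · exact sub_ne_zero.2 fun e => hδ1 (inv_eq_one.1 e)
  · exact sub_ne_zero.2 fun e => hδ1 (inv_eq_one.1 e)
  · simpa [Ne.symm hp.2, hp'.2.1, hp'.2.2, Ne.symm hp'.2.1] using h2

theorem elem_of_fix {h : GL ι F} (hh : h ∈ M) (hsl : M ≤ Cfsg.Geo.specialLinear ι F)
    (hmono : ¬ IsMono h) {a : ι} (ha : (h : Matrix ι ι F) *ᵥ ax a ∈ Submodule.span F {ax a}) :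
    MonoGLOvergroup.Elem M := by
  classical
  have hstab : ∀ g : GL ι F, (g : Matrix ι ι F) *ᵥ ax a ∈ Submodule.span F {ax a} →
      g ∈ Cfsg.Geo.subspaceStabilizer (Submodule.span F {ax a}) := by
    intro g hg
    obtain ⟨s, hs⟩ := Submodule.mem_span_singleton.1 hg
    have hs0 : s ≠ 0 := fun e => mulVec_ne_zero g (ax_ne_zero a) (by rw [← hs, e, zero_smul])
    refine mem_subspaceStabilizer.2 fun x => ⟨fun hx => ?_, fun hx => ?_⟩
    · obtain ⟨r, rfl⟩ := Submodule.mem_span_singleton.1 hx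
      rw [mulVec_smul]; exact Submodule.smul_mem _ _ hg
    · obtain ⟨r, hr⟩ := Submodule.mem_span_singleton.1 hx
      refine Submodule.mem_span_singleton.2 ⟨r / s, ?_⟩
      have e : (g : Matrix ι ι F) *ᵥ ((r / s) • ax a) = (g : Matrix ι ι F) *ᵥ x := by
        rw [mulVec_smul, ← hs, smul_smul, div_mul_cancel₀ _ hs0, hr]
      rw [← inv_mulVec_mulVec g x, ← e, inv_mulVec_mulVec]
  let N := (blockHom M a).range
  have hN' : ∀ n : GL {i // i ≠ a} F, IsMono n → ∃ G : axisStab M a, IsMono (G : GL ι F) ∧ blockHom M a G = n := by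
    intro n hn'
    choose π hπ using hn'
    let e : Equiv.Perm {i // i ≠ a} :=
      Equiv.ofBijective π (Finite.injective_iff_bijective.1 (mono_index_injective hπ))
    have hc' : ∀ j, ∃ c : F, c • (Pi.single (π j) 1 : {i // i ≠ a} → F) =
        (n : Matrix {i // i ≠ a} {i // i ≠ a} F) *ᵥ Pi.single j 1 := fun j =>
      Submodule.mem_span_singleton.1 (hπ j)
    choose c hc using hc'
    have hc0 : ∀ j, c j ≠ 0 := fun j e =>
      mulVec_ne_zero n (ax_ne_zero j) (by rw [← hc, e, zero_smul])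
    let P : Equiv.Perm ι := e.ofSubtype
    have hPa : P a = a := Equiv.Perm.ofSubtype_apply_of_not_mem e (by simp)
    have hPj : ∀ j : {i // i ≠ a}, P j = π j := fun j => Equiv.Perm.ofSubtype_apply_coe e j
    let C : ι → Fˣ := fun i => if hi : i ≠ a then Units.mk0 _ (hc0 ⟨i, hi⟩) else 1
    let d := Matrix.GeneralLinearGroup.det (monoGL P C)
    let D : ι → Fˣ := fun i => if i = a then d⁻¹ else 1
    set G := monoGL P C * dg D with hG
    have hGsl : G ∈ Cfsg.Geo.specialLinear ι F := by
      show Matrix.GeneralLinearGroup.det G = 1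
      rw [hG, map_mul]
      have : Matrix.GeneralLinearGroup.det (dg D) = d⁻¹ := by
        apply Units.ext
        show (Matrix.diagonal fun i => (D i : F)).det = _
        rw [Matrix.det_diagonal, ← Units.coe_prod, Finset.prod_ite_eq' Finset.univ a]
        simp
      rw [this, mul_inv_cancel]
    have hGa : (G : Matrix ι ι F) *ᵥ ax a ∈ Submodule.span F {ax a} := by
      rw [hG, Units.val_mul, ← mulVec_mulVec, dg_mulVec_ax, mulVec_smul, monoGL_mulVec_ax, hPa,
        smul_smul]
      exact Submodule.smul_mem _ _ (Submodule.mem_span_singleton_self _)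
    have hGM : G ∈ axisStab M a :=
      Subgroup.mem_inf.2 ⟨hstab G hGa, hM G hGsl ((isMono_monoGL P C).mul (isMono_dg D))⟩
    refine ⟨⟨G, hGM⟩, (isMono_monoGL P C).mul (isMono_dg D), ext_mulVec fun y => ?_⟩
    have key : ∀ j, (blockHom M a ⟨G, hGM⟩ : Matrix {i // i ≠ a} {i // i ≠ a} F) *ᵥ Pi.single j 1 =
        (n : Matrix {i // i ≠ a} {i // i ≠ a} F) *ᵥ Pi.single j 1 := by
      intro j
      funext i
      have e1 : (fun k : {i // i ≠ a} => (ax (j : ι)) k) = Pi.single j 1 := funext fun k => by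
        by_cases hk : k = j
        · subst hk; simp
        · rw [Pi.single_eq_of_ne hk, Pi.single_eq_of_ne fun h => hk (Subtype.ext h)]
      rw [← hc j, ← e1, blockHom_apply]
      show ((G : Matrix ι ι F) *ᵥ ax (j : ι)) i = _
      rw [hG, Units.val_mul, ← mulVec_mulVec, dg_mulVec_ax, show D j = 1 from if_neg j.2,
        Units.val_one, one_smul, monoGL_mulVec_ax, hPj, show C j = Units.mk0 _ (hc0 j) from dif_pos j.2]
      by_cases hi : i = π j
      · subst hi; simp
      · rw [Pi.smul_apply, Pi.smul_apply, Pi.single_eq_of_ne hi,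
          Pi.single_eq_of_ne (fun h : (i : ι) = π j => hi (Subtype.ext h))]
        simp
    rw [← Matrix.ext_of_mulVec_single key]
  have hN : ∀ n : GL {i // i ≠ a} F, IsMono n → n ∈ N := fun n hn' =>
    let ⟨G, _, hG⟩ := hN' n hn'; ⟨G, hG⟩
  have hhS : h ∈ axisStab M a := Subgroup.mem_inf.2 ⟨hstab h ha, hh⟩
  have hcard : Fintype.card {i // i ≠ a} = Fintype.card ι - 1 := by
    rw [Fintype.card_subtype_compl, Fintype.card_subtype_eq]
  -- an element acting as an elementary or trivial matrix on the quotient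
  obtain ⟨y, hyM, k, l, hka, hla, hkl, c, hy, hy1⟩ : ∃ y ∈ M, ∃ k l : ι, k ≠ a ∧ l ≠ a ∧ k ≠ l ∧
      ∃ c : F, (∀ x i, i ≠ a → ((y : Matrix ι ι F) *ᵥ x) i = x i + c * x l * (ax k) i) ∧
      (c ≠ 0 ∨ y ≠ 1) := by
    by_cases hb : IsMono (blockHom M a ⟨h, hhS⟩)
    · obtain ⟨⟨G, hG⟩, hGm, hGe⟩ := hN' _ hb.inv
      have hG' : G ∈ M := hG.2
      obtain ⟨k, hk⟩ := Finset.exists_mem_notMem_of_card_lt_card (s := ({a} : Finset ι)) (t := Finset.univ)
        (by rw [Finset.card_singleton, Finset.card_univ]; omega)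
      obtain ⟨l, hl⟩ := Finset.exists_mem_notMem_of_card_lt_card (s := ({a, k} : Finset ι))
        (t := Finset.univ)
        (by have := Finset.card_le_two (a := a) (b := k); rw [Finset.card_univ]; omega)
      simp only [Finset.mem_univ, Finset.mem_insert, Finset.mem_singleton, not_or, true_and] at hk hl
      by_cases h1 : G * h = 1
      · exfalso
        exact hmono (eq_inv_of_mul_eq_one_right h1 ▸ hGm.inv)
      · refine ⟨G * h, M.mul_mem hG' hh, k, l, hk, hl.1, Ne.symm hl.2, 0, fun x i hi => ?_, Or.inr h1⟩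
        have h2 := blockHom_apply (⟨G, hG⟩ * ⟨h, hhS⟩) x ⟨i, hi⟩
        rw [map_mul, hGe, inv_mul_cancel, Units.val_one, Matrix.one_mulVec] at h2
        rw [show ((⟨G, hG⟩ * ⟨h, hhS⟩ : axisStab M a) : GL ι F) = G * h from rfl] at h2
        simpa using h2.symm
    · obtain ⟨k, l, hkl, c, hc, hT, ⟨y, hy⟩, hye⟩ := (MonoGLOvergroup.exists_elem hq hN (by omega)
        (g := blockHom M a ⟨h, hhS⟩) ⟨_, rfl⟩ hb)
      refine ⟨y, hy.2, k, l, k.2, l.2, fun e => hkl (Subtype.ext e), c, fun x i hi => ?_, Or.inl hc⟩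
      have h1 := blockHom_apply ⟨y, hy⟩ x ⟨i, hi⟩
      rw [hye, transv_mulVec] at h1
      rw [← h1]
      by_cases hik : i = (k : ι)
      · subst hik; simp
      · rw [Pi.single_eq_of_ne hik, Pi.add_apply, Pi.smul_apply,
          Pi.single_eq_of_ne (fun h : (⟨i, hi⟩ : {i // i ≠ a}) = k => hik (congrArg Subtype.val h))]
        simp
  set ψ : Module.Dual F (ι → F) :=
    pr a ∘ₗ Matrix.toLin' (y : Matrix ι ι F) - pr a with hψ
  have hyx : ∀ x, (y : Matrix ι ι F) *ᵥ x = x + (c * x l) • ax k + ψ x • ax a := fun x => funext fun i => by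
    by_cases hi : i = a
    · subst hi
      simp [hψ, Ne.symm hka]
    · rw [hy x i hi]; simp [hi]
  have hψa : ψ (ax a) = 0 := by
    have h0 : (c • pr l) (ax k) = 0 := by simp [Ne.symm hkl]
    set T := transv h0 with hT
    set ψ' := ψ ∘ₗ Matrix.toLin' ((T⁻¹ : GL ι F) : Matrix ι ι F) with hψ'
    have hmat : (y : Matrix ι ι F) =
        LinearMap.toMatrix' (LinearMap.transvection ψ' (ax a)) * (T : Matrix ι ι F) := by
      refine Matrix.ext_of_mulVec_single fun j => ?_
      rw [← mulVec_mulVec, LinearMap.toMatrix'_mulVec, LinearMap.transvection.apply, hψ',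
        LinearMap.comp_apply, Matrix.toLin'_apply, inv_mulVec_mulVec, hT, transv_mulVec, hyx]
      simp
    have hd := mem_specialLinear_iff.1 (hsl hyM)
    rw [hmat, Matrix.det_mul, LinearMap.det_toMatrix', LinearMap.transvection.det,
      mem_specialLinear_iff.1 (transv_mem_specialLinear h0), mul_one] at hd
    have : ψ' (ax a) = ψ (ax a) := by
      rw [hψ', LinearMap.comp_apply, Matrix.toLin'_apply, hT, transv_inv, transv_mulVec]
      simp [Ne.symm hla]
    linear_combination hd - this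
  by_cases hψ0 : ψ = 0
  · have hc : c ≠ 0 := by
      rcases hy1 with hc | hy1
      · exact hc
      · intro e
        exact hy1 (ext_mulVec fun x => by rw [hyx, e, hψ0]; simp)
    have h0 : (c • pr l) (ax k) = 0 := by simp [Ne.symm hkl]
    refine ⟨k, l, hkl, c, hc, h0, ?_⟩
    convert hyM using 1
    exact ext_mulVec fun x => by rw [transv_mulVec, hyx, hψ0]; simp
  obtain ⟨δ, hδ2, -⟩ := MonoFixAxis.exists_generator hq
  obtain ⟨p, hp⟩ := Finset.exists_mem_notMem_of_card_lt_card (s := ({a, k, l} : Finset ι))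
    (t := Finset.univ)
    (by have := Finset.card_le_three (a := a) (b := k) (c := l); rw [Finset.card_univ]; omega)
  simp only [Finset.mem_univ, Finset.mem_insert, Finset.mem_singleton, not_or, true_and] at hp
  obtain ⟨hpa, hpk, hpl⟩ := hp
  set Dg := dg (torPair a p δ) with hDg
  have hDM : Dg ∈ M := torus_mem hq hn hM _ (prod_torPair (Ne.symm hpa) δ)
  set φ := ((δ : F) • (ψ ∘ₗ Matrix.toLin' ((Dg⁻¹ : GL ι F) : Matrix ι ι F)) - ψ) ∘ₗ
    Matrix.toLin' ((y⁻¹ : GL ι F) : Matrix ι ι F) with hφ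
  have hDinv : (Dg : Matrix ι ι F) *ᵥ ax a = (δ : F) • ax a ∧
      ((Dg⁻¹ : GL ι F) : Matrix ι ι F) *ᵥ ax a = (δ : F)⁻¹ • ax a := by
    rw [hDg, dg_inv, dg_mulVec_ax, dg_mulVec_ax]
    simp [torPair]
  have hya : (y : Matrix ι ι F) *ᵥ ax a = ax a := by
    rw [hyx, hψa]; simp [Ne.symm hla]
  have hφa : φ (ax a) = 0 := by
    have : ((y⁻¹ : GL ι F) : Matrix ι ι F) *ᵥ ax a = ax a := by
      conv_lhs => rw [← hya, inv_mulVec_mulVec]
    rw [hφ, LinearMap.comp_apply, Matrix.toLin'_apply, this, LinearMap.sub_apply, LinearMap.smul_apply,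
      LinearMap.comp_apply, Matrix.toLin'_apply, hDinv.2, map_smul, hψa]
    simp
  have hcomm : transv hφa = Dg * y * Dg⁻¹ * y⁻¹ := by
    rw [eq_mul_inv_iff_mul_eq]
    refine ext_mulVec fun x => ?_
    simp only [Units.val_mul, ← mulVec_mulVec, transv_mulVec, hφ, LinearMap.comp_apply,
      Matrix.toLin'_apply, inv_mulVec_mulVec, LinearMap.sub_apply, LinearMap.smul_apply, smul_eq_mul]
    rw [hyx (((Dg⁻¹ : GL ι F) : Matrix ι ι F) *ᵥ x), mulVec_add, mulVec_add, mulVec_smul, mulVec_smul,
      mulVec_inv_mulVec, hDinv.1, hyx]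
    have e1 : (Dg : Matrix ι ι F) *ᵥ ax k = ax k := by
      rw [hDg, dg_mulVec_ax]; simp [torPair, hka, Ne.symm hpk]
    have e2 : (((Dg⁻¹ : GL ι F) : Matrix ι ι F) *ᵥ x) l = x l := by
      rw [hDg, dg_inv, dg_mulVec]; simp [torPair, hla, Ne.symm hpl]
    rw [e1, e2]
    module
  refine elem_of_row hq hn hM (a := a) (φ := φ)
    ⟨hφa, hcomm ▸ M.mul_mem (M.mul_mem (M.mul_mem hDM hyM) (M.inv_mem hDM)) (M.inv_mem hyM)⟩
    fun e => hψ0 (MonoGLOvergroup.dual_ext fun i => ?_)
  have hev := LinearMap.congr_fun e ((y : Matrix ι ι F) *ᵥ ax i)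
  rw [hφ, LinearMap.comp_apply, Matrix.toLin'_apply, inv_mulVec_mulVec, LinearMap.sub_apply,
    LinearMap.smul_apply, LinearMap.comp_apply, Matrix.toLin'_apply, hDg, dg_inv, dg_mulVec_ax,
    map_smul, LinearMap.zero_apply, smul_eq_mul, smul_eq_mul] at hev
  rw [LinearMap.zero_apply]
  have hδ1 : (δ : F) ≠ 1 := fun e => hδ2 (by rw [e, one_pow])
  rcases eq_or_ne i a with rfl | hia
  · exact hψa
  rcases eq_or_ne i p with rfl | hip
  · simp [torPair, hia] at hev
    have : ((δ : F) ^ 2 - 1) * ψ (ax i) = 0 := by linear_combination hev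
    exact (mul_eq_zero.1 this).resolve_left (sub_ne_zero.2 hδ2)
  · simp [torPair, hia, hip] at hev
    have : ((δ : F) - 1) * ψ (ax i) = 0 := by linear_combination hev
    exact (mul_eq_zero.1 this).resolve_left (sub_ne_zero.2 hδ1)

/-- Every proper overgroup inside SL is the monomial group. -/
theorem specialLinear_le (hsl : M ≤ Cfsg.Geo.specialLinear ι F) {g : GL ι F} (hgM : g ∈ M)
    (hg : ¬ IsMono g) : Cfsg.Geo.specialLinear ι F ≤ M := by
  classical
  obtain ⟨h, hh, hnm, a, b, hab⟩ := MonoFixAxis.exists_fix hn hq (torus_mem hq hn hM) hgM hg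
  -- move the image axis back
  obtain ⟨r, hr⟩ := Finset.exists_mem_notMem_of_card_lt_card (s := ({a, b} : Finset ι)) (t := Finset.univ)
    (by have := Finset.card_le_two (a := a) (b := b); rw [Finset.card_univ]; omega)
  simp only [Finset.mem_univ, Finset.mem_insert, Finset.mem_singleton, not_or, true_and] at hr
  obtain ⟨m, hm1, hm2, hm3, -⟩ := exists_special_perm (F := F) (Equiv.swap a b) r
  have hmM := hM m hm1 hm2
  obtain ⟨k, l, hkl, c, hc, hT⟩ : MonoGLOvergroup.Elem M := by
    refine elem_of_fix hq hn hM (M.mul_mem hmM hh) hsl (fun e => hnm ?_) (a := a) ?_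
    · have := hm2.inv.mul e
      rwa [inv_mul_cancel_left] at this
    · obtain ⟨s, hs⟩ := Submodule.mem_span_singleton.1 hab
      rw [Units.val_mul, ← mulVec_mulVec, ← hs, mulVec_smul, hm3 b (Ne.symm hr.2),
        Equiv.swap_apply_right]
      exact Submodule.smul_mem _ _ (Submodule.mem_span_singleton_self _)
  have hall : ∀ c' : F, Has M (ax k) (c' • pr l) := by
    intro c'
    by_cases hc' : c' = 0
    · rw [hc', zero_smul]; exact has_zero_right _
    obtain ⟨j, hj⟩ := Finset.exists_mem_notMem_of_card_lt_card (s := ({k, l} : Finset ι)) (t := Finset.univ)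
      (by have := Finset.card_le_two (a := k) (b := l); rw [Finset.card_univ]; omega)
    simp only [Finset.mem_univ, Finset.mem_insert, Finset.mem_singleton, not_or, true_and] at hj
    let δ : Fˣ := Units.mk0 (c' / c) (div_ne_zero hc' hc)
    have h1 := hT.conj (torus_mem hq hn hM _ (prod_torPair (Ne.symm hj.1) δ)) (ψ := c • pr l) fun x => by
      rw [LinearMap.smul_apply, LinearMap.smul_apply]
      show c • ((dg (torPair k j δ) : Matrix ι ι F) *ᵥ x) l = c • x l
      rw [dg_mulVec]
      simp [torPair, Ne.symm hkl, Ne.symm hj.2]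
    rw [dg_mulVec_ax, has_smul_swap (Units.ne_zero _), smul_smul] at h1
    have e : ((torPair k j δ) k : F) * c = c' := by
      simp [torPair, δ, div_mul_cancel₀ _ hc]
    rwa [e] at h1
  refine specialLinear_le_of_full (S := Set.range fun i => ax i) ?_ ?_
  · refine eq_top_iff.2 fun x _ => ?_
    rw [← Finset.univ_sum_single x]
    refine Submodule.sum_mem _ fun i _ => ?_
    rw [show Pi.single i (x i) = x i • ax i by simp [← Pi.single_smul']]
    exact Submodule.smul_mem _ _ (Submodule.subset_span ⟨i, rfl⟩)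
  rintro _ ⟨k', rfl⟩ φ hφ
  have hφeq : φ = ∑ i, φ (ax i) • pr i := MonoGLOvergroup.dual_ext fun i => by
    simp [LinearMap.sum_apply, Pi.single_apply]
  rw [hφeq]
  have key : ∀ S : Finset ι, Has M (ax k') (∑ i ∈ S, φ (ax i) • pr i) := by
    intro S
    induction S using Finset.induction_on with
    | empty => simpa using has_zero_right (ax k')
    | insert l' S hl' ih =>
      rw [Finset.sum_insert hl']
      refine Has.add ?_ ih
      by_cases hlk : l' = k'
      · subst hlk; rw [hφ, zero_smul]; exact has_zero_right _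
      -- carry (k, l) to (k', l')
      obtain ⟨π, hπk, hπl⟩ : ∃ π : Equiv.Perm ι, π k = k' ∧ π l = l' := by
        set l1 := Equiv.swap k k' l with hl1
        refine ⟨(Equiv.swap k k').trans (Equiv.swap l1 l'), ?_, ?_⟩
        · rw [Equiv.trans_apply, Equiv.swap_apply_left]
          refine Equiv.swap_apply_of_ne_of_ne (fun e => hkl ?_) (Ne.symm hlk)
          apply (Equiv.swap k k').injective
          rw [Equiv.swap_apply_left]; exact e
        · rw [Equiv.trans_apply, ← hl1, Equiv.swap_apply_left]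
      obtain ⟨r, hr⟩ := Finset.exists_mem_notMem_of_card_lt_card (s := ({k, l} : Finset ι)) (t := Finset.univ)
        (by have := Finset.card_le_two (a := k) (b := l); rw [Finset.card_univ]; omega)
      simp only [Finset.mem_univ, Finset.mem_insert, Finset.mem_singleton, not_or, true_and] at hr
      obtain ⟨s, hs1, hs2, hs3, hs4⟩ := exists_special_perm (F := F) π r
      have h1 := (hall (φ (ax l'))).conj (hM s hs1 hs2) (ψ := φ (ax l') • pr l') fun x => by
        rw [LinearMap.smul_apply, LinearMap.smul_apply]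
        show φ (ax l') • ((s : Matrix ι ι F) *ᵥ x) l' = φ (ax l') • x l
        rw [hs4 x l' (fun e => hr.2 (π.injective (by rw [hπl, ← e]))), show π.symm l' = l by
          rw [← hπl, Equiv.symm_apply_apply]]
      rwa [hs3 k (Ne.symm hr.1), hπk] at h1
  exact key Finset.univ

end CfsgLib.MonoOvergroup
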