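import Cfsg.Prelude.Def_GeometricClasses

/-!
Primitive linear groups over finite fields: abelian subgroups normalised by a primitive irreducible
group act fixed point freely, and the commutator bound for eigenspaces.
-/

set_option autoImplicit false

namespace CfsgLib.Classical

open Matrix commutatorElement

/-- In a finite solvable group, some normal subgroup of class at most two contains its centraliser. -/
theorem exists_classTwo_normal_selfCentralizing (G : Type*) [Group G] [Finite G] [Group.IsSolvable G] :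
    ∃ C : Subgroup G, C.Normal ∧ (∀ a ∈ C, ∀ b ∈ C, ⁅a, b⁆ ∈ Subgroup.centralizer (C : Set G)) ∧
      Subgroup.centralizer (C : Set G) ≤ C := by
  classical
  let S : Set (Subgroup G) :=
    {C | C.Normal ∧ ∀ a ∈ C, ∀ b ∈ C, ⁅a, b⁆ ∈ Subgroup.centralizer (C : Set G)}
  have hne : S.Nonempty := by
    refine ⟨⊥, inferInstance, fun a _ b _ => ?_⟩
    rw [Subgroup.mem_centralizer_iff]
    intro h hh
    rw [SetLike.mem_coe, Subgroup.mem_bot] at hh
    simp [hh]
  obtain ⟨C, hCmax⟩ := (Set.toFinite S).exists_maximal hne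
  obtain ⟨hCn, hC2⟩ := hCmax.prop
  refine ⟨C, hCn, hC2, ?_⟩
  by_contra hle
  set D := Subgroup.centralizer (C : Set G) with hD
  have hex : ∃ k, D ⊓ derivedSeries G k ≤ C := by
    obtain ⟨k, hk⟩ := (Group.isSolvable_def G).mp inferInstance
    exact ⟨k, by rw [hk]; simp⟩
  set k := Nat.find hex with hk
  have hk0 : k ≠ 0 := fun h => hle <| by
    have := Nat.find_spec hex
    rw [← hk, h, derivedSeries_zero, inf_top_eq] at this
    exact this
  obtain ⟨j, hj⟩ := Nat.exists_eq_succ_of_ne_zero hk0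
  have hEC : ¬ D ⊓ derivedSeries G j ≤ C := Nat.find_min hex (by omega)
  set E := D ⊓ derivedSeries G j with hE
  have : D.Normal := by rw [hD]; infer_instance
  have hEn : E.Normal := Subgroup.normal_inf_normal _ _
  have hEE : ∀ a ∈ E, ∀ b ∈ E, ⁅a, b⁆ ∈ C ⊓ D := by
    intro a ha b hb
    have h1 : ⁅a, b⁆ ∈ D := by
      rw [commutatorElement_def]
      exact D.mul_mem (D.mul_mem (D.mul_mem ha.1 hb.1) (D.inv_mem ha.1)) (D.inv_mem hb.1)
    refine ⟨?_, h1⟩
    have h2 : ⁅a, b⁆ ∈ derivedSeries G (j + 1) := by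
      rw [derivedSeries_succ]
      exact Subgroup.commutator_mem_commutator ha.2 hb.2
    have h3 := Nat.find_spec hex
    rw [← hk, hj] at h3
    exact h3 ⟨h1, h2⟩
  apply hEC
  have hmem : C ⊔ E ∈ S := by
    refine ⟨Subgroup.sup_normal _ _, fun a ha b hb => ?_⟩
    obtain ⟨c₁, hc₁, e₁, he₁, rfl⟩ := Subgroup.mem_sup_of_normal_right.mp ha
    obtain ⟨c₂, hc₂, e₂, he₂, rfl⟩ := Subgroup.mem_sup_of_normal_right.mp hb
    have comm : ∀ c ∈ C, ∀ e ∈ E, c * e = e * c := fun c hc e he =>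
      Subgroup.mem_centralizer_iff.mp he.1 c hc
    have key : ⁅c₁ * e₁, c₂ * e₂⁆ = ⁅c₁, c₂⁆ * ⁅e₁, e₂⁆ := by
      simp only [commutatorElement_def, _root_.mul_inv_rev]
      have h3 : c₁⁻¹ * e₁ = e₁ * c₁⁻¹ := comm _ (C.inv_mem hc₁) _ he₁
      have h4 := comm _ hc₁ _ he₁
      have h5 := comm _ hc₂ _ he₁
      have h6 := comm _ (C.inv_mem hc₁) _ he₂
      have h7 := comm _ (C.inv_mem hc₂) _ he₂
      have h8 := comm _ (C.inv_mem hc₂) _ (E.inv_mem he₁)
      have h9 := comm _ (C.inv_mem hc₂) _ (E.inv_mem he₂)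
      have h10 := comm _ (C.inv_mem hc₁) _ (E.inv_mem he₁)
      calc c₁ * e₁ * (c₂ * e₂) * (e₁⁻¹ * c₁⁻¹) * (e₂⁻¹ * c₂⁻¹)
          = c₁ * (e₁ * c₂) * e₂ * (e₁⁻¹ * c₁⁻¹) * (e₂⁻¹ * c₂⁻¹) := by group
        _ = c₁ * c₂ * e₁ * e₂ * (c₁⁻¹ * e₁⁻¹) * (c₂⁻¹ * e₂⁻¹) := by rw [← h5, h10, h9]; group
        _ = c₁ * c₂ * e₁ * (e₂ * c₁⁻¹) * (e₁⁻¹ * c₂⁻¹) * e₂⁻¹ := by group
        _ = c₁ * c₂ * (e₁ * c₁⁻¹) * e₂ * (c₂⁻¹ * e₁⁻¹) * e₂⁻¹ := by rw [← h6, h8]; group
        _ = c₁ * c₂ * c₁⁻¹ * e₁ * (e₂ * c₂⁻¹) * e₁⁻¹ * e₂⁻¹ := by rw [← h3]; group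
        _ = c₁ * c₂ * c₁⁻¹ * (e₁ * c₂⁻¹) * e₂ * e₁⁻¹ * e₂⁻¹ := by rw [← h7]; group
        _ = c₁ * c₂ * c₁⁻¹ * c₂⁻¹ * (e₁ * e₂ * e₁⁻¹ * e₂⁻¹) := by
            rw [← comm _ (C.inv_mem hc₂) _ he₁]; group
    rw [key, Subgroup.mem_centralizer_iff]
    intro x hx
    obtain ⟨c, hc, e, he, rfl⟩ := Subgroup.mem_sup_of_normal_right.mp hx
    have hzc : ⁅c₁, c₂⁆ ∈ C := by
      rw [commutatorElement_def]
      exact C.mul_mem (C.mul_mem (C.mul_mem hc₁ hc₂) (C.inv_mem hc₁)) (C.inv_mem hc₂)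
    have hz := hEE e₁ he₁ e₂ he₂
    have q1 : Commute ⁅c₁, c₂⁆ c := (Subgroup.mem_centralizer_iff.mp (hC2 c₁ hc₁ c₂ hc₂) c hc).symm
    have q2 : Commute ⁅c₁, c₂⁆ e := comm _ hzc e he
    have q3 : Commute ⁅e₁, e₂⁆ c := (Subgroup.mem_centralizer_iff.mp hz.2 c hc).symm
    have q4 : Commute ⁅e₁, e₂⁆ e := comm _ hz.1 e he
    exact ((q1.mul_right q2).mul_left (q3.mul_right q4)).symm.eq
  exact le_sup_right.trans (hCmax.le_of_ge hmem le_sup_left)

variable {F : Type*} [Field F] {n : ℕ}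

/-- The space of vectors fixed by a matrix. -/
noncomputable def fixSpace (g : GL (Fin n) F) : Submodule F (Fin n → F) :=
  Module.End.eigenspace (Matrix.toLin' (g : Matrix (Fin n) (Fin n) F)) 1

theorem mem_fixSpace (g : GL (Fin n) F) (v : Fin n → F) :
    v ∈ fixSpace g ↔ (g : Matrix (Fin n) (Fin n) F) *ᵥ v = v := by
  simp [fixSpace, Module.End.mem_eigenspace_iff]

theorem fix_inv {g : GL (Fin n) F} {v : Fin n → F} (h : v ∈ fixSpace g) : v ∈ fixSpace g⁻¹ := by
  rw [mem_fixSpace] at h ⊢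
  conv_lhs => rw [← h]
  rw [Matrix.mulVec_mulVec, ← Units.val_mul, inv_mul_cancel, Units.val_one, Matrix.one_mulVec]

/-- `2 · dim Fix(g) ≤ n + dim Fix([g, c])`. -/
theorem two_mul_fix_le (g c : GL (Fin n) F) :
    2 * Module.finrank F (fixSpace g) ≤ n + Module.finrank F (fixSpace ⁅g, c⁆) := by
  let e : (Fin n → F) →ₗ[F] (Fin n → F) := Matrix.toLin' (c : Matrix (Fin n) (Fin n) F)
  have hinj : Function.Injective e := by
    intro a b h
    have := congrArg (fun v => ((c⁻¹ : GL (Fin n) F) : Matrix (Fin n) (Fin n) F) *ᵥ v) h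
    simpa [e, Matrix.mulVec_mulVec, ← Units.val_mul] using this
  have hfr : Module.finrank F ((fixSpace g).map e) = Module.finrank F (fixSpace g) :=
    (Submodule.equivMapOfInjective e hinj _).finrank_eq.symm
  have hle : fixSpace g ⊓ (fixSpace g).map e ≤ fixSpace ⁅g, c⁆ := by
    rintro v ⟨hv, w, hw, rfl⟩
    have hv' := (mem_fixSpace _ _).mp hv
    have hw' := (mem_fixSpace _ _).mp (fix_inv hw)
    have he : ∀ u, e u = (c : Matrix (Fin n) (Fin n) F) *ᵥ u := fun u => Matrix.toLin'_apply _ u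
    rw [he] at hv' ⊢
    rw [mem_fixSpace, commutatorElement_def]
    simp only [Units.val_mul, ← Matrix.mulVec_mulVec]
    rw [Matrix.mulVec_mulVec _ ((c⁻¹ : GL (Fin n) F) : Matrix (Fin n) (Fin n) F), ← Units.val_mul,
      inv_mul_cancel, Units.val_one, Matrix.one_mulVec, hw', hv']
  have h1 := Submodule.finrank_sup_add_finrank_inf_eq (fixSpace g) ((fixSpace g).map e)
  have h2 := Submodule.finrank_le (fixSpace g ⊔ (fixSpace g).map e)
  have h3 := Submodule.finrank_mono hle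
  rw [Module.finrank_fin_fun] at h2
  omega

/-- An element of a finite monoid has an idempotent positive power. -/
theorem exists_idempotent_pow {M : Type*} [Monoid M] [Finite M] (a : M) :
    ∃ k, 0 < k ∧ a ^ k * a ^ k = a ^ k := by
  obtain ⟨i, j, hne, h⟩ := Finite.exists_ne_map_eq_of_infinite (fun k : ℕ => a ^ k)
  wlog hij : i < j generalizing i j
  · exact this j i hne.symm h.symm (lt_of_le_of_ne (not_lt.mp hij) hne.symm)
  set d := j - i with hd
  have step : ∀ m, i ≤ m → a ^ (m + d) = a ^ m := by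
    intro m hm
    rw [show m + d = (m - i) + j by omega, pow_add, ← h, ← pow_add, Nat.sub_add_cancel hm]
  have steps : ∀ t m, i ≤ m → a ^ (m + t * d) = a ^ m := by
    intro t
    induction t with
    | zero => simp
    | succ t ih => intro m hm; rw [Nat.succ_mul, ← add_assoc, step _ (by omega), ih m hm]
  have hdpos : 1 ≤ d := by omega
  refine ⟨(i + 1) * d, by positivity, ?_⟩
  rw [← pow_add, steps (i + 1) ((i + 1) * d) (by nlinarith)]

section Primitive

variable [Fintype F] (G : Subgroup (GL (Fin n) F))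

theorem idempotent_eq_zero_or_one (hirr : Cfsg.Geo.ActsIrreducibly (Cfsg.Geo.matrixSet G))
    (hprim : ∀ (m t : ℕ) (D : Fin t → Submodule F (Fin n → F)), 2 ≤ t →
      Cfsg.Geo.IsMDecomposition m D → ¬ G ≤ Cfsg.Geo.decompositionStabilizer D)
    (R : Subalgebra F (Matrix (Fin n) (Fin n) F)) (hcomm : ∀ x ∈ R, ∀ y ∈ R, x * y = y * x)
    (hconj : ∀ g ∈ G, ∀ x ∈ R,
      (g : Matrix (Fin n) (Fin n) F) * x * ((g⁻¹ : GL (Fin n) F) : Matrix (Fin n) (Fin n) F) ∈ R)
    (e : Matrix (Fin n) (Fin n) F) (he : e ∈ R) (hee : e * e = e) : e = 0 ∨ e = 1 := by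
  classical
  let Idem : Set (Matrix (Fin n) (Fin n) F) := {x | x ∈ R ∧ x * x = x}
  let At : Set (Matrix (Fin n) (Fin n) F) :=
    {x | x ∈ Idem ∧ x ≠ 0 ∧ ∀ f ∈ Idem, f * x = 0 ∨ f * x = x}
  let rk : Matrix (Fin n) (Fin n) F → ℕ := fun x =>
    Module.finrank F (LinearMap.range (Matrix.toLin' x))
  have hbelow : ∀ x ∈ Idem, x ≠ 0 → ∃ a ∈ At, x * a = a := by
    intro x hx hx0
    obtain ⟨a, ⟨ha, ha0, hxa⟩, hmin⟩ :=
      Set.exists_min_image {a | a ∈ Idem ∧ a ≠ 0 ∧ x * a = a} rk (Set.toFinite _)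
        ⟨x, hx, hx0, hx.2⟩
    refine ⟨a, ⟨ha, ha0, fun f hf => ?_⟩, hxa⟩
    by_cases hfa : f * a = 0
    · exact Or.inl hfa
    right
    have hfi : f * a ∈ Idem := ⟨R.mul_mem hf.1 ha.1, by
      rw [mul_assoc, ← mul_assoc a f a, hcomm a ha.1 f hf.1, mul_assoc f a a, ha.2,
        ← mul_assoc, hf.2]⟩
    have hxfa : x * (f * a) = f * a := by
      rw [← mul_assoc, hcomm x hx.1 f hf.1, mul_assoc, hxa]
    have hle := hmin (f * a) ⟨hfi, hfa, hxfa⟩
    have hsub : LinearMap.range (Matrix.toLin' (f * a)) ≤ LinearMap.range (Matrix.toLin' a) := by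
      rw [hcomm f hf.1 a ha.1, Matrix.toLin'_mul]
      exact LinearMap.range_comp_le_range _ _
    have heq := Submodule.eq_of_le_of_finrank_le hsub hle
    apply Matrix.toLin'.injective
    refine LinearMap.ext fun v => ?_
    have : Matrix.toLin' a v ∈ LinearMap.range (Matrix.toLin' (f * a)) := heq ▸ ⟨v, rfl⟩
    obtain ⟨u, hu⟩ := this
    simp only [Matrix.toLin'_apply] at hu ⊢
    calc (f * a) *ᵥ v = f *ᵥ (a *ᵥ v) := by rw [Matrix.mulVec_mulVec]
      _ = a *ᵥ v := by rw [← hu, Matrix.mulVec_mulVec, ← mul_assoc, hf.2]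
  have horth : ∀ a ∈ At, ∀ b ∈ At, a ≠ b → a * b = 0 := by
    intro a ha b hb hne
    rcases hb.2.2 a ha.1 with h | h
    · exact h
    rcases ha.2.2 b hb.1 with h' | h'
    · rwa [hcomm b hb.1.1 a ha.1.1] at h'
    · exact absurd (h'.symm.trans ((hcomm b hb.1.1 a ha.1.1).trans h)) hne
  have hatfin : At.Finite := Set.toFinite _
  set s := hatfin.toFinset with hs
  have hsum : ∑ a ∈ s, a = 1 := by
    by_contra hne
    set u := 1 - ∑ a ∈ s, a with hu
    have hsR : ∑ a ∈ s, a ∈ R := R.sum_mem fun a ha => (hatfin.mem_toFinset.mp ha).1.1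
    have huR : u ∈ R := R.sub_mem R.one_mem hsR
    have hmulat : ∀ b ∈ At, u * b = 0 := by
      intro b hb
      rw [hu, sub_mul, one_mul, Finset.sum_mul,
        Finset.sum_eq_single b (fun a ha hab => horth a (hatfin.mem_toFinset.mp ha) b hb hab)
          (fun h => absurd (hatfin.mem_toFinset.mpr hb) h), hb.1.2, sub_self]
    have huu : u * u = u := by
      nth_rw 2 [hu]
      rw [mul_sub, mul_one, Finset.mul_sum,
        Finset.sum_eq_zero (fun a ha => hmulat a (hatfin.mem_toFinset.mp ha)), sub_zero]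
    obtain ⟨a, ha, hua⟩ := hbelow u ⟨huR, huu⟩ (sub_ne_zero.mpr (Ne.symm hne))
    exact ha.2.1 (hua.symm.trans (hmulat a ha))
  -- conjugation permutes the atoms
  let cj : GL (Fin n) F → Matrix (Fin n) (Fin n) F → Matrix (Fin n) (Fin n) F := fun g x =>
    (g : Matrix (Fin n) (Fin n) F) * x * ((g⁻¹ : GL (Fin n) F) : Matrix (Fin n) (Fin n) F)
  have cjmul : ∀ g x y, cj g (x * y) = cj g x * cj g y := by
    intro g x y
    simp only [cj, mul_assoc]
    rw [← mul_assoc ((g⁻¹ : GL (Fin n) F) : Matrix (Fin n) (Fin n) F) (g : Matrix (Fin n) (Fin n) F),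
      Units.inv_mul, one_mul]
  have cjinv : ∀ g x, cj g (cj g⁻¹ x) = x := by
    intro g x
    simp only [cj, inv_inv, mul_assoc, Units.mul_inv, mul_one]
    rw [← mul_assoc, Units.mul_inv, one_mul]
  have cjinj : ∀ g, Function.Injective (cj g) := fun g x y h => by
    have := congrArg (cj g⁻¹) h
    have h' : ∀ z, cj g⁻¹ (cj g z) = z := fun z => by simpa using cjinv g⁻¹ z
    rwa [h', h'] at this
  have cjzero : ∀ g, cj g 0 = 0 := fun g => by simp [cj]
  have cjIdem : ∀ g ∈ G, ∀ x ∈ Idem, cj g x ∈ Idem := fun g hg x hx =>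
    ⟨hconj g hg x hx.1, by rw [← cjmul, hx.2]⟩
  have cjAt : ∀ g ∈ G, ∀ a ∈ At, cj g a ∈ At := by
    intro g hg a ha
    refine ⟨cjIdem g hg a ha.1, fun h => ha.2.1 (cjinj g (h.trans (cjzero g).symm)), fun f hf => ?_⟩
    rcases ha.2.2 (cj g⁻¹ f) (cjIdem g⁻¹ (G.inv_mem hg) f hf) with h | h <;>
      [left; right] <;> have := congrArg (cj g) h <;>
      rw [cjmul, cjinv] at this <;> simpa [cjzero] using this
  have cjrange : ∀ g x, LinearMap.range (Matrix.toLin' (cj g x)) =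
      (LinearMap.range (Matrix.toLin' x)).map (Matrix.toLin' (g : Matrix (Fin n) (Fin n) F)) := by
    intro g x
    have hsurj : LinearMap.range (Matrix.toLin' ((g⁻¹ : GL (Fin n) F) : Matrix (Fin n) (Fin n) F)) = ⊤ := by
      rw [LinearMap.range_eq_top]
      exact fun v => ⟨(g : Matrix (Fin n) (Fin n) F) *ᵥ v, by simp [Matrix.mulVec_mulVec]⟩
    simp only [cj, Matrix.toLin'_mul]
    rw [LinearMap.range_comp, hsurj, Submodule.map_top, LinearMap.range_comp]
  by_contra hcon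
  push Not at hcon
  obtain ⟨a₀, ha₀, hea⟩ := hbelow e ⟨he, hee⟩ hcon.1
  have hge2 : 2 ≤ s.card := by
    by_contra hlt
    have h1 : s = {a₀} := (Finset.eq_singleton_iff_unique_mem.mpr
      ⟨hatfin.mem_toFinset.mpr ha₀, fun x hx =>
        (Finset.card_le_one.mp (by omega)) x hx a₀ (hatfin.mem_toFinset.mpr ha₀)⟩)
    rw [h1, Finset.sum_singleton] at hsum
    rw [hsum, mul_one] at hea
    exact hcon.2 hea
  -- transitivity
  let W : Submodule F (Fin n → F) := ⨆ g : G, LinearMap.range (Matrix.toLin' (cj g a₀))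
  have hW : W = ⊤ := by
    refine (hirr W ?_).resolve_left ?_
    · rintro _ ⟨h, hh, rfl⟩
      rw [Submodule.map_iSup]
      refine iSup_le fun g => ?_
      rw [← cjrange]
      refine le_iSup_of_le (⟨h, hh⟩ * g) (le_of_eq ?_)
      congr 2
      simp only [cj, Subgroup.coe_mul, _root_.mul_inv_rev, Units.val_mul, mul_assoc]
    · intro hbot
      apply ha₀.2.1
      have h1 : LinearMap.range (Matrix.toLin' (cj ((1 : G) : GL (Fin n) F) a₀)) ≤ W :=
        le_iSup (fun g : G => LinearMap.range (Matrix.toLin' (cj g a₀))) 1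
      rw [hbot, le_bot_iff, LinearMap.range_eq_bot] at h1
      simpa [cj] using h1
  have htrans : ∀ b ∈ At, ∃ g : G, cj g a₀ = b := by
    intro b hb
    by_contra hno
    push Not at hno
    apply hb.2.1
    have hker : W ≤ LinearMap.ker (Matrix.toLin' b) := iSup_le fun g => by
      rintro _ ⟨v, rfl⟩
      rw [LinearMap.mem_ker, ← LinearMap.comp_apply, ← Matrix.toLin'_mul,
        horth b hb _ (cjAt g g.2 a₀ ha₀) (fun h => hno g h.symm), map_zero, LinearMap.zero_apply]
    rw [hW, top_le_iff, LinearMap.ker_eq_top] at hker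
    simpa using hker
  let idx : Fin s.card ≃ s := s.equivFin.symm
  let D : Fin s.card → Submodule F (Fin n → F) := fun i =>
    LinearMap.range (Matrix.toLin' (idx i : Matrix (Fin n) (Fin n) F))
  have hD : Cfsg.Geo.IsMDecomposition (rk a₀) D := by
    have hidx : ∀ i, (idx i : Matrix (Fin n) (Fin n) F) ∈ At := fun i =>
      hatfin.mem_toFinset.mp (idx i).2
    refine ⟨hge2, ?_, ?_, ?_, ?_⟩
    · rw [Nat.pos_iff_ne_zero]
      intro h
      rw [Submodule.finrank_eq_zero, LinearMap.range_eq_bot] at h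
      exact ha₀.2.1 (by simpa using h)
    · intro i
      obtain ⟨g, hg⟩ := htrans _ (hidx i)
      show Module.finrank F (D i) = rk a₀
      rw [show D i = (LinearMap.range (Matrix.toLin' a₀)).map
        (Matrix.toLin' ((g : GL (Fin n) F) : Matrix (Fin n) (Fin n) F)) by
          simp only [D]; rw [← hg, cjrange]]
      refine (Submodule.equivMapOfInjective _ ?_ _).finrank_eq.symm
      exact fun u v h => by
        have := congrArg (fun v => ((((g : GL (Fin n) F))⁻¹ : GL (Fin n) F) : Matrix (Fin n) (Fin n) F) *ᵥ v) h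
        simpa [Matrix.mulVec_mulVec, ← Units.val_mul] using this
    · intro i
      rw [Submodule.disjoint_def]
      intro v hv hv'
      obtain ⟨u, rfl⟩ := hv
      have hfix : Matrix.toLin' (idx i : Matrix (Fin n) (Fin n) F) (Matrix.toLin' (idx i : Matrix (Fin n) (Fin n) F) u)
          = Matrix.toLin' (idx i : Matrix (Fin n) (Fin n) F) u := by
        rw [← LinearMap.comp_apply, ← Matrix.toLin'_mul, (hidx i).1.2]
      have hker : (⨆ j, ⨆ (_ : j ≠ i), D j) ≤ LinearMap.ker (Matrix.toLin' (idx i : Matrix (Fin n) (Fin n) F)) := by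
        refine iSup₂_le fun j hj => ?_
        rintro _ ⟨w, rfl⟩
        rw [LinearMap.mem_ker, ← LinearMap.comp_apply, ← Matrix.toLin'_mul,
          horth _ (hidx i) _ (hidx j) (fun h => hj (idx.injective (Subtype.ext h)).symm), map_zero,
          LinearMap.zero_apply]
      exact hfix ▸ LinearMap.mem_ker.mp (hker hv')
    · rw [eq_top_iff]
      intro v _
      have : v = ∑ a ∈ s, Matrix.toLin' a v := by
        rw [← LinearMap.sum_apply, ← map_sum, hsum, Matrix.toLin'_one, LinearMap.id_apply]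
      rw [this]
      refine Submodule.sum_mem _ fun a ha => ?_
      refine Submodule.mem_iSup_of_mem (idx.symm ⟨a, ha⟩) ?_
      simp [D]
  apply hprim _ _ D hge2 hD
  intro g hg
  let f : s → s := fun a => ⟨cj g a, hatfin.mem_toFinset.mpr (cjAt g hg _ (hatfin.mem_toFinset.mp a.2))⟩
  have hf : Function.Bijective f := Finite.injective_iff_bijective.mp
    fun a b h => Subtype.ext (cjinj g (congrArg Subtype.val h))
  refine ⟨(idx.trans (Equiv.ofBijective f hf)).trans idx.symm, fun i => ?_⟩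
  simp only [D, Equiv.trans_apply, Equiv.apply_symm_apply, Equiv.ofBijective_apply, f]
  rw [cjrange]

/-- Non-identity elements of an abelian subgroup normalised by a primitive irreducible group are
fixed point free. -/
theorem fixSpace_eq_bot_of_abelian (hirr : Cfsg.Geo.ActsIrreducibly (Cfsg.Geo.matrixSet G))
    (hprim : ∀ (m t : ℕ) (D : Fin t → Submodule F (Fin n → F)), 2 ≤ t →
      Cfsg.Geo.IsMDecomposition m D → ¬ G ≤ Cfsg.Geo.decompositionStabilizer D)
    (A : Set (GL (Fin n) F)) (hA : ∀ a ∈ A, ∀ b ∈ A, a * b = b * a)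
    (hn : ∀ g ∈ G, ∀ a ∈ A, g * a * g⁻¹ ∈ A) (z : GL (Fin n) F) (hz : z ∈ A) (hz1 : z ≠ 1) :
    fixSpace z = ⊥ := by
  classical
  let gens : Set (Matrix (Fin n) (Fin n) F) := (fun g : GL (Fin n) F => (g : Matrix (Fin n) (Fin n) F)) '' A
  let R := Algebra.adjoin F gens
  have hcomm : ∀ x ∈ R, ∀ y ∈ R, x * y = y * x := by
    intro x hx y hy
    refine Algebra.commute_of_mem_adjoin_of_forall_mem_commute hy ?_ |>.eq
    rintro _ ⟨b, hb, rfl⟩
    refine (Algebra.commute_of_mem_adjoin_of_forall_mem_commute hx ?_).symm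
    rintro _ ⟨a, ha, rfl⟩
    show _ * _ = _ * _
    rw [← Units.val_mul, ← Units.val_mul, hA b hb a ha]
  have hconj : ∀ g ∈ G, ∀ x ∈ R,
      (g : Matrix (Fin n) (Fin n) F) * x * ((g⁻¹ : GL (Fin n) F) : Matrix (Fin n) (Fin n) F) ∈ R := by
    intro g hg x hx
    induction hx using Algebra.adjoin_induction with
    | mem x hx =>
      obtain ⟨a, ha, rfl⟩ := hx
      rw [← Units.val_mul, ← Units.val_mul]
      exact Algebra.subset_adjoin ⟨_, hn g hg a ha, rfl⟩
    | algebraMap r =>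
      rw [Algebra.algebraMap_eq_smul_one]
      simpa using R.smul_mem R.one_mem r
    | add x y _ _ hx hy => rw [mul_add, add_mul]; exact R.add_mem hx hy
    | mul x y _ _ hx hy =>
      have := R.mul_mem hx hy
      simpa [mul_assoc] using this
  have hdich : ∀ x ∈ R, IsNilpotent x ∨ IsUnit x := by
    intro x hx
    obtain ⟨k, hk, hkk⟩ := exists_idempotent_pow x
    rcases idempotent_eq_zero_or_one G hirr hprim R hcomm hconj _ (R.pow_mem hx k) hkk with h | h
    · exact Or.inl ⟨k, h⟩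
    · exact Or.inr (IsUnit.of_pow_eq_one h hk.ne')
  let N : Set (Matrix (Fin n) (Fin n) F) := {x | x ∈ R ∧ IsNilpotent x}
  have key : ∀ s : Finset (Matrix (Fin n) (Fin n) F), ↑s ⊆ N → 0 < n →
      ∃ v : Fin n → F, v ≠ 0 ∧ ∀ x ∈ s, x *ᵥ v = 0 := by
    intro s
    induction s using Finset.induction_on with
    | empty => exact fun _ hn => ⟨fun _ => 1, fun h => one_ne_zero (congrFun h ⟨0, hn⟩), by simp⟩
    | @insert a s _ ih =>
      intro hs hn
      rw [Finset.coe_insert, Set.insert_subset_iff] at hs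
      obtain ⟨v, hv, hkill⟩ := ih hs.2 hn
      obtain ⟨haR, k₀, hk₀⟩ := hs.1
      have hex : ∃ k, a ^ k *ᵥ v = 0 := ⟨k₀, by rw [hk₀, Matrix.zero_mulVec]⟩
      set k := Nat.find hex with hk
      have hk0 : k ≠ 0 := fun h => hv (by simpa [← hk, h] using Nat.find_spec hex)
      obtain ⟨j, hj⟩ := Nat.exists_eq_succ_of_ne_zero hk0
      refine ⟨a ^ j *ᵥ v, Nat.find_min hex (by omega), fun x hx => ?_⟩
      rw [Matrix.mulVec_mulVec]
      rcases Finset.mem_insert.mp hx with rfl | hxs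
      · rw [← pow_succ', ← Nat.succ_eq_add_one, ← hj]
        exact Nat.find_spec hex
      · rw [hcomm x (hs.2 hxs).1 _ (R.pow_mem haR j), ← Matrix.mulVec_mulVec, hkill x hxs,
          Matrix.mulVec_zero]
  have hnil : ∀ x ∈ N, x = 0 := by
    intro x hx
    rcases Nat.eq_zero_or_pos n with hn0 | hn0
    · subst hn0; exact Subsingleton.elim _ _
    let K : Submodule F (Fin n → F) := ⨅ y : N, LinearMap.ker (Matrix.toLin' (y : Matrix (Fin n) (Fin n) F))
    have hK : K = ⊤ := by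
      refine (hirr K ?_).resolve_left ?_
      · rintro _ ⟨h, hh, rfl⟩ _ ⟨v, hv, rfl⟩
        simp only [K, SetLike.mem_coe, Submodule.mem_iInf, LinearMap.mem_ker, Matrix.toLin'_apply] at hv ⊢
        rintro ⟨y, hyR, hyn⟩
        have hy' : ((h⁻¹ : GL (Fin n) F) : Matrix (Fin n) (Fin n) F) * y * (h : Matrix (Fin n) (Fin n) F) ∈ N := by
          refine ⟨by simpa using hconj h⁻¹ (G.inv_mem hh) y hyR, ?_⟩
          obtain ⟨k, hk⟩ := hyn
          refine ⟨k, ?_⟩
          have : ∀ k : ℕ, (((h⁻¹ : GL (Fin n) F) : Matrix (Fin n) (Fin n) F) * y * (h : Matrix (Fin n) (Fin n) F)) ^ k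
              = ((h⁻¹ : GL (Fin n) F) : Matrix (Fin n) (Fin n) F) * y ^ k * (h : Matrix (Fin n) (Fin n) F) :=
            fun k => Units.conj_pow' h y k
          rw [this, hk, mul_zero, zero_mul]
        have h0 := congrArg (fun w => (h : Matrix (Fin n) (Fin n) F) *ᵥ w) (hv ⟨_, hy'⟩)
        simpa [Matrix.mulVec_mulVec, ← mul_assoc] using h0
      · obtain ⟨v, hv, hk⟩ := key (Set.toFinite N).toFinset (Set.Finite.coe_toFinset _).subset hn0
        intro hbot
        refine hv ((Submodule.mem_bot F).mp (hbot ▸ ?_))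
        simp only [K, Submodule.mem_iInf, LinearMap.mem_ker, Matrix.toLin'_apply]
        exact fun y => hk y ((Set.toFinite N).mem_toFinset.mpr y.2)
    have : K ≤ LinearMap.ker (Matrix.toLin' x) :=
      iInf_le (fun y : N => LinearMap.ker (Matrix.toLin' (y : Matrix (Fin n) (Fin n) F))) ⟨x, hx⟩
    rw [hK, top_le_iff, LinearMap.ker_eq_top] at this
    simpa using this
  have hz' : (z : Matrix (Fin n) (Fin n) F) - 1 ∈ R :=
    R.sub_mem (Algebra.subset_adjoin ⟨z, hz, rfl⟩) R.one_mem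
  rcases hdich _ hz' with h | h
  · exact absurd (Units.ext (sub_eq_zero.mp (hnil _ ⟨hz', h⟩))) hz1
  · rw [eq_bot_iff]
    intro v hv
    rw [mem_fixSpace] at hv
    rw [Submodule.mem_bot]
    obtain ⟨u, hu⟩ := h
    have : ((u : (Matrix (Fin n) (Fin n) F)ˣ) : Matrix (Fin n) (Fin n) F) *ᵥ v = 0 := by
      rw [hu, Matrix.sub_mulVec, hv, Matrix.one_mulVec, sub_self]
    have := congrArg (fun w => ((u⁻¹ : (Matrix (Fin n) (Fin n) F)ˣ) : Matrix (Fin n) (Fin n) F) *ᵥ w) this
    simpa [Matrix.mulVec_mulVec] using this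

end Primitive

end CfsgLib.Classical
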