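import Mathlib
import Cfsg.Agent.Classical.SympFormStd
import Cfsg.Agent.Eq.Def_GeometricClasses
import Cfsg.Agent.Eq.Def_ClassicalGeometry

/-!
Centres of symplectic transvection groups contained in a subgroup.
-/

set_option autoImplicit false

namespace CfsgLib.SympCentres

open Matrix CfsgLib.TransvGL CfsgLib.AltFormTransv

variable {ι : Type} [Fintype ι] [DecidableEq ι] {F : Type*} [Field F]
variable {f : (ι → F) → (ι → F) → F}

/-- All transvections with centre `v` lie in `M`. -/
def Centre (hf : Cfsg.Geo.IsSymplecticForm f) (M : Subgroup (GL ι F)) (v : ι → F) : Prop :=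
  ∀ c, sympT hf v c ∈ M

variable {hf : Cfsg.Geo.IsSymplecticForm f} {M : Subgroup (GL ι F)}

theorem centre_zero : Centre hf M 0 := fun c => by
  have : sympT hf 0 c = 1 := ext_mulVec fun x => by simp [sympT_mulVec]
  rw [this]; exact one_mem M

theorem sympT_smul (hf : Cfsg.Geo.IsSymplecticForm f) (v : ι → F) (s c : F) :
    sympT hf (s • v) c = sympT hf v (c * s * s) :=
  ext_mulVec fun x => by
    rw [sympT_mulVec, sympT_mulVec, hf.bilinear.smul_right, smul_smul]
    congr 2; ring

theorem Centre.smul {v : ι → F} (h : Centre hf M v) (s : F) : Centre hf M (s • v) := fun c => by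
  rw [sympT_smul]; exact h _

theorem Centre.of_smul {v : ι → F} {s : F} (h : Centre hf M (s • v)) (hs : s ≠ 0) :
    Centre hf M v := by simpa [smul_smul, inv_mul_cancel₀ hs] using h.smul s⁻¹

theorem conj_sympT (g : GL ι F)
    (hg : ∀ x y, f ((g : Matrix ι ι F) *ᵥ x) ((g : Matrix ι ι F) *ᵥ y) = f x y) (v : ι → F) (c : F) :
    g * sympT hf v c * g⁻¹ = sympT hf ((g : Matrix ι ι F) *ᵥ v) c := by
  rw [mul_inv_eq_iff_eq_mul]
  refine ext_mulVec fun x => ?_
  simp only [Units.val_mul, ← mulVec_mulVec, sympT_mulVec, mulVec_add, mulVec_smul, hg]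

theorem Centre.image {v : ι → F} (h : Centre hf M v) {g : GL ι F} (hgM : g ∈ M)
    (hg : ∀ x y, f ((g : Matrix ι ι F) *ᵥ x) ((g : Matrix ι ι F) *ᵥ y) = f x y) :
    Centre hf M ((g : Matrix ι ι F) *ᵥ v) := fun c => by
  rw [← conj_sympT g hg]
  exact M.mul_mem (M.mul_mem hgM (h c)) (M.inv_mem hgM)

/-- The whole transvection group centred at `w` moves a centre along the line. -/
theorem Centre.add_smul {v w : ι → F} (hv : Centre hf M v) (hw : Centre hf M w) (h : f v w ≠ 0)
    (t : F) : Centre hf M (v + t • w) := by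
  have := hv.image (hw (t / f v w)) (sympT_preserves hf _ _)
  rwa [sympT_mulVec, div_mul_cancel₀ _ h] at this

theorem Centre.add {v w : ι → F} (hv : Centre hf M v) (hw : Centre hf M w) (h : f v w ≠ 0) :
    Centre hf M (v + w) := by
  simpa using hv.add_smul hw h 1

/-- Moving `u` to `y` inside a set of centres. -/
theorem Centre.of_move {u y : ι → F} (hu : Centre hf M u) (hd : Centre hf M (y - u))
    (h : f u y ≠ 0) : Centre hf M y := by
  have h1 : f u (y - u) ≠ 0 := by rwa [sub_right hf, hf.alternating, sub_zero]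
  simpa using hu.add hd h1

theorem sympT_mem_subspaceStabilizer (hf : Cfsg.Geo.IsSymplecticForm f) {W : Submodule F (ι → F)}
    {v : ι → F} (h : v ∈ W ∨ ∀ x ∈ W, f x v = 0) (c : F) :
    sympT hf v c ∈ Cfsg.Geo.subspaceStabilizer W := by
  refine transv_mem_subspaceStabilizer _ (h.imp_right fun h x hx => ?_)
  rw [pair_apply, hf.bilinear.smul_right, h x hx, mul_zero]

theorem sympT_not_mem_subspaceStabilizer (hf : Cfsg.Geo.IsSymplecticForm f)
    {W : Submodule F (ι → F)} {v x : ι → F} (hv : v ∉ W) (hx : x ∈ W) (h : f x v ≠ 0) :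
    sympT hf v 1 ∉ Cfsg.Geo.subspaceStabilizer W := by
  refine transv_not_mem_subspaceStabilizer _ hv hx ?_
  rwa [pair_apply, hf.bilinear.smul_right, one_mul]

/-- An element mapping `W` into itself stabilises it. -/
theorem mem_subspaceStabilizer_of_maps {W : Submodule F (ι → F)} {g : GL ι F}
    (h : ∀ x ∈ W, (g : Matrix ι ι F) *ᵥ x ∈ W) : g ∈ Cfsg.Geo.subspaceStabilizer W := by
  rw [mem_subspaceStabilizer]
  refine fun x => ⟨h x, fun hx => ?_⟩
  let L : W →ₗ[F] W :=
    ((Matrix.toLin' (g : Matrix ι ι F)).comp W.subtype).codRestrict W fun y => by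
      simpa using h y y.2
  have hinj : Function.Injective L := fun a b hab => by
    have h1 := congrArg Subtype.val hab
    simp only [L, LinearMap.codRestrict_apply, LinearMap.comp_apply, Submodule.subtype_apply,
      Matrix.toLin'_apply] at h1
    apply Subtype.ext
    rw [← inv_mulVec_mulVec g (a : ι → F), h1, inv_mulVec_mulVec]
  obtain ⟨y, hy⟩ := (LinearMap.injective_iff_surjective.1 hinj) ⟨_, hx⟩
  have h1 := congrArg Subtype.val hy
  simp only [L, LinearMap.codRestrict_apply, LinearMap.comp_apply, Submodule.subtype_apply,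
    Matrix.toLin'_apply] at h1
  rw [← inv_mulVec_mulVec g x, ← h1, inv_mulVec_mulVec]
  exact y.2

/-- Two vectors not orthogonal to `W` have a common non-orthogonal partner in `W`. -/
theorem exists_common_in (hf : Cfsg.Geo.IsSymplecticForm f) {W : Submodule F (ι → F)} {v w : ι → F}
    (hv : ∃ a ∈ W, f v a ≠ 0) (hw : ∃ a ∈ W, f w a ≠ 0) : ∃ a ∈ W, f v a ≠ 0 ∧ f w a ≠ 0 := by
  obtain ⟨a1, ha1, h1'⟩ := hv
  obtain ⟨a2, ha2, h2'⟩ := hw
  by_cases h1 : f w a1 = 0
  · by_cases h2 : f v a2 = 0
    · exact ⟨a1 + a2, W.add_mem ha1 ha2, by simpa [hf.bilinear.add_right, h2] using h1',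
        by simpa [hf.bilinear.add_right, h1] using h2'⟩
    · exact ⟨a2, ha2, h2, h2'⟩
  · exact ⟨a1, ha1, h1', h1⟩

theorem Centre.move_step {P : Submodule F (ι → F)} (hP : ∀ c ∈ P, Centre hf M c) {a a' b : ι → F}
    (ha : a ∈ P) (ha' : a' ∈ P) (hb : ∀ c ∈ P, f b c = 0) (h : Centre hf M (a + b))
    (hne : f a a' ≠ 0) : Centre hf M (a' + b) := by
  refine h.of_move ?_ ?_
  · rw [add_sub_add_right_eq_sub]; exact hP _ (P.sub_mem ha' ha)
  · rw [hf.bilinear.add_left, hf.bilinear.add_right, hf.bilinear.add_right, hf.alternating,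
      hb a' ha', orth_comm hf (hb a ha), add_zero, add_zero, add_zero]
    exact hne

/-- A component in a non-degenerate subspace of centres can be replaced by any other. -/
theorem Centre.move_in {P : Submodule F (ι → F)} (hP : ∀ c ∈ P, Centre hf M c)
    (hnd : Cfsg.Geo.IsNondegenerateOn f P) {a a' b : ι → F} (ha : a ∈ P) (ha0 : a ≠ 0)
    (ha' : a' ∈ P) (ha'0 : a' ≠ 0) (hb : ∀ c ∈ P, f b c = 0) (h : Centre hf M (a + b)) :
    Centre hf M (a' + b) := by
  obtain ⟨z, hz, hz1, hz2⟩ := exists_common_in hf (hnd a ha ha0).2 (hnd a' ha' ha'0).2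
  exact (h.move_step hP ha hz hb hz1).move_step hP hz ha' hb fun e => hz2 (orth_comm hf e)

end CfsgLib.SympCentres
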