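import Mathlib
import Cfsg.Agent.Classical.UnitMono.Basic

/-!
Vectors in one member of an orthogonal decomposition with prescribed norm and inner product.
-/

set_option autoImplicit false

namespace CfsgLib.UnitBlock

open Matrix CfsgLib.TransvGL CfsgLib.UnitCentres CfsgLib.CircleSums CfsgLib.UnitMono

variable {κ : Type} [Fintype κ] [DecidableEq κ] {F : Type*} [Field F] [Fintype F]
variable {q : ℕ} {σ : F ≃+* F} (hS : Std q σ)
include hS

theorem orth_aniso (hk : 2 ≤ Fintype.card κ) {y : κ → F} (hy : sf σ y y ≠ 0) :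
    ∃ w, sf σ w y = 0 ∧ sf σ w w ≠ 0 := by
  classical
  have hf := hS.isUnitary (ι := κ)
  by_contra hno
  push Not at hno
  obtain ⟨b, hb⟩ : ∃ b, b ∉ Submodule.span F {y} := by
    by_contra h
    push Not at h
    have h1 := Submodule.finrank_mono (show (⊤ : Submodule F (κ → F)) ≤ Submodule.span F {y} from
      fun x _ => h x)
    rw [finrank_top, Module.finrank_fintype_fun_eq_card] at h1
    have h2 := finrank_span_le_card (R := F) ({y} : Set (κ → F))
    simp at h2
    omega
  set w := b - (sf σ b y / sf σ y y) • y with hw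
  have hwy : sf σ w y = 0 := by
    rw [hw, UnitCentres.sub_left hf, hf.smul_left, div_mul_cancel₀ _ hy, sub_self]
  have hw0 : w ≠ 0 := fun e => hb (by
    rw [sub_eq_zero.1 e]; exact Submodule.smul_mem _ _ (Submodule.mem_span_singleton_self y))
  obtain ⟨⟨x, hx⟩, -⟩ := hf.nondegenerate w hw0
  refine hx ?_
  set x' := x - (sf σ x y / sf σ y y) • y
  have hx'y : sf σ x' y = 0 := by
    rw [UnitCentres.sub_left hf, hf.smul_left, div_mul_cancel₀ _ hy, sub_self]
  have h1 : sf σ x' w = 0 := orth_of_isotropic hf (P := LinearMap.ker (upair hf y))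
    (fun z hz => hno z (LinearMap.mem_ker.1 hz)) (LinearMap.mem_ker.2 hx'y) (LinearMap.mem_ker.2 hwy)
  rw [UnitCentres.sub_left hf, hf.smul_left, orth_comm hf hwy, mul_zero, sub_zero] at h1
  exact h1

theorem exists_isotropic_hit (hk : 2 ≤ Fintype.card κ) {a : κ → F} (ha : a ≠ 0) :
    ∃ e, sf σ e e = 0 ∧ sf σ a e ≠ 0 := by
  have hf := hS.isUnitary (ι := κ)
  by_cases hN : sf σ a a = 0
  · obtain ⟨-, d, hd⟩ := hf.nondegenerate a ha
    obtain ⟨t, ht⟩ := exists_isotropic_shift hf hN (d := d) hd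
    exact ⟨d + t • a, ht, by rw [UnitCentres.add_right hf, smul_right hf, hN, mul_zero, add_zero]; exact hd⟩
  · obtain ⟨w, hw, hww⟩ := orth_aniso hS hk hN
    obtain ⟨l, hl⟩ := exists_norm hS.card hS.frob (r := -(sf σ a a) / sf σ w w)
      (by rw [map_div₀, map_neg, norm_fixed (f := sf σ) hf, norm_fixed (f := sf σ) hf])
    refine ⟨a + l • w, ?_, ?_⟩
    · rw [norm_add_smul hf, hw, orth_comm hf hw, mul_zero, mul_zero, add_zero, add_zero, hl,
        div_mul_cancel₀ _ hww, add_neg_cancel]
    · rw [UnitCentres.add_right hf, smul_right hf, orth_comm hf hw, mul_zero, add_zero]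
      exact hN

theorem span_isotropic (hk : 2 ≤ Fintype.card κ) :
    Submodule.span F {e : κ → F | sf σ e e = 0} = ⊤ := by
  have hf := hS.isUnitary (ι := κ)
  by_contra hne
  obtain ⟨x, -, hx⟩ := SetLike.exists_of_lt (lt_top_iff_ne_top.2 hne)
  obtain ⟨d, hd, hxd⟩ := exists_orth_sep hf hx
  have hd0 : d ≠ 0 := fun e => hxd (by rw [e]; exact UnitCentres.zero_right hf x)
  obtain ⟨e, he, hde⟩ := exists_isotropic_hit hS hk hd0
  exact hde (orth_comm hf (hd e (Submodule.subset_span he)))

theorem unit_orth (hk : 3 ≤ Fintype.card κ) (y : κ → F) :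
    ∃ u, sf σ u y = 0 ∧ sf σ u u = 1 := by
  obtain ⟨u, hu, hu1⟩ := exists_unit_orth (hS.isUnitary (ι := κ)) {y} (by simp; omega)
  exact ⟨u, hu y (by simp), hu1⟩

/-- A vector of given norm and given product with `y`. -/
theorem exists_vec (hk : 2 ≤ Fintype.card κ) {y : κ → F} (hy : y ≠ 0) {r α : F} (hr : σ r = r)
    (h : α ≠ 0 ∨ sf σ y y ≠ 0 ∨ 3 ≤ Fintype.card κ) : ∃ u, sf σ u y = α ∧ sf σ u u = r := by
  have hf := hS.isUnitary (ι := κ)
  by_cases hN : sf σ y y = 0
  · by_cases hα : α = 0
    · obtain ⟨w, hw, hww⟩ := unit_orth hS (h.resolve_left (not_not.2 hα) |>.resolve_left (not_not.2 hN)) y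
      obtain ⟨l, hl⟩ := exists_norm hS.card hS.frob hr
      exact ⟨l • w, by rw [hf.smul_left, hw, mul_zero, hα],
        by rw [hf.smul_left, smul_right hf, hww, mul_one, hl]⟩
    · obtain ⟨e, he, hye⟩ := exists_isotropic_hit hS hk hy
      obtain ⟨x, hx⟩ := exists_trace hf hr
      set c := α / sf σ e y with hc
      have hey : sf σ e y ≠ 0 := fun h => hye (orth_comm hf h)
      have hσc : σ c * sf σ y e = σ α := by
        rw [hc, map_div₀, ← hf.herm y e, div_mul_cancel₀ _ hye]
      have hσα : σ α ≠ 0 := by simpa using hα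
      refine ⟨c • e + (x / σ α) • y, ?_, ?_⟩
      · rw [hf.add_left, hf.smul_left, hf.smul_left, hN, mul_zero, add_zero, div_mul_cancel₀ _ hey]
      · rw [hf.add_left, UnitCentres.add_right hf, UnitCentres.add_right hf, hf.smul_left, hf.smul_left,
          hf.smul_left, hf.smul_left, smul_right hf, smul_right hf, smul_right hf, smul_right hf, he, hN,
          show σ (x / σ α) = σ x / α by rw [map_div₀, hf.involutive]]
        have h1 : c * (σ x / α * sf σ e y) = σ x := by rw [hc]; field_simp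
        have h2 : x / σ α * (σ c * sf σ y e) = x := by rw [hσc, div_mul_cancel₀ _ hσα]
        linear_combination hx + h1 + h2
  · obtain ⟨w, hw, hww⟩ := orth_aniso hS hk hN
    set s := α / sf σ y y with hs
    obtain ⟨l, hl⟩ := exists_norm hS.card hS.frob (r := (r - s * σ s * sf σ y y) / sf σ w w) (by
      rw [map_div₀, map_sub, map_mul, CircleSums.norm_fixed hS.card hS.frob, hr,
        norm_fixed (f := sf σ) hf, norm_fixed (f := sf σ) hf])
    refine ⟨s • y + l • w, ?_, ?_⟩
    · rw [hf.add_left, hf.smul_left, hf.smul_left, hw, mul_zero, add_zero, hs, div_mul_cancel₀ _ hN]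
    · rw [hf.add_left, UnitCentres.add_right hf, UnitCentres.add_right hf, hf.smul_left, hf.smul_left,
        hf.smul_left, hf.smul_left, smul_right hf, smul_right hf, smul_right hf, smul_right hf, hw,
        orth_comm hf hw]
      have h3 : l * σ l * sf σ w w = r - s * σ s * sf σ y y := by rw [hl, div_mul_cancel₀ _ hww]
      linear_combination h3

/-- A vector with the data of `-y` but different from it. -/
theorem exists_vec_ne (hk : 3 ≤ Fintype.card κ) {y : κ → F} (hy : sf σ y y ≠ 0) :
    ∃ u, sf σ u y = -sf σ y y ∧ sf σ u u = sf σ y y ∧ y + u ≠ 0 := by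
  classical
  have hf := hS.isUnitary (ι := κ)
  obtain ⟨w, hw, hww⟩ := unit_orth hS hk y
  obtain ⟨d, hd⟩ : ∃ d, d ∉ Submodule.span F {y, w} := by
    by_contra h
    push Not at h
    have h1 := Submodule.finrank_mono (show (⊤ : Submodule F (κ → F)) ≤ Submodule.span F {y, w} from
      fun x _ => h x)
    rw [finrank_top, Module.finrank_fintype_fun_eq_card] at h1
    have h4 : Module.finrank F (Submodule.span F ({y, w} : Set (κ → F))) ≤ 2 := by
      rw [show ({y, w} : Set (κ → F)) = ↑({y, w} : Finset (κ → F)) by simp]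
      exact (finrank_span_finset_le_card _).trans Finset.card_le_two
    omega
  set d' := d - (sf σ d y / sf σ y y) • y - sf σ d w • w with hd'
  have hd'0 : d' ≠ 0 := fun e => hd (by
    rw [show d = (sf σ d y / sf σ y y) • y + sf σ d w • w by rw [← sub_eq_zero, ← e, hd']; abel]
    exact Submodule.add_mem _ (Submodule.smul_mem _ _ (Submodule.subset_span (Or.inl rfl)))
      (Submodule.smul_mem _ _ (Submodule.subset_span (Or.inr rfl))))
  have hd'y : sf σ d' y = 0 := by
    rw [hd', UnitCentres.sub_left hf, UnitCentres.sub_left hf, hf.smul_left, hf.smul_left, hw,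
      div_mul_cancel₀ _ hy]
    ring
  have hd'w : sf σ d' w = 0 := by
    rw [hd', UnitCentres.sub_left hf, UnitCentres.sub_left hf, hf.smul_left, hf.smul_left, hww,
      orth_comm hf hw]
    ring
  obtain ⟨l, hl⟩ := exists_norm hS.card hS.frob (r := -sf σ d' d')
    (by rw [map_neg, norm_fixed (f := sf σ) hf])
  set z := d' + l • w with hz
  have hz0 : z ≠ 0 := fun e => by
    have h1 : sf σ z w = l := by rw [hz, hf.add_left, hd'w, hf.smul_left, hww, zero_add, mul_one]
    rw [e, UnitCentres.zero_left hf] at h1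
    rw [hz, ← h1, zero_smul, add_zero] at e
    exact hd'0 e
  have hzy : sf σ z y = 0 := by rw [hz, hf.add_left, hd'y, hf.smul_left, hw, mul_zero, add_zero]
  have hzz : sf σ z z = 0 := by
    rw [hz, norm_add_smul hf, hd'w, orth_comm hf hd'w, hww]
    linear_combination hl
  refine ⟨z - y, by rw [UnitCentres.sub_left hf, hzy, zero_sub], ?_, by simpa using hz0⟩
  rw [UnitCentres.sub_left hf, UnitCentres.sub_right hf, UnitCentres.sub_right hf, hzz, hzy,
    orth_comm hf hzy]
  ring

/-- Moving a vector to one of equal norm by an isometry. -/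
theorem exists_move {y y' : κ → F} (hy : y ≠ 0) (hy' : y' ≠ 0) (hN : sf σ y' y' = sf σ y y) :
    ∃ g : GL κ F, Iso (sf σ) g ∧ (g : Matrix κ κ F) *ᵥ y = y' ∧
      (3 ≤ Fintype.card κ → g ∈ Cfsg.Geo.specialLinear κ F) := by
  classical
  have hf := hS.isUnitary (ι := κ)
  obtain ⟨i, hi⟩ := Function.ne_iff.1 hy
  set ψ : Module.Dual F (κ → F) := (y i)⁻¹ • LinearMap.proj i with hψ
  have hψy : ψ y = 1 := by simpa [hψ] using inv_mul_cancel₀ hi
  set X := Submodule.span F {y}
  set φ : X →ₗ[F] (κ → F) := (ψ.smulRight y').comp X.subtype with hφ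
  have hX : ∀ x : X, (x : κ → F) = ψ x • y := fun x => by
    obtain ⟨c, hc⟩ := Submodule.mem_span_singleton.1 x.2
    rw [← hc, map_smul, hψy, smul_eq_mul, mul_one]
  have hφx : ∀ x : X, φ x = ψ x • y' := fun x => rfl
  have hinj : Function.Injective φ := fun x x' h => by
    rw [hφx, hφx] at h
    exact Subtype.ext (by rw [hX x, hX x', smul_left_injective F hy' h])
  have hB : ∀ x x' : X, sf σ (φ x) (φ x') = sf σ (x : κ → F) (x' : κ → F) := fun x x' => by
    conv_rhs => rw [hX x, hX x']
    rw [hφx, hφx, hf.smul_left, hf.smul_left, smul_right hf, smul_right hf, hN]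
  have hy_mem : y ∈ X := Submodule.mem_span_singleton_self y
  by_cases hk : 3 ≤ Fintype.card κ
  · obtain ⟨u, hu, hu1⟩ := unit_orth hS hk y'
    obtain ⟨g, hg, hgs, hgx⟩ := exists_iso_special hf X φ hinj hB hu1 fun x => by
      rw [hφx, hf.smul_left, orth_comm hf hu, mul_zero]
    exact ⟨g, hg, by rw [hgx ⟨y, hy_mem⟩, hφx, hψy, one_smul], fun _ => hgs⟩
  · obtain ⟨g, hg, hgx⟩ := CfsgLib.LinAlg.Witt.witt_unitaryFun hf X φ hinj hB
    exact ⟨g, hg, by rw [hgx ⟨y, hy_mem⟩, hφx, hψy, one_smul], fun h => absurd h hk⟩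

end CfsgLib.UnitBlock
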