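import Mathlib
import Cfsg.Agent.Classical.UnitBlockVec

/-!
Overgroups in the special unitary group of the stabiliser of an orthogonal decomposition into
members of dimension at least two: all isotropic vectors become centres.
-/

set_option autoImplicit false

namespace CfsgLib.UnitBlock

open Matrix CfsgLib.TransvGL CfsgLib.UnitCentres CfsgLib.CircleSums CfsgLib.UnitMono CfsgLib.MonoBasics
  CfsgLib.PseudoRefl

variable {κ τ : Type} [Fintype κ] [DecidableEq κ] [Fintype τ] [DecidableEq τ]
variable {F : Type*} [Field F] [Fintype F] {q : ℕ} {σ : F ≃+* F}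

/-- The component of a vector in one member. -/
def blk (x : κ × τ → F) (i : τ) : κ → F := fun j => x (j, i)

/-- A vector supported in one member. -/
def emb (i : τ) (y : κ → F) : κ × τ → F := fun p => if p.2 = i then y p.1 else 0

/-- `g` permutes the members. -/
def StabBlocks (g : GL (κ × τ) F) : Prop :=
  ∃ π : Equiv.Perm τ, ∀ i y, ∃ y', (g : Matrix (κ × τ) (κ × τ) F) *ᵥ emb i y = emb (π i) y'

omit [Fintype κ] [DecidableEq κ] [Fintype τ] [Fintype F] in
theorem blk_emb (i l : τ) (y : κ → F) : blk (emb i y) l = if l = i then y else 0 := by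
  funext j
  by_cases h : l = i <;> simp [blk, emb, h]

omit [Fintype κ] [DecidableEq κ] [Fintype τ] [Fintype F] in
theorem emb_eq_of_blk {x : κ × τ → F} {i : τ} (h : ∀ l, l ≠ i → blk x l = 0) :
    x = emb i (blk x i) := by
  funext ⟨j, l⟩
  by_cases hl : l = i
  · subst hl; simp [emb, blk]
  · simp only [emb, if_neg hl]; exact congrFun (h l hl) j

omit [Fintype F] in
theorem sf_blk (x y : κ × τ → F) : sf σ x y = ∑ i, sf σ (blk x i) (blk y i) := by
  simp only [sf, blk]
  rw [Fintype.sum_prod_type, Finset.sum_comm]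

omit [Fintype F] in
theorem sf_emb_left (i : τ) (y : κ → F) (x : κ × τ → F) :
    sf σ (emb i y) x = sf σ y (blk x i) := by
  rw [sf_blk, Finset.sum_eq_single i (fun l _ hl => by simp [blk_emb, hl, sf]) (by simp), blk_emb,
    if_pos rfl]

omit [Fintype F] in
theorem sf_emb_right (i : τ) (y : κ → F) (x : κ × τ → F) :
    sf σ x (emb i y) = sf σ (blk x i) y := by
  rw [sf_blk, Finset.sum_eq_single i (fun l _ hl => by simp [blk_emb, hl, sf]) (by simp), blk_emb,
    if_pos rfl]

omit [Fintype F] in
theorem sf_emb_emb (i : τ) (y z : κ → F) : sf σ (emb i y) (emb i z) = sf σ y z := by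
  rw [sf_emb_left, blk_emb, if_pos rfl]

/-- The block diagonal matrix. -/
def blockGL (G : τ → GL κ F) : GL (κ × τ) F where
  val := Matrix.blockDiagonal fun i => (G i : Matrix κ κ F)
  inv := Matrix.blockDiagonal fun i => ((G i)⁻¹ : GL κ F)
  val_inv := by
    rw [← Matrix.blockDiagonal_mul, show (fun i => (G i : Matrix κ κ F) * ((G i)⁻¹ : GL κ F)) = 1 from
      funext fun i => Units.mul_inv (G i), Matrix.blockDiagonal_one]
  inv_val := by
    rw [← Matrix.blockDiagonal_mul, show (fun i => (((G i)⁻¹ : GL κ F) : Matrix κ κ F) * G i) = 1 from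
      funext fun i => Units.inv_mul (G i), Matrix.blockDiagonal_one]

omit [Fintype F] in
theorem blk_blockGL (G : τ → GL κ F) (x : κ × τ → F) (i : τ) :
    blk ((blockGL G : Matrix (κ × τ) (κ × τ) F) *ᵥ x) i = (G i : Matrix κ κ F) *ᵥ blk x i := by
  funext j
  show (Matrix.blockDiagonal (fun i => (G i : Matrix κ κ F)) *ᵥ x) (j, i) = _
  simp [blk, Matrix.mulVec, dotProduct, Matrix.blockDiagonal_apply, Fintype.sum_prod_type, ite_mul]

omit [Fintype F] in
theorem iso_blockGL (G : τ → GL κ F) (hG : ∀ i, Iso (sf σ) (G i)) : Iso (sf σ) (blockGL G) :=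
  fun x y => by
    rw [sf_blk, sf_blk x y]
    exact Finset.sum_congr rfl fun i _ => by rw [blk_blockGL, blk_blockGL, hG i]

omit [Fintype F] in
theorem stab_blockGL (G : τ → GL κ F) : StabBlocks (blockGL G) := by
  refine ⟨1, fun i y => ⟨(G i : Matrix κ κ F) *ᵥ y, ?_⟩⟩
  have h : ∀ l, l ≠ i → blk ((blockGL G : Matrix (κ × τ) (κ × τ) F) *ᵥ emb i y) l = 0 := fun l hl => by
    rw [blk_blockGL, blk_emb, if_neg hl, mulVec_zero]
  rw [emb_eq_of_blk h, blk_blockGL, blk_emb, if_pos rfl]
  rfl

omit [Fintype F] in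
theorem det_blockGL (G : τ → GL κ F) :
    (blockGL G : Matrix (κ × τ) (κ × τ) F).det = ∏ i, (G i : Matrix κ κ F).det := by
  show (Matrix.blockDiagonal fun i => (G i : Matrix κ κ F)).det = _
  exact Matrix.det_blockDiagonal _

/-- Overgroups of the stabiliser inside the special unitary group. -/
structure BOver (q : ℕ) (σ : F ≃+* F) (M : Subgroup (GL (κ × τ) F)) : Prop where
  std : Std q σ
  stab_mem : ∀ g : GL (κ × τ) F, Iso (sf σ) g → g ∈ Cfsg.Geo.specialLinear (κ × τ) F → StabBlocks g → g ∈ M
  iso : ∀ g ∈ M, Iso (sf σ) g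
  two_le : 2 ≤ Fintype.card κ
  small : Fintype.card κ = 2 → 3 ≤ Fintype.card τ ∧ 3 ≤ q

variable {M : Subgroup (GL (κ × τ) F)} (hO : BOver q σ M)
include hO

theorem root {v : κ × τ → F} {i : τ} (hi : ∀ l, l ≠ i → blk v l = 0) (hv : sf σ v v = 0) :
    Centre hO.std.isUnitary M v := by
  have hf := hO.std.isUnitary (ι := κ × τ)
  refine ⟨hv, fun c hc => hO.stab_mem _ (uT_iso hf hv hc) (uT_mem_specialLinear hf hv c)
    ⟨1, fun l y => ⟨y + (c * sf σ (emb l y) v) • blk v l, ?_⟩⟩⟩
  rw [uT_mulVec, Equiv.Perm.one_apply]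
  funext ⟨j, p⟩
  by_cases hp : p = l
  · subst hp; simp [emb, blk]
  · simp only [Pi.add_apply, Pi.smul_apply, smul_eq_mul, emb, if_neg hp, zero_add, mul_eq_zero]
    by_cases hpi : p = i
    · left; right
      show sf σ (emb l y) v = 0
      rw [sf_emb_left, hi l (fun e => hp (by rw [hpi, e]))]
      exact UnitCentres.zero_right (hO.std.isUnitary (ι := κ)) y
    · right; exact congrFun (hi p hpi) j

theorem root_emb (i : τ) {e : κ → F} (he : sf σ e e = 0) : Centre hO.std.isUnitary M (emb i e) :=
  root hO (i := i) (fun l hl => by rw [blk_emb, if_neg hl]) (by rw [sf_emb_emb, he])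

/-- Replacing the components of a centre in two members by vectors of equal norm. -/
theorem pair_move {v v' : κ × τ → F} (hv : Centre hO.std.isUnitary M v) {i l : τ} (hil : i ≠ l)
    (hout : ∀ p, p ≠ i → p ≠ l → blk v' p = blk v p)
    (hfree : Fintype.card κ = 2 → ∀ p, p ≠ i → p ≠ l → blk v p = 0)
    (hi : blk v i ≠ 0) (hl : blk v l ≠ 0) (hi' : blk v' i ≠ 0) (hl' : blk v' l ≠ 0)
    (hni : sf σ (blk v' i) (blk v' i) = sf σ (blk v i) (blk v i))
    (hnl : sf σ (blk v' l) (blk v' l) = sf σ (blk v l) (blk v l)) :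
    Centre hO.std.isUnitary M v' := by
  classical
  obtain ⟨g, hg, hgv, hgs⟩ := exists_move hO.std hi hi' hni
  obtain ⟨h, hh, hhv, hhs⟩ := exists_move hO.std hl hl' hnl
  obtain ⟨G, hGiso, hGdet, hGv⟩ : ∃ G : τ → GL κ F, (∀ p, Iso (sf σ) (G p)) ∧
      ∏ p, (G p : Matrix κ κ F).det = 1 ∧ ∀ p, (G p : Matrix κ κ F) *ᵥ blk v p = blk v' p := by
    by_cases hk : 3 ≤ Fintype.card κ
    · refine ⟨fun p => if p = i then g else if p = l then h else 1, fun p => ?_, ?_, fun p => ?_⟩
      · show Iso (sf σ) (if p = i then g else if p = l then h else 1)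
        split_ifs
        exacts [hg, hh, fun x y => by simp]
      · refine Finset.prod_eq_one fun p _ => ?_
        beta_reduce
        split_ifs
        exacts [PseudoRefl.mem_specialLinear_iff.1 (hgs hk), PseudoRefl.mem_specialLinear_iff.1 (hhs hk),
          by simp]
      · beta_reduce
        split_ifs with h1 h2
        · rw [h1, hgv]
        · rw [h2, hhv]
        · rw [Units.val_one, Matrix.one_mulVec, hout p h1 h2]
    · have hk2 : Fintype.card κ = 2 := by have := hO.two_le; omega
      obtain ⟨r, -, hr⟩ := Finset.exists_mem_notMem_of_card_lt_card (s := ({i, l} : Finset τ))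
        (t := (Finset.univ : Finset τ))
        (by have := (hO.small hk2).1; have := Finset.card_le_two (a := i) (b := l); rw [Finset.card_univ]; omega)
      simp only [Finset.mem_insert, Finset.mem_singleton, not_or] at hr
      obtain ⟨j⟩ : Nonempty κ := Fintype.card_pos_iff.1 (by omega)
      have hd : Cir σ ((g : Matrix κ κ F).det * (h : Matrix κ κ F).det) :=
        Cir.mul (det_norm hO.std.isUnitary hg) (det_norm hO.std.isUnitary hh)
      set d : Fˣ := (Units.mk0 _ hd.ne_zero)⁻¹ with hd'
      set R := uRefl hO.std (sf_ax_self (σ := σ) j) d with hR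
      have hRiso : Iso (sf σ) R := uRefl_iso _ _ (by rw [hd', Units.val_inv_eq_inv_val]; exact hd.inv)
      refine ⟨fun p => if p = i then g else if p = l then h else if p = r then R else 1, fun p => ?_, ?_,
        fun p => ?_⟩
      · show Iso (sf σ) (if p = i then g else if p = l then h else if p = r then R else 1)
        split_ifs
        exacts [hg, hh, hRiso, fun x y => by simp]
      · rw [← Finset.prod_subset (Finset.subset_univ {i, l, r}) fun p _ hp => by
          simp only [Finset.mem_insert, Finset.mem_singleton, not_or] at hp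
          simp [hp.1, hp.2.1, hp.2.2]]
        rw [Finset.prod_insert (by simp [hil, Ne.symm hr.1]), Finset.prod_insert (by simp [Ne.symm hr.2]),
          Finset.prod_singleton]
        simp only [if_true, if_neg (Ne.symm hil), if_neg hr.1, if_neg hr.2]
        rw [hR, det_uRefl, hd', Units.val_inv_eq_inv_val, Units.val_mk0, ← mul_assoc,
          mul_inv_cancel₀ hd.ne_zero]
      · beta_reduce
        split_ifs with h1 h2 h3
        · rw [h1, hgv]
        · rw [h2, hhv]
        · rw [hout p h1 h2, hfree hk2 p h1 h2, mulVec_zero]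
        · rw [Units.val_one, Matrix.one_mulVec, hout p h1 h2]
  have hM : blockGL G ∈ M := hO.stab_mem _ (iso_blockGL G hGiso)
    (by rw [PseudoRefl.mem_specialLinear_iff, det_blockGL, hGdet]) (stab_blockGL G)
  convert hv.image hM (iso_blockGL G hGiso) using 1
  funext ⟨j, p⟩
  exact (congrFun ((hGv p).symm.trans (blk_blockGL G v p).symm) j)

omit [Fintype F] hO in
theorem blk_add (x y : κ × τ → F) (p : τ) : blk (x + y) p = blk x p + blk y p := rfl

omit [Fintype F] hO in
theorem blk_sub (x y : κ × τ → F) (p : τ) : blk (x - y) p = blk x p - blk y p := rfl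

omit [Fintype F] hO in
theorem blk_smul (c : F) (x : κ × τ → F) (p : τ) : blk (c • x) p = c • blk x p := rfl

omit hO in
theorem sf_two (hS : Std q σ) {i l : τ} (hil : i ≠ l) {x y : κ × τ → F}
    (hx : ∀ p, p ≠ i → p ≠ l → blk x p = 0) :
    sf σ x y = sf σ (blk x i) (blk y i) + sf σ (blk x l) (blk y l) := by
  rw [sf_blk, Fintype.sum_eq_add i l hil fun p hp => by
    rw [hx p hp.1 hp.2]; exact UnitCentres.zero_left (hS.isUnitary (ι := κ)) _]

/-- A centre supported on two members gives all isotropic vectors supported there. -/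
theorem pair_any {z y : κ × τ → F} (hz : Centre hO.std.isUnitary M z) {i l : τ} (hil : i ≠ l)
    (hzo : ∀ p, p ≠ i → p ≠ l → blk z p = 0) (hyo : ∀ p, p ≠ i → p ≠ l → blk y p = 0)
    (hzi : blk z i ≠ 0) (hzl : blk z l ≠ 0) (hyi : blk y i ≠ 0) (hyl : blk y l ≠ 0)
    (hy : sf σ y y = 0) : Centre hO.std.isUnitary M y := by
  classical
  have hf := hO.std.isUnitary (ι := κ × τ)
  have hfk := hO.std.isUnitary (ι := κ)
  set a := blk z i with ha
  set b := blk z l with hb
  have hab : sf σ a a + sf σ b b = 0 := by rw [← sf_two hO.std hil hzo]; exact hz.iso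
  have hyab : sf σ (blk y i) (blk y i) + sf σ (blk y l) (blk y l) = 0 := by
    rw [← sf_two hO.std hil hyo]; exact hy
  -- combine with a rotated copy
  have combine : ∀ a' b' : κ → F, a' ≠ 0 → b' ≠ 0 → sf σ a' a' = sf σ a a → sf σ b' b' = sf σ b b →
      sf σ a' a + sf σ b' b ≠ 0 →
      sf σ a' a + sf σ b' b + σ (sf σ a' a + sf σ b' b) = 0 →
      a + a' ≠ 0 → b + b' ≠ 0 →
      sf σ (a + a') (a + a') = sf σ (blk y i) (blk y i) → Centre hO.std.isUnitary M y := by
    intro a' b' ha0 hb0 hna hnb hne htr hsa hsb hnorm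
    set z' := emb i a' + emb l b' with hz'
    have hz'i : blk z' i = a' := by rw [hz', blk_add, blk_emb, blk_emb, if_pos rfl, if_neg hil, add_zero]
    have hz'l : blk z' l = b' := by
      rw [hz', blk_add, blk_emb, blk_emb, if_neg (Ne.symm hil), if_pos rfl, zero_add]
    have hz'o : ∀ p, p ≠ i → p ≠ l → blk z' p = 0 := fun p h1 h2 => by
      rw [hz', blk_add, blk_emb, blk_emb, if_neg h1, if_neg h2, add_zero]
    have hC' : Centre hO.std.isUnitary M z' := pair_move hO hz hil
      (fun p h1 h2 => by rw [hz'o p h1 h2, hzo p h1 h2]) (fun _ => hzo) hzi hzl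
      (by rw [hz'i]; exact ha0) (by rw [hz'l]; exact hb0) (by rw [hz'i]; exact hna) (by rw [hz'l]; exact hnb)
    have hfz : sf σ z' z = sf σ a' a + sf σ b' b := by rw [sf_two hO.std hil hz'o, hz'i, hz'l]
    have hw := hC'.line hz (by rw [hfz]; exact hne) (a := 1) (b := 1) (by
      rw [one_smul, one_smul, hf.add_left, UnitCentres.add_right hf z' z' z, UnitCentres.add_right hf z z' z, hC'.iso,
        hz.iso, hf.herm z z', hfz]
      linear_combination htr)
    rw [one_smul, one_smul] at hw
    have hwi : blk (z' + z) i = a + a' := by rw [blk_add, hz'i, add_comm]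
    have hwl : blk (z' + z) l = b + b' := by rw [blk_add, hz'l, add_comm]
    refine pair_move hO hw hil (fun p h1 h2 => by rw [hyo p h1 h2, blk_add, hz'o p h1 h2, hzo p h1 h2, add_zero])
      (fun _ p h1 h2 => by rw [blk_add, hz'o p h1 h2, hzo p h1 h2, add_zero])
      (by rw [hwi]; exact hsa) (by rw [hwl]; exact hsb) hyi hyl (by rw [hwi, hnorm]) ?_
    rw [hwl]
    have hsum : sf σ (a + a') (a + a') + sf σ (b + b') (b + b') = 0 := by
      rw [← hwi, ← hwl, ← sf_two hO.std hil (fun p h1 h2 => by rw [blk_add, hz'o p h1 h2, hzo p h1 h2, add_zero])]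
      exact hw.iso
    linear_combination hyab - hsum + hnorm
  have hnorm_add : ∀ (u w : κ → F), sf σ u u = sf σ w w →
      sf σ (w + u) (w + u) = 2 * sf σ w w + (sf σ u w + σ (sf σ u w)) := fun u w huw => by
    rw [hfk.add_left, UnitCentres.add_right hfk, UnitCentres.add_right hfk, hfk.herm w u, huw]
    ring
  obtain ⟨c, hc0, hc⟩ := exists_traceZero hf
  set r := sf σ (blk y i) (blk y i) with hr
  have hrf : σ r = r := norm_fixed (f := sf σ) hfk _
  have hNa : σ (sf σ a a) = sf σ a a := norm_fixed (f := sf σ) hfk _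
  have hNb : sf σ b b = -sf σ a a := by linear_combination hab
  by_cases hr0 : r = 0
  · by_cases hNa0 : sf σ a a = 0
    · refine pair_move hO hz hil (fun p h1 h2 => by rw [hyo p h1 h2, hzo p h1 h2]) (fun _ => hzo) hzi hzl
        hyi hyl ?_ ?_
      · rw [← hr, hr0, ← ha, hNa0]
      · rw [← hb, hNb, hNa0, neg_zero]; linear_combination hyab - hr0
    have hNb0 : sf σ b b ≠ 0 := by rw [hNb, neg_ne_zero]; exact hNa0
    obtain ⟨δ, a', hδ, hδc, ha1, ha2, hsa⟩ : ∃ (δ : F) (a' : κ → F), δ + σ δ = 0 ∧ δ ≠ c ∧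
        sf σ a' a = -sf σ a a + δ ∧ sf σ a' a' = sf σ a a ∧ a + a' ≠ 0 := by
      by_cases hk : 3 ≤ Fintype.card κ
      · obtain ⟨u, h1, h2, h3⟩ := exists_vec_ne hO.std hk hNa0
        exact ⟨0, u, by simp, Ne.symm hc0, by rw [h1, add_zero], h2, h3⟩
      · have hq3 : 3 ≤ q := (hO.small (by have := hO.two_le; omega)).2
        obtain ⟨r0, hr1, hr2⟩ := Finset.exists_mem_notMem_of_card_lt_card (s := ({0, 1} : Finset F))
          (t := Finset.univ.filter fun z : F => σ z = z)
          (by rw [CircleSums.card_fixed hO.std.card hO.std.frob]; exact Finset.card_le_two.trans_lt (by omega))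
        simp only [Finset.mem_insert, Finset.mem_singleton, not_or] at hr2
        have hδ0 : r0 * c ≠ 0 := mul_ne_zero hr2.1 hc0
        obtain ⟨u, h1, h2⟩ := exists_vec hO.std hO.two_le (α := -sf σ a a + r0 * c) hzi hNa (Or.inr (Or.inl hNa0))
        refine ⟨r0 * c, u, ?_, fun e => hr2.2 (mul_right_cancel₀ hc0 (by rw [e, one_mul])), h1, h2, fun e => hδ0 ?_⟩
        · rw [map_mul, (Finset.mem_filter.1 hr1).2]; linear_combination r0 * hc
        · have h3 : u = -a := eq_neg_of_add_eq_zero_right e
          rw [h3, ← neg_one_smul F a, hfk.smul_left] at h1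
          linear_combination -h1
    obtain ⟨b', hb1, hb2⟩ := exists_vec hO.std hO.two_le (r := sf σ b b) (α := c - (-sf σ a a + δ)) hzl
      (norm_fixed (f := sf σ) hfk _) (Or.inr (Or.inl hNb0))
    have hsb : b + b' ≠ 0 := fun e => hδc (by
      rw [eq_neg_of_add_eq_zero_right e, ← neg_one_smul F b, hfk.smul_left, hNb] at hb1
      linear_combination hb1)
    refine combine a' b' (fun e => hNa0 ?_) (fun e => hNb0 ?_) ha2 hb2 ?_ ?_ hsa hsb ?_
    · rw [← ha2, e]; exact UnitCentres.zero_left hfk _
    · rw [← hb2, e]; exact UnitCentres.zero_left hfk _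
    · rw [ha1, hb1]; ring_nf; exact hc0
    · rw [ha1, hb1, show -sf σ a a + δ + (c - (-sf σ a a + δ)) = c by ring, hc]
    · rw [hnorm_add _ _ ha2, ha1, map_add, map_neg, hNa, hr0]; linear_combination hδ
  · obtain ⟨α, hα⟩ := exists_trace hfk (r := r - 2 * sf σ a a) (by rw [map_sub, map_mul, map_ofNat, hrf, hNa])
    have hα' : α ≠ 0 ∨ sf σ a a ≠ 0 := by
      by_contra h
      push Not at h
      rw [h.1, h.2, map_zero] at hα
      exact hr0 (by linear_combination -hα)
    obtain ⟨a', ha1, ha2⟩ := exists_vec hO.std hO.two_le (α := α) hzi hNa (hα'.imp_right Or.inl)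
    have hβ : c - α ≠ 0 ∨ sf σ b b ≠ 0 := by
      by_contra h
      push Not at h
      have h5 : α = c := by linear_combination -h.1
      rw [h5, show sf σ a a = 0 by rw [hNb] at h; linear_combination -h.2, hc] at hα
      exact hr0 (by linear_combination -hα)
    obtain ⟨b', hb1, hb2⟩ := exists_vec hO.std hO.two_le (r := sf σ b b) (α := c - α) hzl
      (norm_fixed (f := sf σ) hfk _) (hβ.imp_right Or.inl)
    have hna : sf σ (a + a') (a + a') = r := by rw [hnorm_add _ _ ha2, ha1]; linear_combination hα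
    have hnb : sf σ (b + b') (b + b') = -r := by
      rw [hnorm_add _ _ hb2, hb1, hNb, map_sub]; linear_combination hc - hα
    refine combine a' b' (fun e => ?_) (fun e => ?_) ha2 hb2 ?_ ?_ (fun e => ?_) (fun e => ?_) hna
    · rcases hα' with h | h
      · exact h (by rw [← ha1, e]; exact UnitCentres.zero_left hfk _)
      · exact h (by rw [← ha2, e]; exact UnitCentres.zero_left hfk _)
    · rcases hβ with h | h
      · exact h (by rw [← hb1, e]; exact UnitCentres.zero_left hfk _)
      · exact h (by rw [← hb2, e]; exact UnitCentres.zero_left hfk _)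
    · rw [ha1, hb1, add_sub_cancel]; exact hc0
    · rw [ha1, hb1, add_sub_cancel, hc]
    · rw [e, UnitCentres.zero_left hfk] at hna; exact hr0 hna.symm
    · rw [e, UnitCentres.zero_left hfk] at hnb; exact hr0 (neg_eq_zero.1 hnb.symm)

/-- A special isometry exchanging members along a permutation. -/
theorem exists_block_perm (π : Equiv.Perm τ) :
    ∃ g ∈ M, ∀ x i, (blk ((g : Matrix (κ × τ) (κ × τ) F) *ᵥ x) (π i) = 0 ↔ blk x i = 0) := by
  classical
  set P : Equiv.Perm (κ × τ) := (Equiv.refl κ).prodCongr π with hP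
  set g0 : GL (κ × τ) F := monoGL P fun _ => (1 : Fˣ) with hg0
  have hg0i : Iso (sf σ) g0 := iso_monoGL P _ fun _ => cir_one σ
  obtain ⟨j⟩ : Nonempty κ := Fintype.card_pos_iff.1 (by have := hO.two_le; omega)
  rcases isEmpty_or_nonempty τ with hτ | ⟨⟨i0⟩⟩
  · exact ⟨1, M.one_mem, fun x i => isEmptyElim i⟩
  have hd : Cir σ (g0 : Matrix (κ × τ) (κ × τ) F).det := det_norm hO.std.isUnitary hg0i
  set c : κ × τ → Fˣ := fun p => if p = (j, i0) then (Units.mk0 _ hd.ne_zero)⁻¹ else 1 with hc
  have hci : ∀ p, Cir σ (c p : F) := fun p => by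
    simp only [hc]; split_ifs
    · rw [Units.val_inv_eq_inv_val]; exact hd.inv
    · exact cir_one σ
  have hblk : ∀ x i, blk (((g0 * dg c : GL (κ × τ) F) : Matrix (κ × τ) (κ × τ) F) *ᵥ x) (π i) =
      fun k => (c (k, i) : F) * x (k, i) := fun x i => funext fun k => by
    rw [Units.val_mul, ← mulVec_mulVec]
    show ((g0 : Matrix (κ × τ) (κ × τ) F) *ᵥ _) (k, π i) = _
    rw [hg0, monoGL_mulVec, Units.val_one, one_mul, dg_mulVec]
    simp [hP]
  refine ⟨g0 * dg c, hO.stab_mem _ (hg0i.mul (iso_dg c hci)) ?_ ⟨π, fun i y => ?_⟩, fun x i => ?_⟩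
  · rw [PseudoRefl.mem_specialLinear_iff, Units.val_mul, det_mul,
      show (dg c : Matrix (κ × τ) (κ × τ) F).det = (Units.mk0 _ hd.ne_zero)⁻¹ from ?_]
    · rw [Units.val_inv_eq_inv_val, Units.val_mk0, mul_inv_cancel₀ hd.ne_zero]
    · show (Matrix.diagonal fun p => (c p : F)).det = _
      rw [Matrix.det_diagonal, ← Units.coe_prod, hc, Finset.prod_ite_eq' Finset.univ (j, i0)]
      simp
  · refine ⟨_, emb_eq_of_blk fun l hl => ?_⟩
    obtain ⟨p, rfl⟩ := π.surjective l
    rw [hblk]
    funext k
    have hne : p ≠ i := fun e => hl (by rw [e])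
    simp [emb, hne]
  · rw [hblk]
    constructor
    · intro h
      funext k
      have := congrFun h k
      simpa [blk] using this
    · intro h
      funext k
      have := congrFun h k
      simp only [blk, Pi.zero_apply] at this
      simp [this]

omit [Fintype F] hO in
open scoped Classical in
/-- The members met by a vector. -/
noncomputable def bsp (x : κ × τ → F) : Finset τ := Finset.univ.filter fun i => blk x i ≠ 0

omit [Fintype F] hO in
theorem mem_bsp {x : κ × τ → F} {i : τ} : i ∈ bsp x ↔ blk x i ≠ 0 := by simp [bsp]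

theorem seed {g : GL (κ × τ) F} (hg : g ∈ M) (hns : ¬ StabBlocks g) :
    ∃ z, Centre hO.std.isUnitary M z ∧ ∃ i l, i ≠ l ∧ blk z i ≠ 0 ∧ blk z l ≠ 0 ∧
      ∀ p, p ≠ i → p ≠ l → blk z p = 0 := by
  classical
  have hf := hO.std.isUnitary (ι := κ × τ)
  have hfk := hO.std.isUnitary (ι := κ)
  -- a centre meeting two members
  obtain ⟨v, hv, i, l, hil, hi, hl⟩ : ∃ v, Centre hO.std.isUnitary M v ∧
      ∃ i l, i ≠ l ∧ blk v i ≠ 0 ∧ blk v l ≠ 0 := by
    by_contra hno
    push Not at hno
    have hone : ∀ (i : τ) (e : κ → F), sf σ e e = 0 → ∀ p p',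
        blk ((g : Matrix (κ × τ) (κ × τ) F) *ᵥ emb i e) p ≠ 0 →
        blk ((g : Matrix (κ × τ) (κ × τ) F) *ᵥ emb i e) p' ≠ 0 → p = p' := fun i e he p p' hp hp' => by
      by_contra hne
      exact hp' (hno _ ((root_emb hO i he).image hg (hO.iso g hg)) p p' hne hp)
    have himg : ∀ i, ∃ p, ∀ e : κ → F, sf σ e e = 0 → ∀ p', p' ≠ p →
        blk ((g : Matrix (κ × τ) (κ × τ) F) *ᵥ emb i e) p' = 0 := by
      intro i
      by_cases hex : ∃ e : κ → F, sf σ e e = 0 ∧ ∃ p, blk ((g : Matrix (κ × τ) (κ × τ) F) *ᵥ emb i e) p ≠ 0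
      · obtain ⟨e0, he0, p, hp⟩ := hex
        refine ⟨p, fun e he p' hp' => ?_⟩
        by_contra hne
        have hz0 : ∀ x, x ≠ p → blk ((g : Matrix (κ × τ) (κ × τ) F) *ᵥ emb i e0) x = 0 := fun x hx => by
          by_contra h; exact hx (hone i e0 he0 x p h hp)
        have hz1 : ∀ x, x ≠ p' → blk ((g : Matrix (κ × τ) (κ × τ) F) *ᵥ emb i e) x = 0 := fun x hx => by
          by_contra h; exact hx (hone i e he x p' h hne)
        have horth : sf σ e0 e = 0 := by
          rw [← sf_emb_emb i e0 e, ← hO.iso g hg, sf_two hO.std (Ne.symm hp') (fun x h1 _ => hz0 x h1),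
            hz1 p (Ne.symm hp'), hz0 p' hp', UnitCentres.zero_left hfk, UnitCentres.zero_right hfk, add_zero]
        have hsum : sf σ (e0 + e) (e0 + e) = 0 := by
          rw [hfk.add_left, UnitCentres.add_right hfk, UnitCentres.add_right hfk, he0, he, horth,
            orth_comm hfk horth]
          ring
        have hemb : emb i (e0 + e) = (emb i e0 + emb i e : κ × τ → F) := funext fun x => by
          by_cases hx : x.2 = i <;> simp [emb, hx]
        refine hp' (hone i _ hsum p' p ?_ ?_)
        · rw [hemb, mulVec_add, blk_add, hz0 p' hp', zero_add]; exact hne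
        · rw [hemb, mulVec_add, blk_add, hz1 p (Ne.symm hp'), add_zero]; exact hp
      · push Not at hex
        exact ⟨i, fun e he p' _ => hex e he p'⟩
    choose π hπ using himg
    have hall : ∀ i y p', p' ≠ π i → blk ((g : Matrix (κ × τ) (κ × τ) F) *ᵥ emb i y) p' = 0 := by
      intro i y p' hp'
      have hy : y ∈ Submodule.span F {e : κ → F | sf σ e e = 0} := by
        rw [span_isotropic hO.std hO.two_le]; trivial
      induction hy using Submodule.span_induction with
      | mem e he => exact hπ i e he p' hp'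
      | zero =>
        rw [show emb i (0 : κ → F) = 0 from funext fun x => by simp [emb], mulVec_zero]
        rfl
      | add a b _ _ ha hb =>
        rw [show emb i (a + b) = emb i a + emb i b from funext fun x => by
          by_cases hx : x.2 = i <;> simp [emb, hx], mulVec_add, blk_add, ha, hb, add_zero]
      | smul c a _ ha =>
        rw [show emb i (c • a) = c • emb i a from funext fun x => by simp [emb], mulVec_smul, blk_smul,
          ha, smul_zero]
    have hsurj : Function.Surjective π := by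
      intro p
      by_contra hp
      push Not at hp
      obtain ⟨j⟩ : Nonempty κ := Fintype.card_pos_iff.1 (by have := hO.two_le; omega)
      set x := ((g⁻¹ : GL (κ × τ) F) : Matrix (κ × τ) (κ × τ) F) *ᵥ emb p (Pi.single j 1) with hx
      have hxs : x = ∑ i, emb i (blk x i) := funext fun ⟨k, i⟩ => by
        simp [Finset.sum_apply, emb, blk]
      have h1 : blk ((g : Matrix (κ × τ) (κ × τ) F) *ᵥ x) p = 0 := by
        rw [hxs, mulVec_sum]
        funext k
        simp only [blk, Finset.sum_apply, Pi.zero_apply]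
        exact Finset.sum_eq_zero fun i _ => congrFun (hall i _ p (Ne.symm (hp i))) k
      rw [hx, mulVec_inv_mulVec, blk_emb, if_pos rfl] at h1
      simpa using congrFun h1 j
    exact hns ⟨Equiv.ofBijective π ⟨Finite.injective_iff_surjective.2 hsurj, hsurj⟩, fun i y =>
      ⟨_, emb_eq_of_blk (hall i y)⟩⟩
  set a := blk v i with ha
  set b := blk v l with hb
  obtain ⟨c, hc0, hc⟩ := exists_traceZero hf
  by_cases hq : 3 ≤ q
  · obtain ⟨e, he, hae⟩ := exists_isotropic_hit hO.std hO.two_le hi
    obtain ⟨e', he', hbe⟩ := exists_isotropic_hit hO.std hO.two_le hl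
    set N1 := sf σ a e * σ (sf σ a e) with hN1
    set N2 := sf σ b e' * σ (sf σ b e') with hN2
    have hN10 : N1 ≠ 0 := mul_ne_zero hae (by simpa using hae)
    have hN20 : N2 ≠ 0 := mul_ne_zero hbe (by simpa using hbe)
    obtain ⟨r, hr, hr'⟩ := Finset.exists_mem_notMem_of_card_lt_card
      (s := ({0, -N1 / N2} : Finset F)) (t := Finset.univ.filter fun z : F => σ z = z)
      (by rw [CircleSums.card_fixed hO.std.card hO.std.frob]; exact Finset.card_le_two.trans_lt (by omega))
    simp only [Finset.mem_insert, Finset.mem_singleton, not_or] at hr'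
    have hrc : r * c + σ (r * c) = 0 := by
      rw [map_mul, (Finset.mem_filter.1 hr).2]; linear_combination r * hc
    obtain ⟨he1, hT1⟩ := root_emb hO i he
    obtain ⟨he2, hT2⟩ := root_emb hO l he'
    have hv2 := (hv.image (hT1 c hc) (uT_iso hf he1 hc)).image (hT2 _ hrc) (uT_iso hf he2 hrc)
    set v2 := (uT hf he2 (r * c) : Matrix (κ × τ) (κ × τ) F) *ᵥ
      ((uT hf he1 c : Matrix (κ × τ) (κ × τ) F) *ᵥ v) with hv2'
    have horth : sf σ (emb i e) (emb l e' : κ × τ → F) = 0 := by
      rw [sf_emb_left, blk_emb, if_neg hil]; exact UnitCentres.zero_right hfk _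
    have hv2e : v2 = v + (c * sf σ a e) • emb i e + (r * c * sf σ b e') • emb l e' := by
      rw [hv2', uT_mulVec, uT_mulVec, hf.add_left, hf.smul_left, horth, mul_zero, add_zero,
        sf_emb_right, sf_emb_right]
    have hfv : sf σ v2 v = c * N1 + r * c * N2 := by
      rw [hv2e, hf.add_left, hf.add_left, hv.iso, hf.smul_left, hf.smul_left, sf_emb_left, sf_emb_left,
        hfk.herm e (blk v i), hfk.herm e' (blk v l), hN1, hN2, ha, hb]
      ring
    have hne : sf σ v2 v ≠ 0 := by
      rw [hfv]
      intro h0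
      refine hr'.2 ?_
      rw [eq_div_iff hN20]
      exact mul_left_cancel₀ hc0 (by linear_combination h0)
    have hz : (1 : F) • v2 + (-1 : F) • v = (c * sf σ a e) • emb i e + (r * c * sf σ b e') • emb l e' := by
      rw [hv2e]; module
    have hzc := hv2.line hv hne (a := 1) (b := -1) (by
      rw [hz, hf.add_left, UnitCentres.add_right hf, UnitCentres.add_right hf, hf.smul_left, hf.smul_left,
        hf.smul_left, hf.smul_left, smul_right hf, smul_right hf, smul_right hf, smul_right hf,
        sf_emb_emb, sf_emb_emb, he, he', horth, orth_comm hf horth]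
      ring)
    rw [hz] at hzc
    have he0 : e ≠ 0 := fun h => hae (by rw [h]; exact UnitCentres.zero_right hfk _)
    have he0' : e' ≠ 0 := fun h => hbe (by rw [h]; exact UnitCentres.zero_right hfk _)
    refine ⟨_, hzc, i, l, hil, ?_, ?_, fun p h1 h2 => ?_⟩
    · rw [blk_add, blk_smul, blk_smul, blk_emb, blk_emb, if_pos rfl, if_neg hil, smul_zero, add_zero]
      exact smul_ne_zero (mul_ne_zero hc0 hae) he0
    · rw [blk_add, blk_smul, blk_smul, blk_emb, blk_emb, if_neg (Ne.symm hil), if_pos rfl, smul_zero, zero_add]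
      exact smul_ne_zero (mul_ne_zero (mul_ne_zero hr'.1 hc0) hbe) he0'
    · rw [blk_add, blk_smul, blk_smul, blk_emb, blk_emb, if_neg h1, if_neg h2, smul_zero, smul_zero, add_zero]
  · have hq2 : q = 2 := by have := hO.std.two_le; omega
    have hk : 3 ≤ Fintype.card κ := by
      by_contra h
      have := (hO.small (by have := hO.two_le; omega)).2
      omega
    obtain ⟨x, hx0, hxc⟩ : ∃ x : F, x ≠ 0 ∧ x ≠ c := by
      obtain ⟨x, -, hx⟩ := Finset.exists_mem_notMem_of_card_lt_card (s := ({0, c} : Finset F))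
        (t := (Finset.univ : Finset F))
        (by rw [Finset.card_univ, hO.std.card, hq2]; exact Finset.card_le_two.trans_lt (by norm_num))
      simp only [Finset.mem_insert, Finset.mem_singleton, not_or] at hx
      exact ⟨x, hx⟩
    obtain ⟨a', ha1, ha2⟩ := exists_vec hO.std hO.two_le (α := sf σ a a + x) hi
      (norm_fixed (f := sf σ) hfk a) (Or.inr (Or.inr hk))
    obtain ⟨b', hb1, hb2⟩ := exists_vec hO.std hO.two_le (α := sf σ b b + (c - x)) hl
      (norm_fixed (f := sf σ) hfk b) (Or.inr (Or.inr hk))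
    have ha'0 : a' ≠ 0 := fun h => hx0 (by
      rw [h, UnitCentres.zero_left hfk] at ha1 ha2
      linear_combination -ha1 + ha2)
    have hb'0 : b' ≠ 0 := fun h => sub_ne_zero.2 (Ne.symm hxc) (by
      rw [h, UnitCentres.zero_left hfk] at hb1 hb2
      linear_combination -hb1 + hb2)
    set v' := v + emb i (a' - a) + emb l (b' - b) with hv'
    have hv'i : blk v' i = a' := by
      rw [hv', blk_add, blk_add, blk_emb, blk_emb, if_pos rfl, if_neg hil, ← ha, add_zero, add_sub_cancel]
    have hv'l : blk v' l = b' := by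
      rw [hv', blk_add, blk_add, blk_emb, blk_emb, if_pos rfl, if_neg (Ne.symm hil), ← hb, add_zero,
        add_sub_cancel]
    have hv'o : ∀ p, p ≠ i → p ≠ l → blk v' p = blk v p := fun p h1 h2 => by
      rw [hv', blk_add, blk_add, blk_emb, blk_emb, if_neg h1, if_neg h2, add_zero, add_zero]
    have hC' := pair_move hO hv hil hv'o (fun h => absurd h (by omega)) hi hl (by rw [hv'i]; exact ha'0)
      (by rw [hv'l]; exact hb'0) (by rw [hv'i]; exact ha2) (by rw [hv'l]; exact hb2)
    have hz : (1 : F) • v' + (-1 : F) • v = emb i (a' - a) + emb l (b' - b) := by rw [hv']; module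
    have hzo : ∀ p, p ≠ i → p ≠ l → blk (emb i (a' - a) + emb l (b' - b) : κ × τ → F) p = 0 :=
      fun p h1 h2 => by rw [blk_add, blk_emb, blk_emb, if_neg h1, if_neg h2, add_zero]
    have hzi : blk (emb i (a' - a) + emb l (b' - b) : κ × τ → F) i = a' - a := by
      rw [blk_add, blk_emb, blk_emb, if_pos rfl, if_neg hil, add_zero]
    have hzl : blk (emb i (a' - a) + emb l (b' - b) : κ × τ → F) l = b' - b := by
      rw [blk_add, blk_emb, blk_emb, if_pos rfl, if_neg (Ne.symm hil), zero_add]
    have hfv : sf σ v' v = c := by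
      have e : v' = v + (emb i (a' - a) + emb l (b' - b)) := by rw [hv', add_assoc]
      rw [e, hf.add_left, hv.iso, zero_add, sf_two hO.std hil hzo, hzi, hzl, UnitCentres.sub_left hfk,
        UnitCentres.sub_left hfk, ← ha, ← hb, ha1, hb1]
      ring
    have hzc := hC'.line hv (by rw [hfv]; exact hc0) (a := 1) (b := -1) (by
      rw [hf.add_left, UnitCentres.add_right hf, UnitCentres.add_right hf, hf.smul_left, hf.smul_left,
        hf.smul_left, hf.smul_left, smul_right hf, smul_right hf, smul_right hf, smul_right hf, hC'.iso,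
        hv.iso, hf.herm v v', hfv, map_one, map_neg, map_one]
      linear_combination -hc)
    rw [hz] at hzc
    refine ⟨_, hzc, i, l, hil, ?_, ?_, hzo⟩
    · rw [hzi]; intro h
      rw [sub_eq_zero.1 h] at ha1
      exact hx0 (by linear_combination -ha1)
    · rw [hzl]; intro h
      rw [sub_eq_zero.1 h] at hb1
      exact hxc (by linear_combination hb1)

theorem all_centres {g : GL (κ × τ) F} (hg : g ∈ M) (hns : ¬ StabBlocks g) :
    ∀ y, sf σ y y = 0 → Centre hO.std.isUnitary M y := by
  classical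
  have hf := hO.std.isUnitary (ι := κ × τ)
  have hfk := hO.std.isUnitary (ι := κ)
  obtain ⟨z, hz, i0, l0, hil0, hzi0, hzl0, hzo⟩ := seed hO hg hns
  -- a seed on every pair of members
  have seeds : ∀ i l, i ≠ l → ∃ z', Centre hO.std.isUnitary M z' ∧ blk z' i ≠ 0 ∧ blk z' l ≠ 0 ∧
      ∀ p, p ≠ i → p ≠ l → blk z' p = 0 := by
    intro i l hil
    obtain ⟨π, hπi, hπl⟩ : ∃ π : Equiv.Perm τ, π i0 = i ∧ π l0 = l := by
      refine ⟨(Equiv.swap i0 i).trans (Equiv.swap (Equiv.swap i0 i l0) l), ?_, ?_⟩
      · rw [Equiv.trans_apply, Equiv.swap_apply_left]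
        refine Equiv.swap_apply_of_ne_of_ne (fun e => hil0 ?_) hil
        apply (Equiv.swap i0 i).injective
        rw [Equiv.swap_apply_left]; exact e
      · rw [Equiv.trans_apply, Equiv.swap_apply_left]
    obtain ⟨h, hh, hb⟩ := exists_block_perm hO π
    refine ⟨_, hz.image hh (hO.iso h hh), ?_, ?_, fun p h1 h2 => ?_⟩
    · rw [← hπi]; exact fun e => hzi0 ((hb z i0).1 e)
    · rw [← hπl]; exact fun e => hzl0 ((hb z l0).1 e)
    · obtain ⟨p', rfl⟩ := π.surjective p
      exact (hb z p').2 (hzo p' (fun e => h1 (by rw [e, hπi])) fun e => h2 (by rw [e, hπl]))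
  intro y hy
  induction hcard : (bsp y).card using Nat.strong_induction_on generalizing y with
  | _ s IH =>
  obtain h0 | h2 | h3 : s ≤ 1 ∨ s = 2 ∨ 3 ≤ s := by omega
  · by_cases hne : (bsp y).Nonempty
    · obtain ⟨i, hi⟩ := hne
      refine root hO (i := i) (fun l hl => ?_) hy
      by_contra h
      exact hl (Finset.card_le_one.1 (by omega) l (mem_bsp.2 h) i hi)
    · rcases isEmpty_or_nonempty τ with hτ | ⟨⟨i⟩⟩
      · exact root hO (i := i0) (fun l => isEmptyElim l) hy
      · refine root hO (i := i) (fun l _ => ?_) hy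
        by_contra h
        exact hne ⟨l, mem_bsp.2 h⟩
  · subst h2
    obtain ⟨i, l, hil, he⟩ := Finset.card_eq_two.1 hcard
    obtain ⟨z', hz', h1, h2, h4⟩ := seeds i l hil
    refine pair_any hO hz' hil h4 (fun p hp1 hp2 => ?_) h1 h2 (mem_bsp.1 (by rw [he]; simp))
      (mem_bsp.1 (by rw [he]; simp)) hy
    by_contra h
    have := mem_bsp.2 h
    rw [he] at this
    simp [hp1, hp2] at this
  · obtain ⟨i, hi, l, hl, hil⟩ := Finset.one_lt_card.1 (show 1 < (bsp y).card by omega)
    rw [mem_bsp] at hi hl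
    set yi := blk y i with hyi
    set yl := blk y l with hyl
    set Ni := sf σ yi yi with hNi
    obtain ⟨c, hc0, hc, hcond⟩ : ∃ c : F, c ≠ 0 ∧ c + σ c = 0 ∧
        (c - Ni ≠ 0 ∨ sf σ yl yl ≠ 0 ∨ 3 ≤ Fintype.card κ) := by
      obtain ⟨c, hc0, hc⟩ := exists_traceZero hf
      by_cases hk : 3 ≤ Fintype.card κ
      · exact ⟨c, hc0, hc, Or.inr (Or.inr hk)⟩
      by_cases h : c - Ni = 0
      · have hq3 : 3 ≤ q := (hO.small (by have := hO.two_le; omega)).2
        obtain ⟨r0, hr1, hr2⟩ := Finset.exists_mem_notMem_of_card_lt_card (s := ({0, 1} : Finset F))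
          (t := Finset.univ.filter fun z : F => σ z = z)
          (by rw [CircleSums.card_fixed hO.std.card hO.std.frob]; exact Finset.card_le_two.trans_lt (by omega))
        simp only [Finset.mem_insert, Finset.mem_singleton, not_or] at hr2
        refine ⟨r0 * c, mul_ne_zero hr2.1 hc0, ?_, Or.inl fun e => ?_⟩
        · rw [map_mul, (Finset.mem_filter.1 hr1).2]; linear_combination r0 * hc
        · refine hr2.2 (mul_right_cancel₀ hc0 ?_)
          linear_combination e - h
      · exact ⟨c, hc0, hc, Or.inl h⟩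
    obtain ⟨ul, hu1, hu2⟩ := exists_vec hO.std hO.two_le (r := -Ni) (α := c - Ni) hl
      (by rw [map_neg, hNi, norm_fixed (f := sf σ) hfk]) hcond
    set u := emb i yi + emb l ul with hu
    have huo : ∀ p, p ≠ i → p ≠ l → blk u p = 0 := fun p h1 h2 => by
      rw [hu, blk_add, blk_emb, blk_emb, if_neg h1, if_neg h2, add_zero]
    have hui : blk u i = yi := by rw [hu, blk_add, blk_emb, blk_emb, if_pos rfl, if_neg hil, add_zero]
    have hul : blk u l = ul := by
      rw [hu, blk_add, blk_emb, blk_emb, if_neg (Ne.symm hil), if_pos rfl, zero_add]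
    have huu : sf σ u u = 0 := by
      rw [sf_two hO.std hil huo, hui, hul, hu2, ← hNi, add_neg_cancel]
    have huy : sf σ u y = c := by
      rw [sf_two hO.std hil huo, hui, hul, ← hyi, ← hyl, hu1, ← hNi, add_sub_cancel]
    have hucard : (bsp u).card < s := by
      have hsub : bsp u ⊆ {i, l} := fun p hp => by
        by_contra h
        simp only [Finset.mem_insert, Finset.mem_singleton, not_or] at h
        exact mem_bsp.1 hp (huo p h.1 h.2)
      have := Finset.card_le_card hsub
      have := Finset.card_le_two (a := i) (b := l)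
      omega
    have hsub : bsp (y - u) ⊆ (bsp y).erase i := by
      intro p hp
      rw [mem_bsp, blk_sub] at hp
      refine Finset.mem_erase.2 ⟨fun e => hp (by rw [e, hui, ← hyi, sub_self]), ?_⟩
      rcases eq_or_ne p l with rfl | hpl
      · exact mem_bsp.2 hl
      rw [huo p (fun e => hp (by rw [e, hui, ← hyi, sub_self])) hpl, sub_zero] at hp
      exact mem_bsp.2 hp
    have hdcard : (bsp (y - u)).card < s := by
      have h5 := Finset.card_le_card hsub
      have h6 := Finset.card_erase_lt_of_mem (mem_bsp.2 hi)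
      omega
    have hd : sf σ (y - u) (y - u) = 0 := by
      rw [UnitCentres.sub_left hf, UnitCentres.sub_right hf, UnitCentres.sub_right hf, hy, huu,
        hf.herm y u, huy]
      linear_combination -hc
    exact (IH _ hucard u huu rfl).of_move (IH _ hdcard (y - u) hd rfl) (by rw [huy]; exact hc0) hy

end CfsgLib.UnitBlock
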